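import Cfsg.Agent.Mon.YCore
import Cfsg.Prelude.Def_KGroupFacts

/-! Central extensions of the Monster split. -/

set_option autoImplicit false

namespace Cfsg.Lib.Mon.Y

open Subgroup

variable {M : Type} [Group M] {g : ℕ → M} {u : M}

/-- Central extensions split. -/
theorem YD.split (h : YD M g u) {A : Type} [Group A] (f : A →* M) (hf : Function.Surjective f)
    (hk : f.ker ≤ center A) : ∃ j : M →* A, ∀ m, f (j m) = m := by
  classical
  choose s hs using hf
  have cen : ∀ {a b : A}, f a = f b → ∀ x, a * x * a⁻¹ = b * x * b⁻¹ := fun {a b} e x => by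
    have := mem_center_iff.1 (hk (show b⁻¹ * a ∈ f.ker by simp [e])) x
    rw [← mul_inv_cancel_left b a, mul_assoc b, ← this]
    group
  have fix : ∀ a, f a * g 11 * (f a)⁻¹ = g 11 → a * s (g 11) * a⁻¹ = s (g 11) := fun a e => by
    have c1 : ⁅(centralizer {g 11}).comap f, zpowers (s (g 11))⁆ ≤ center A := le_trans (by
      rw [← Subgroup.map_eq_bot_iff, map_commutator, commutator_eq_bot_iff_le_centralizer,
        MonoidHom.map_zpowers, hs, zpowers_eq_closure, centralizer_closure]
      exact map_comap_le _ _) hk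
    have c2 : ⁅(centralizer {g 11}).comap f, (centralizer {g 11}).comap f⁆ ≤ centralizer {s (g 11)} := by
      rw [← centralizer_closure {s (g 11)}, ← zpowers_eq_closure, ← commutator_eq_bot_iff_le_centralizer]
      refine commutator_commutator_eq_bot_of_rotate ?_ ?_
      · exact commutator_eq_bot_iff_le_centralizer.2 (c1.trans (center_le_centralizer _))
      · rw [commutator_comm (zpowers _)]
        exact commutator_eq_bot_iff_le_centralizer.2 (c1.trans (center_le_centralizer _))
    have c3 : f a ∈ (⁅(centralizer {g 11}).comap f, (centralizer {g 11}).comap f⁆).map f := by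
      rw [map_commutator, map_comap_eq_self_of_surjective fun m => ⟨_, hs m⟩,
        ← map_subtype_commutator, h.perf, ← MonoidHom.range_eq_map, range_subtype]
      exact mem_centralizer_singleton_iff.2 (mul_inv_eq_iff_eq_mul.1 e)
    obtain ⟨b, hb, e⟩ := c3
    rw [← cen e, mem_centralizer_singleton_iff.1 (c2 hb), mul_inv_cancel_right]
  let K : M → A := fun y => if e : IsConj (g 11) y then
    s (isConj_iff.1 e).choose * s (g 11) * (s (isConj_iff.1 e).choose)⁻¹ else 1
  have hK : ∀ a, K (f a * g 11 * (f a)⁻¹) = a * s (g 11) * a⁻¹ := fun a => by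
    have e : IsConj (g 11) (f a * g 11 * (f a)⁻¹) := isConj_iff.2 ⟨_, rfl⟩
    have := fix (a⁻¹ * s (isConj_iff.1 e).choose) (by
      rw [map_mul, hs, mul_inv_rev, mul_assoc, mul_assoc, ← mul_assoc (g 11), ← mul_assoc _ (g 11 * _),
        ← mul_assoc _ (g 11), (isConj_iff.1 e).choose_spec]
      simp [mul_assoc])
    simp only [K, dif_pos e]
    rw [← mul_inv_cancel_left a (s _)]
    conv_rhs => rw [← this]
    group
  have eqv : ∀ a y, IsConj (g 11) y → a * K y * a⁻¹ = K (f a * y * (f a)⁻¹) := fun a y hy => by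
    obtain ⟨m, rfl⟩ := isConj_iff.1 hy
    have := hK (a * s m)
    rw [← hs m, hK]
    simp only [map_mul, mul_inv_rev, mul_assoc, hs] at this ⊢
    exact this.symm
  have fK : ∀ y, IsConj (g 11) y → f (K y) = y := fun y hy => by
    obtain ⟨m, rfl⟩ := isConj_iff.1 hy
    rw [← hs m, hK]
    simp [hs]
  have h6 := h.isConj_node (k := 6) (by decide)
  obtain ⟨z, hz⟩ : ∃ z, z * K (g 11 * g 6) = K (g 11) * K (g 6) := ⟨_, inv_mul_cancel_right _ _⟩
  have z1 : ∀ a, a * z = z * a := mem_center_iff.1 (hk (by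
    have := congrArg f hz
    rwa [map_mul, map_mul, fK _ h6, fK _ h.isConj_mul, fK _ (IsConj.refl _), mul_eq_right] at this))
  obtain ⟨y, y1, y2⟩ := h.swap
  have z2 : K (g 11) * K (g 11) = z * z := by
    have := congrArg (fun x => s y * x * (s y)⁻¹) hz
    beta_reduce at this
    rw [← conj_mul, ← conj_mul, eqv _ _ h6, eqv _ _ h.isConj_mul, eqv _ _ (IsConj.refl _), hs,
      ← conj_mul, y1, y2, ← mul_assoc (g 11), h.cox.sq, one_mul] at this
    rw [z1 (s y), mul_inv_cancel_right] at this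
    rw [← mul_left_inj (K (g 6)), mul_assoc, ← hz, ← mul_assoc, z1, mul_assoc, ← this, mul_assoc]
  obtain ⟨j, hj⟩ := h.lift (L := fun y => if IsConj (g 11) y then K y * z⁻¹ else 1) ⟨fun x => by
    split_ifs with e
    · obtain ⟨m, rfl⟩ := isConj_iff.1 e
      have := eqv (s m) _ (IsConj.refl _)
      rw [hs] at this
      rw [← this, (Commute.inv_right (z1 _)).symm.mul_mul_mul_comm, conj_mul, z2, ← mul_inv_rev,
        ← mul_assoc _ z, z1, mul_assoc z, z1]
      group
    · exact one_mul 1, fun m => ⟨s m, fun y hy => by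
      rw [if_pos hy, if_pos (hy.trans (isConj_iff.2 ⟨m, rfl⟩)), ← hs m, ← eqv _ _ hy, hs, ← mul_assoc,
        mul_assoc _ z⁻¹, ← (Commute.inv_right (z1 _)).eq, ← mul_assoc]⟩, by
    rw [if_pos (IsConj.refl _), if_pos h6, if_pos h.isConj_mul,
      (Commute.inv_right (z1 _)).symm.mul_mul_mul_comm, ← hz, ← z1]
    group⟩
  refine ⟨j, h.ind (by simp) fun k hk m ih => ?_⟩
  have := congrArg f hz
  rw [map_mul, map_mul, fK _ h6, fK _ h.isConj_mul, fK _ (IsConj.refl _), mul_eq_right] at this
  rw [map_mul, map_mul, ih, hj _ (h.isConj_node hk), if_pos (h.isConj_node hk), map_mul, map_inv, this,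
    fK _ (h.isConj_node hk), inv_one, mul_one]

theorem YD.multiplier (h : YD M g u) : HasCyclicSchurMultiplier M 1 := by
  have := h.finite
  refine ⟨⟨M, _, this, MonoidHom.id M, ⟨Function.surjective_id, by simp, by simp⟩, ?_⟩,
    fun Γ _ _ σ ⟨h1, h2, h3⟩ => ⟨1, fun x => ⟨1, Subtype.ext ?_⟩⟩⟩
  · rw [MonoidHom.ker_id]
    exact ⟨MulEquiv.ofUnique⟩
  obtain ⟨j, hj⟩ := h.split σ h1 h2
  have h4 : ∀ a, ∃ z ∈ center Γ, a = z * j (σ a) := fun a =>
    ⟨a * (j (σ a))⁻¹, h2 (by simp [hj]), by simp⟩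
  have h5 : commutator Γ ≤ j.range := commutator_le.2 fun a _ b _ => by
    obtain ⟨z, hz, e⟩ := h4 a
    obtain ⟨z', hz', e'⟩ := h4 b
    refine ⟨σ a * σ b * (σ a)⁻¹ * (σ b)⁻¹, ?_⟩
    rw [commutatorElement_def, e, e']
    simp only [map_mul, map_inv, hj, show σ z = 1 by simpa [hj] using congrArg σ e.symm,
      show σ z' = 1 by simpa [hj] using congrArg σ e'.symm, one_mul, mul_inv_rev, mul_assoc]
    rw [← mul_assoc z⁻¹, ← mul_assoc z, ← mem_center_iff.1 hz, mul_assoc, ← mul_assoc z,
      ← mem_center_iff.1 hz, mul_assoc, ← mul_assoc z, ← mem_center_iff.1 hz, mul_assoc, ← mul_assoc z,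
      ← mem_center_iff.1 hz, mul_assoc, ← mul_assoc z, ← mul_assoc z, mul_inv_cancel, one_mul,
      ← mul_assoc z', ← mem_center_iff.1 hz', mul_assoc, ← mul_assoc z', ← mem_center_iff.1 hz',
      mul_assoc, ← mul_assoc z', ← mem_center_iff.1 hz', mul_assoc, mul_inv_cancel, mul_one]
  obtain ⟨m, e⟩ := h5 (h3 x.2)
  have := hj m
  rw [e, x.2] at this
  rw [← e, ← this]
  simp

end Cfsg.Lib.Mon.Y
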