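import Cfsg.Agent.Mon.RUniq
import Cfsg.Agent.Mon.RCub
import Cfsg.Agent.Mon.DceLev

/-! The Monster programme: the representation of degree 196883 and the Norton algebra. -/

set_option autoImplicit false

namespace Cfsg.Lib.Mon

open Cfsg Finset

/-- Summation of a function which is constant on the double cosets. -/
theorem Sys.Res.sum_eq {Γ X : Type*} [Group Γ] [Group X] [Fintype X] {S : Sys Γ X} {K : Subgroup X}
    {U : ℕ → X} {r : ℕ} {n : ℕ → ℕ} (h : S.Res K U r n) (hM : S.M = ⊤) (F : X → ℝ)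
    (hK : ∀ k ∈ K, ∀ x, F (x * k) = F x) (hL : ∀ g ∈ S.L, ∀ x, F (S.ι g * x) = F x) :
    ∑ x, F x = Nat.card K * ∑ i ∈ range r, n i * F (U i)⁻¹ := by
  classical
  let D : ℕ → Finset X := fun i => univ.filter fun x => (x : X ⧸ K) ∈ S.orb K (U i)
  have hD : ∀ i x, x ∈ D i ↔ ∃ g ∈ S.L, x⁻¹ * (U i * S.ι g)⁻¹ ∈ K := fun i x => by
    rw [← Sys.mem_orb, inv_inv]; simp [D]
  have hu : (univ : Finset X) = (range r).biUnion D := (eq_univ_of_forall fun x => by
    obtain ⟨i, hi, hx⟩ := h.cover x⁻¹ (hM ▸ Subgroup.mem_top _)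
    exact mem_biUnion.2 ⟨i, mem_range.2 hi, (hD i x).2 hx⟩).symm
  rw [hu, sum_biUnion, mul_sum]
  · refine sum_congr rfl fun i hi => ?_
    rw [sum_congr rfl (g := fun _ => F (U i)⁻¹) fun x hx => by
      obtain ⟨g, hg, hx⟩ := (hD i x).1 hx
      rw [← hL g hg x, ← hK _ hx]; congr 1; group, sum_const, nsmul_eq_mul, ← mul_assoc,
      ← h.idx i (mem_range.1 hi), ← Sys.ncard_orb, ← Nat.card_coe_set_eq, ← Nat.cast_mul,
      ← QuotientGroup.card_preimage_mk, Nat.card_coe_set_eq, ← Set.ncard_coe_finset]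
    congr 3
    ext x
    simp [D]
  · intro i hi j hj hij
    refine disjoint_left.2 fun x hx hx' => ?_
    obtain ⟨g, hg, hx⟩ := (hD i x).1 hx
    obtain ⟨g', hg', hx'⟩ := (hD j x).1 hx'
    refine hij (h.sep i (mem_range.1 hi) j (mem_range.1 hj) (g * g'⁻¹)
      ⟨S.L.mul_mem hg (S.L.inv_mem hg'), ?_⟩)
    rw [S.mul _ hg _ (S.L.inv_mem hg'), Sys.ι_inv hg']
    convert K.mul_mem (K.inv_mem hx) hx' using 1; group

namespace Rp

/-- An invariant positive definite form. -/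
theorem exists_form {X E : Type*} [Group X] [Finite X] [AddCommGroup E] [Module ℝ E]
    [FiniteDimensional ℝ E] (σ : Representation ℝ X E) : ∃ B : LinearMap.BilinForm ℝ E,
      (∀ u v, B u v = B v u) ∧ (∀ g u v, B (σ g u) (σ g v) = B u v) ∧ ∀ u, B u u = 0 → u = 0 := by
  have := Fintype.ofFinite X
  let b := Module.finBasis ℝ E
  let B : LinearMap.BilinForm ℝ E := ∑ g, ∑ i,
    (LinearMap.mul ℝ ℝ).compl₁₂ (b.coord i ∘ₗ σ g) (b.coord i ∘ₗ σ g)
  have hB : ∀ u v, B u v = ∑ g, ∑ i, b.repr (σ g u) i * b.repr (σ g v) i := fun u v => by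
    simp [B, LinearMap.sum_apply]
  refine ⟨B, fun u v => by simp only [hB, mul_comm], fun g u v => ?_, fun u h => ?_⟩
  · rw [hB, hB]
    conv_rhs => rw [← Equiv.sum_comp (Equiv.mulRight g)]
    simp
  · rw [hB, sum_eq_zero_iff_of_nonneg fun g _ => sum_nonneg fun i _ => mul_self_nonneg _] at h
    have := (sum_eq_zero_iff_of_nonneg fun i _ => mul_self_nonneg _).1 (h 1 (mem_univ _))
    refine b.ext_elem fun i => ?_
    simpa using this i (mem_univ _)

theorem t3_ρ (g : GH) (x y w : V) : t3 (ρL g x) (ρL g y) (ρL g w) = t3 x y w := by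
  let M : V → Matrix GolayPt GolayPt ℝ := fun v => Matrix.of fun i j => cA i j v
  let b : Matrix GolayPt GolayPt ℝ := Matrix.of (bm g)
  have h1 : ∀ x y w, t3 x y w = (M x * M y * M w).trace := fun x y w => by
    simp only [t3, Matrix.trace, Matrix.diag, Matrix.mul_apply, sum_mul, M, Matrix.of_apply]
    exact sum_congr rfl fun i _ => sum_comm
  have h2 : ∀ v, M (ρL g v) = b * M v * b.transpose := fun v => by
    ext i j
    simp only [M, b, Matrix.mul_apply, Matrix.of_apply, cA_ρL_apply, Matrix.transpose_apply, sum_mul]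
    rw [sum_comm]
    exact sum_congr rfl fun k _ => sum_congr rfl fun l _ => by ring
  have h3 : b.transpose * b = 1 := by
    ext k l
    simp only [b, Matrix.mul_apply, Matrix.of_apply, Matrix.transpose_apply, bm_orth, Matrix.one_apply]
  rw [h1, h1, h2, h2, h2]
  simp only [Matrix.mul_assoc]
  rw [Matrix.trace_mul_comm]
  simp only [Matrix.mul_assoc, h3, Matrix.mul_one]
  rw [← Matrix.mul_assoc b.transpose, h3, Matrix.one_mul, ← Matrix.mul_assoc b.transpose, h3,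
    Matrix.one_mul]

theorem t3_comm (x y w : V) : t3 x y w = t3 y x w := by
  unfold t3
  rw [sum_comm, sum_congr rfl fun _ _ => sum_comm, sum_comm]
  refine sum_congr rfl fun i _ => sum_congr rfl fun j _ => sum_congr rfl fun k _ => ?_
  rw [cA_comm k i, cA_comm j k, cA_comm j i]; ring

/-- `t3` as a trilinear map. -/
noncomputable def t3L : V →ₗ[ℝ] V →ₗ[ℝ] V →ₗ[ℝ] ℝ := ∑ i, ∑ j, ∑ k,
  ((LinearMap.mul ℝ ℝ).compl₁₂ (cA i j) (cA j k)).compr₂ (LinearMap.toSpanSingleton ℝ _ (cA k i))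

theorem t3L_apply (x y w : V) : t3L x y w = t3 x y w := by
  simp only [t3L, t3, LinearMap.sum_apply, LinearMap.compr₂_apply, LinearMap.compl₁₂_apply,
    LinearMap.mul_apply', LinearMap.toSpanSingleton_apply, LinearMap.smul_apply, smul_eq_mul]

/-- A faithful action of `X` on the model. -/
structure RepD {X : Type*} [Group X] (A : Am X) (π : X →* V ≃ₗ[ℝ] V) : Prop where
  fin : Finite X
  inj : Function.Injective π
  hι : ∀ g, π (A.ι g) = ρ g
  hτ : π A.τ = τ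
  gen : A.Gen
  res : (A.sys ⊤).Res A.H1 ((A.sys ⊤).U WM) nM.length fun i => nM.getD i 0

variable {X : Type*} [Group X] {A : Am X} {π : X →* V ≃ₗ[ℝ] V}

theorem RepD.induction (h : RepD A π) (P : Subgroup (V ≃ₗ[ℝ] V)) (h1 : ∀ g, ρ g ∈ P) (h2 : τ ∈ P)
    (x : X) : π x ∈ P :=
  (Subgroup.closure_le (P.comap π)).2 (by
    rintro _ (⟨g, rfl⟩ | rfl)
    · exact Subgroup.mem_comap.2 (h.hι g ▸ h1 g)
    · exact Subgroup.mem_comap.2 (h.hτ ▸ h2)) (h.gen.ge (Subgroup.mem_top x))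

theorem RepD.fix (h : RepD A π) (x : X) : π x vI = vI :=
  h.induction (MulAction.stabilizer _ vI) ρ_vI τ_vI x

theorem RepD.tr (h : RepD A π) (x : X) (v : V) : trV (π x v) = trV v :=
  h.induction
    { carrier := {a | ∀ v, trV (a v) = trV v}
      one_mem' := fun _ => rfl
      mul_mem' := fun ha hb v => (ha _).trans (hb v)
      inv_mem' := fun {a} ha v => (ha _).symm.trans (congrArg trV (a.apply_symm_apply v)) }
    trV_ρ trV_τ x v

theorem trV_pj_vp : trV (pj vp) = 0 := by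
  have : trV vp = 2 := by
    rw [trV_apply]
    simp only [vp, cA_axv]
    rw [Cfsg.Lib.Spor.CK.sum_golayPt]
    simp only [sum_range_succ, sum_range_zero]
    simp (disch := norm_num) only [Cfsg.Lib.Spor.CK.idxPt_inj]
    norm_num
  rw [pj, map_sub, map_smul, this, trV_vI]; norm_num

/-- The averaged cubic form does not vanish at the axis. -/
theorem RepD.sum_ne (h : RepD A π) [Fintype X] :
    ∑ x, t3 (π x (pj vp)) (π x (pj vp)) (π x (pj vp)) ≠ 0 := by
  have e : ∀ x, π x (pj vp) = pj (π x vp) := fun x => by rw [pj, map_sub, map_smul, h.fix]; rfl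
  have hK : A.H1 ≤ (MulAction.stabilizer (V ≃ₗ[ℝ] V) vp).comap π := (Subgroup.closure_le _).2 (by
    rintro _ (⟨g, hg, rfl⟩ | rfl)
    · exact Subgroup.mem_comap.2 (h.hι g ▸ (ρ_mem_stab_vp g).2 (coe_H.ge hg))
    · exact Subgroup.mem_comap.2 (h.hτ ▸ τ_mem_stab_vp))
  rw [h.res.sum_eq (A.sys_M_top h.gen) _ (fun k hk x => by
    rw [e, e, map_mul, LinearEquiv.mul_apply, show π k vp = vp from hK hk]) fun g _ x => by
      rw [Am.sys_ι, map_mul, h.hι]; exact t3_ρ g _ _ _]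
  refine mul_ne_zero (by exact_mod_cast Nat.card_pos.ne') fun h0 => ?_
  have h1 : ∀ i ∈ range 12, (196608 : ℝ) ^ 3 * ((nM.getD i 0 : ℕ) * t3
      (π ((A.sys ⊤).U WM i)⁻¹ (pj vp)) (π ((A.sys ⊤).U WM i)⁻¹ (pj vp))
      (π ((A.sys ⊤).U WM i)⁻¹ (pj vp))) = ((nM.getD i 0 * cM.getD i 0 : ℤ) : ℝ) := fun i hi => by
    have h2 : π ((A.sys ⊤).U WM i)⁻¹ vp = Sp.M0.wv vp (WM.getD i []) := by
      rw [map_inv, Am.map_wdH h.hι h.hτ]
      exact Sp.SI.wd_smul (M := Sp.M0) (fun _ => rfl) rfl vp _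
    rw [e, h2, mul_left_comm, cub_all i (mem_range.1 hi)]
    push_cast; rfl
  have h2 := congrArg ((196608 : ℝ) ^ 3 * ·) h0
  simp only [mul_sum, mul_zero] at h2
  rw [show nM.length = 12 from rfl, sum_congr rfl h1, ← Int.cast_sum, Int.cast_eq_zero] at h2
  revert h2
  decide +kernel

section
variable {E : Type*} [AddCommGroup E] [Module ℝ E] {inc : E →ₗ[ℝ] V} {σ : Representation ℝ X E}

theorem RepD.inv_map (h : RepD A π) (hr : ∀ u, trV (inc u) = 0)
    (hσ : ∀ g u, inc (σ g u) = π g (inc u)) {W : Submodule ℝ E} (hW : ∀ g, W.map (σ g) ≤ W) :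
    Inv (W.map inc) := by
  refine ⟨?_, ?_, ?_⟩
  · rintro g _ ⟨u, hu, rfl⟩
    exact ⟨_, hW (A.ι g) ⟨u, hu, rfl⟩, by rw [hσ, h.hι]; rfl⟩
  · rintro _ ⟨u, hu, rfl⟩
    exact ⟨_, hW A.τ ⟨u, hu, rfl⟩, by rw [hσ, h.hτ, labOK.τ_apply]⟩
  · rintro _ ⟨u, -, rfl⟩
    exact hr u

/-- An equivariant product is determined by one structure constant. -/
theorem RepD.prod_eq_zero [FiniteDimensional ℝ E] (h : RepD A π) (hi : Function.Injective inc)
    (hr : ∀ u, trV (inc u) = 0) (hs : ∀ f : Module.Dual ℝ E, ∃ f' : VD, f' ∘ₗ inc = f)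
    (hσ : ∀ g u, inc (σ g u) = π g (inc u)) {B : LinearMap.BilinForm ℝ E} (hB : B.Nondegenerate)
    (hB' : ∀ g u v, B (σ g u) (σ g v) = B u v) (m : E →ₗ[ℝ] E →ₗ[ℝ] E)
    (hm : ∀ g u v, m (σ g u) (σ g v) = σ g (m u v))
    (h0 : cS (pmul pT pT2) (inc (m ((B.toDual hB).symm (cS pT ∘ₗ inc))
      ((B.toDual hB).symm (cS pT2 ∘ₗ inc)))) = 0) : m = 0 := by
  let s : VD →ₗ[ℝ] E := (B.toDual hB).symm.toLinearMap ∘ₗ inc.dualMap
  let T : T3 := (m.compl₁₂ s s).compr₂ (Module.Dual.eval ℝ V ∘ₗ inc)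
  have hT : ∀ f f' f'', T f f' f'' = f'' (inc (m (s f) (s f'))) := fun _ _ _ => rfl
  have hs1 : ∀ x (f : VD), σ x (s (f ∘ₗ (π x : V →ₗ[ℝ] V))) = s f := fun x f =>
    (B.toDual hB).injective (LinearMap.ext fun v => by
      have e : v = σ x (σ x⁻¹ v) := by rw [← Module.End.mul_apply, ← map_mul]; simp
      rw [LinearMap.BilinForm.toDual_def, LinearMap.BilinForm.toDual_def]
      conv_lhs => rw [e, hB']
      change B ((B.toDual hB).symm _) _ = B ((B.toDual hB).symm _) _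
      rw [LinearMap.BilinForm.apply_toDual_symm_apply, LinearMap.BilinForm.apply_toDual_symm_apply]
      change f (π x (inc _)) = f (inc v)
      rw [← hσ, ← e])
  have hx : ∀ x (f f' f'' : VD), T (f ∘ₗ (π x : V →ₗ[ℝ] V)) (f' ∘ₗ (π x : V →ₗ[ℝ] V))
      (f'' ∘ₗ (π x : V →ₗ[ℝ] V)) = T f f' f'' := fun x f f' f'' => by
    rw [hT, hT, ← hs1 x f, ← hs1 x f', hm, hσ]; rfl
  have ht : s trV = 0 := by
    change (B.toDual hB).symm (trV ∘ₗ inc) = 0
    rw [show trV ∘ₗ inc = 0 from LinearMap.ext hr, map_zero]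
  have hI : InvT T := ⟨fun g => by have := hx (A.ι g); rwa [h.hι] at this,
    by have := hx A.τ; rwa [h.hτ, labOK.τ_coe] at this,
    fun f f' => by rw [hT, ht]; simp, fun f f' => by rw [hT, ht]; simp⟩
  have hss : Function.Surjective s := fun u => by
    obtain ⟨f, hf⟩ := hs (B.toDual hB u)
    exact ⟨f, (B.toDual hB).symm_apply_eq.2 hf⟩
  let W : Submodule ℝ E := Submodule.span ℝ {w | ∃ u v, w = m u v}
  have hW : W.map inc = ⊥ := (h.inv_map hr hσ fun g => by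
    rw [Submodule.map_span_le]
    rintro _ ⟨u, v, rfl⟩
    exact Submodule.subset_span ⟨_, _, (hm g u v).symm⟩).eq_bot isSh_p1 (by
      rintro _ ⟨w, hw, rfl⟩
      refine Submodule.span_le (p := LinearMap.ker (cS (Tp 2 1) ∘ₗ inc)) |>.2 ?_ hw
      rintro _ ⟨u, v, rfl⟩
      obtain ⟨f, rfl⟩ := hss u
      obtain ⟨f', rfl⟩ := hss v
      exact hI.rad h0 f f')
  ext u v
  exact hi ((Submodule.eq_bot_iff _).1 hW _ ⟨_, Submodule.subset_span ⟨u, v, rfl⟩, rfl⟩ |>.trans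
    (map_zero inc).symm)

end

/-- The Norton pair. -/
theorem RepD.norton (h : RepD A π) {E : Type*} [AddCommGroup E] [Module ℝ E]
    (e : E ≃ₗ[ℝ] LinearMap.ker trV) : ∃ σ : Representation ℝ X E, Function.Injective σ ∧
    (∀ W : Submodule ℝ E, (∀ g, W.map (σ g) ≤ W) → W = ⊥ ∨ W = ⊤) ∧
    (∃ B : LinearMap.BilinForm ℝ E, B ≠ 0 ∧ (∀ u v, B u v = B v u) ∧
      ∀ g u v, B (σ g u) (σ g v) = B u v) ∧
    ∃ m : E →ₗ[ℝ] E →ₗ[ℝ] E, m ≠ 0 ∧ (∀ u v, m u v = m v u) ∧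
      (∀ g u v, m (σ g u) (σ g v) = σ g (m u v)) ∧ ∀ m' : E →ₗ[ℝ] E →ₗ[ℝ] E,
        (∀ g u v, m' (σ g u) (σ g v) = σ g (m' u v)) → ∃ c : ℝ, m' = c • m := by
  have := h.fin
  have := Fintype.ofFinite X
  have : FiniteDimensional ℝ V := Module.finite_of_finrank_pos (by rw [finrank_V]; norm_num)
  have : FiniteDimensional ℝ E := e.symm.finiteDimensional
  let inc : E →ₗ[ℝ] V := (LinearMap.ker trV).subtype ∘ₗ e.toLinearMap
  have hi : Function.Injective inc := Subtype.val_injective.comp e.injective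
  have hr : ∀ u, trV (inc u) = 0 := fun u => (e u).2
  have hr' : ∀ v, trV v = 0 → ∃ u, inc u = v := fun v hv =>
    ⟨e.symm ⟨v, hv⟩, congrArg Subtype.val (e.apply_symm_apply _)⟩
  let s : X → E →ₗ[ℝ] E := fun g => e.symm.toLinearMap ∘ₗ
    ((π g : V →ₗ[ℝ] V) ∘ₗ inc).codRestrict _ fun u => (h.tr g _).trans (hr u)
  have hs : ∀ g u, inc (s g u) = π g (inc u) := fun g u => congrArg Subtype.val (e.apply_symm_apply _)
  let σ : Representation ℝ X E :=
    { toFun := s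
      map_one' := LinearMap.ext fun u => hi (by rw [hs, map_one]; rfl)
      map_mul' := fun g g' => LinearMap.ext fun u => hi (by
        rw [Module.End.mul_apply, hs, hs, hs, map_mul]; rfl) }
  have hσ : ∀ g u, inc (σ g u) = π g (inc u) := hs
  obtain ⟨B, b1, b2, b3⟩ := exists_form σ
  have hB : B.Nondegenerate := ⟨fun u hu => b3 u (hu u), fun u hu => b3 u (hu u)⟩
  obtain ⟨T, hT⟩ : ∃ T : E →ₗ[ℝ] E →ₗ[ℝ] Module.Dual ℝ E, ∀ u v w,
      T u v w = ∑ x, t3 (π x (inc u)) (π x (inc v)) (π x (inc w)) :=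
    ⟨∑ x, ((t3L.compl₁₂ ((π x : V →ₗ[ℝ] V) ∘ₗ inc) ((π x : V →ₗ[ℝ] V) ∘ₗ inc)).compr₂
      ((π x : V →ₗ[ℝ] V) ∘ₗ inc).dualMap), fun u v w => by
        simp only [LinearMap.sum_apply, ← t3L_apply, LinearMap.compr₂_apply,
          LinearMap.compl₁₂_apply, LinearMap.dualMap_apply, LinearMap.comp_apply, LinearEquiv.coe_coe]⟩
  obtain ⟨m, hm⟩ : ∃ m : E →ₗ[ℝ] E →ₗ[ℝ] E, ∀ u v w, B (m u v) w = T u v w :=
    ⟨T.compr₂ (B.toDual hB).symm.toLinearMap, fun u v w =>
      LinearMap.BilinForm.apply_toDual_symm_apply (hB := hB) (T u v) w⟩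
  obtain ⟨u0, hu0⟩ := hr' _ trV_pj_vp
  have hm0 : m ≠ 0 := fun h0 => h.sum_ne (by rw [← hu0, ← hT, ← hm, h0]; simp)
  have hm1 : ∀ g u v, m (σ g u) (σ g v) = σ g (m u v) := fun g u v =>
    (B.toDual hB).injective (LinearMap.ext fun w => by
      have e : w = σ g (σ g⁻¹ w) := by rw [← Module.End.mul_apply, ← map_mul]; simp
      rw [LinearMap.BilinForm.toDual_def, LinearMap.BilinForm.toDual_def, e, b2, hm, hm, hT, hT]
      conv_rhs => rw [← Equiv.sum_comp (Equiv.mulRight g)]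
      simp only [hσ, Equiv.coe_mulRight, map_mul, LinearEquiv.mul_apply])
  have hd : ∀ f : Module.Dual ℝ E, ∃ f' : VD, f' ∘ₗ inc = f :=
    LinearMap.dualMap_surjective_of_injective hi
  refine ⟨σ, fun g g' e1 => h.inj (LinearEquiv.ext fun v => ?_), fun W hW => ?_,
    ⟨B, fun h0 => hm0 (LinearMap.ext₂ fun u v => b3 _ (by rw [h0]; rfl)), b1, b2⟩, m, hm0,
    fun u v => (B.toDual hB).injective (LinearMap.ext fun w => ?_), hm1, fun m' hm' => ?_⟩
  · obtain ⟨u, hu⟩ := hr' (v - (trV v / 24) • vI) (by rw [map_sub, map_smul, trV_vI]; simp)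
    rw [← sub_add_cancel v ((trV v / 24) • vI), ← hu, map_add, map_add, map_smul, map_smul, h.fix,
      h.fix, ← hσ, ← hσ, e1]
  · have hd : Disjoint W (B.orthogonal W) := Submodule.disjoint_def.2 fun u a b => b3 u (b u a)
    have hc := (LinearMap.BilinForm.isCompl_orthogonal_iff_disjoint
      (fun u v a => (b1 v u).trans a)).2 hd
    have hb : ∀ W : Submodule ℝ E, W.map inc = ⊥ → W = ⊥ := fun W a =>
      Submodule.map_injective_of_injective hi (a.trans (Submodule.map_bot _).symm)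
    by_contra hn
    rw [not_or] at hn
    refine (h.inv_map hr hσ hW).inf_ne_bot (h.inv_map (W := B.orthogonal W) hr hσ fun g => ?_)
      (fun a => hn.1 (hb _ a)) (fun a => hn.2 ?_) ?_
    · rintro _ ⟨u, hu, rfl⟩ w hw
      have e : w = σ g (σ g⁻¹ w) := by rw [← Module.End.mul_apply, ← map_mul]; simp
      change B w _ = 0
      rw [e, b2]
      exact hu _ (hW g⁻¹ ⟨w, hw, rfl⟩)
    · rw [← hc.sup_eq_top, hb _ a, sup_bot_eq]
    · rw [← Submodule.map_inf _ hi, hd.eq_bot, Submodule.map_bot]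
  · rw [LinearMap.BilinForm.toDual_def, LinearMap.BilinForm.toDual_def, hm, hm, hT, hT]
    exact sum_congr rfl fun x _ => t3_comm _ _ _
  · let c : (E →ₗ[ℝ] E →ₗ[ℝ] E) → ℝ := fun m => cS (pmul pT pT2) (inc (m
      ((B.toDual hB).symm (cS pT ∘ₗ inc)) ((B.toDual hB).symm (cS pT2 ∘ₗ inc))))
    have hc : c m ≠ 0 := fun h0 => hm0 (h.prod_eq_zero hi hr hd hσ hB b2 m hm1 h0)
    refine ⟨c m' / c m, sub_eq_zero.1 (h.prod_eq_zero hi hr hd hσ hB b2 _ (fun g u v => ?_) ?_)⟩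
    · simp only [LinearMap.sub_apply, LinearMap.smul_apply, hm', hm1, map_sub, map_smul]
    · simp only [LinearMap.sub_apply, LinearMap.smul_apply, map_sub, map_smul, smul_eq_mul]
      change c m' - c m' / c m * c m = 0
      rw [div_mul_cancel₀ _ hc, sub_self]

end Rp

end Cfsg.Lib.Mon
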