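import Cfsg.Agent.Mon.BFull
import Cfsg.Agent.Mon.MFin

/-! A real representation of the Baby Monster of degree at most 4371. -/

set_option autoImplicit false

namespace Cfsg.Lib.Mon.B4

open Cfsg Cfsg.Lib.Spor Cfsg.Lib.Spor.CK Subgroup

local notation "𝓗" => FxS [pT]

theorem H1_ind {X : Type*} [Group X] {A : Am X} {P : A.H1 → Prop} (h1 : ∀ a, P (A.ιH a)) (h2 : P A.τH)
    (h3 : ∀ x y, P x → P y → P (x * y)) (y : A.H1) : P y := by
  refine closure_induction'' (p := fun x _ => P x) ?_ ?_ (map_one A.ιH ▸ h1 1) (fun x y _ _ => h3 x y)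
    (Am.gen_H1.ge (mem_top y))
  · rintro _ (⟨a, rfl⟩ | rfl)
    exacts [h1 a, h2]
  · rintro _ (⟨a, rfl⟩ | rfl)
    · exact map_inv A.ιH a ▸ h1 _
    · have : A.τH⁻¹ = A.τH * A.τH := inv_eq_of_mul_eq_one_right (Subtype.ext (by
        have := A.h3
        rwa [pow_succ', pow_two] at this))
      exact this ▸ h3 _ _ h2 h2

theorem ncard_Cn_le : Cn.ncard ≤ 2300 := by
  have k : ∀ c ∈ Cn, c < 2 ^ 24 ∧ c.testBit 14 = false := fun c h => h.2
  have b : ∀ c < 2 ^ 24, c.testBit 24 = false := fun c h => Nat.testBit_lt_two_pow h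
  have h := Set.ncard_le_ncard_of_injOn (s := Cn ×ˢ ({0, pT, 2 ^ 24, pT ^^^ 2 ^ 24} : Finset ℕ))
    (t := Orb 𝓗 pT2) (fun a => a.1 ^^^ a.2) (by
      rintro ⟨c, w⟩ ⟨h, h'⟩
      have h1 : c < 2 ^ 25 := (k c h).1.trans (by norm_num)
      simp only [Finset.coe_insert, Finset.coe_singleton, Set.mem_insert_iff, Set.mem_singleton_iff] at h'
      refine orb_sim h.1 (Nat.xor_lt_two_pow h1 (show w < _ by
        rcases h' with rfl | rfl | rfl | rfl <;> decide)) ?_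
      rcases h' with rfl | rfl | rfl | rfl
      · exact Or.inl (by rw [Nat.xor_zero])
      · exact Or.inr rfl
      · exact Or.inl (xor_neg_mod c)
      · exact Or.inr (by rw [← Nat.xor_assoc, xor_neg_mod])) (by
      rintro ⟨c, w⟩ ⟨h, h'⟩ ⟨c', w'⟩ ⟨g, g'⟩ e
      have e1 := congrArg (·.testBit 14) e
      have e2 := congrArg (·.testBit 24) e
      simp only [Nat.testBit_xor, (k c h).2, (k c' g).2, b c (k c h).1, b c' (k c' g).1, Bool.false_xor]
        at e1 e2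
      obtain rfl := (by decide : ∀ w ∈ ({0, pT, 2 ^ 24, pT ^^^ 2 ^ 24} : Finset ℕ),
        ∀ w' ∈ ({0, pT, 2 ^ 24, pT ^^^ 2 ^ 24} : Finset ℕ), w.testBit 14 = w'.testBit 14 →
          w.testBit 24 = w'.testBit 24 → w = w') w h' w' g' e1 e2
      exact Prod.ext (Nat.xor_left_inj.1 e) rfl) (YE1.finite_Orb _ _)
  rw [Set.ncard_prod, Set.ncard_coe_finset, ncard_orb_H_pT2,
    show ({0, pT, 2 ^ 24, pT ^^^ 2 ^ 24} : Finset ℕ).card = 4 by decide] at h
  omega

theorem card_Ix : Fintype.card BR.Ix = 4371 := by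
  refine le_antisymm ?_ BR.le_card_Ix
  have := ncard_Cn_le
  rw [← Nat.card_coe_set_eq, Nat.card_eq_fintype_card] at this
  rw [Fintype.card_sum, Fintype.card_sum, Fintype.card_coe, card_X2, Fintype.card_option,
    Fintype.card_fin]
  omega

/-- `e_0 - e_1`. -/
noncomputable def uv (i : GolayPt) : ℝ := (if i = idxPt 0 then 1 else 0) - (if i = idxPt 1 then 1 else 0)

theorem sum_uv {E : Type*} [AddCommGroup E] [Module ℝ E] (f : GolayPt → E) :
    ∑ j, uv j • f j = f (idxPt 0) - f (idxPt 1) := by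
  simp [uv, sub_smul, Finset.sum_sub_distrib]

theorem bm_uv {g : GH} (hg : g ∈ 𝓗) : ∃ ε : ℝ, ∀ i, bm g i (idxPt 0) - bm g i (idxPt 1) = ε * uv i := by
  have h : ∀ i, ((uT : GolayPt → ℤ) i : ℝ) = 4 * uv i := fun i => by
    rw [uT, fourDiff_apply, uv, show idxPt 0 = some 0 from rfl, show idxPt 1 = some 1 from rfl]
    split_ifs <;> norm_num
  have k : ∀ i, 4 * (bm g i (idxPt 0) - bm g i (idxPt 1)) = ((pr g • uT : leechLattice) : GolayPt → ℤ) i :=
    fun i => by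
      rw [← sum_bm, ← sum_uv (bm g i), Finset.mul_sum]
      exact Finset.sum_congr rfl fun j _ => by rw [h, smul_eq_mul]; ring
  rcases pr_of_mem_H hg with e | e <;> rw [e] at k
  · exact ⟨1, fun i => by linarith [k i, h i]⟩
  · refine ⟨-1, fun i => ?_⟩
    have := k i
    rw [AddSubgroup.coe_neg, Pi.neg_apply, Int.cast_neg] at this
    linarith [h i]

/-- `A u`. -/
noncomputable def aU (i : GolayPt) : VD := cA i (idxPt 0) - cA i (idxPt 1)

/-- The contraction of the `W`-part with `u`. -/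
noncomputable def wU : V →ₗ[ℝ] W := colW (idxPt 0) - colW (idxPt 1)

theorem aU_apply (i : GolayPt) (v : V) : aU i v = cA i (idxPt 0) v - cA i (idxPt 1) v := rfl

theorem wU_apply (v : V) (x : Fin 4096) : wU v x = cW x (idxPt 0) v - cW x (idxPt 1) v := rfl

/-- The kernel of the representation of degree 4371. -/
noncomputable def KB : Submodule ℝ V where
  carrier := {v | (∃ l : ℝ, ∀ i, aU i v = l * uv i) ∧ (∀ p ∈ Orb 𝓗 pT2, cS (p ^^^ pT) v = cS p v) ∧
    ∀ x : Fin 4096, Qp x → wU v x = 0}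
  zero_mem' := ⟨⟨0, by simp⟩, by simp, by simp⟩
  add_mem' := by
    rintro a b ⟨⟨l, a1⟩, a2, a3⟩ ⟨⟨m, b1⟩, b2, b3⟩
    exact ⟨⟨l + m, fun i => by rw [map_add, a1, b1, add_mul]⟩,
      fun p hp => by rw [map_add, map_add, a2 p hp, b2 p hp],
      fun x hx => by rw [map_add, Pi.add_apply, a3 x hx, b3 x hx, add_zero]⟩
  smul_mem' := by
    rintro c a ⟨⟨l, a1⟩, a2, a3⟩
    exact ⟨⟨c * l, fun i => by rw [map_smul, a1, mul_assoc, smul_eq_mul]⟩,
      fun p hp => by rw [map_smul, map_smul, a2 p hp],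
      fun x hx => by rw [map_smul, Pi.smul_apply, a3 x hx, smul_zero]⟩

theorem aU_iff {f : GolayPt → ℝ} : (∃ l : ℝ, ∀ i, f i = l * uv i) ↔
    f (idxPt 0) + f (idxPt 1) = 0 ∧ ∀ j < 22, f (idxPt (j + 2)) = 0 := by
  have h0 : uv (idxPt 0) = 1 := by rw [uv, if_pos rfl, if_neg (by decide), sub_zero]
  have h1 : uv (idxPt 1) = -1 := by rw [uv, if_pos rfl, if_neg (by decide), zero_sub]
  have h2 : ∀ j < 22, uv (idxPt (j + 2)) = 0 := fun j hj => by
    rw [uv, if_neg, if_neg, sub_zero] <;> rw [idxPt_inj (by omega) (by omega)] <;> omega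
  refine ⟨fun ⟨l, h⟩ => ⟨by rw [h, h, h0, h1]; ring, fun j hj => by rw [h, h2 j hj, mul_zero]⟩,
    fun ⟨a, b⟩ => ⟨f (idxPt 0), fun i => ?_⟩⟩
  have := ptIdx_lt i
  rw [← idxPt_ptIdx i]
  generalize ptIdx i = k at this
  match k with
  | 0 => rw [h0, mul_one]
  | 1 => rw [h1]; linarith
  | k + 2 => rw [b k (by omega), h2 k (by omega), mul_zero]

theorem pl_pT (f : W) (x : Fin 4096) : pl pT f x = sg (pcomm x pT) * f x := by
  have e : xorF x pT = x := Fin.ext (Nat.xor_zero _)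
  rw [pl_apply, e, pcomm_def, Nat.shiftRight_eq_div_pow x, Nat.div_eq_of_lt x.2, Nat.zero_and, par_zero,
    Nat.zero_xor, show pT >>> 24 = 0 from rfl, zero_add]

theorem wU_iff {f : W} : (∀ x : Fin 4096, Qp x → f x = 0) ↔ pl pT f = -f := by
  refine ⟨fun h => funext fun x => ?_, fun h x hx => ?_⟩
  · have := pcomm_lt x pT
    rw [pl_pT, Pi.neg_apply]
    obtain e | e : pcomm x pT = 0 ∨ pcomm x pT = 1 := by omega
    · rw [h x e, mul_zero, neg_zero]
    · rw [e, sg_one, neg_one_mul]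
  · have := congrFun h x
    rw [pl_pT, hx, sg_zero, Pi.neg_apply] at this
    linarith

theorem wU_ρ {g : GH} (hg : g ∈ 𝓗) : ∃ ε : ℝ, ∀ v, wU (ρL g v) = ε • g.1.1 (wU v) := by
  obtain ⟨ε, h⟩ := bm_uv (inv_mem hg)
  refine ⟨ε, fun v => ?_⟩
  rw [wU, LinearMap.sub_apply, colW_ρL, colW_ρL, ← Finset.sum_sub_distrib, LinearMap.sub_apply, map_sub,
    ← sum_uv fun j => g.1.1 (colW j v), Finset.smul_sum]
  exact Finset.sum_congr rfl fun j _ => by rw [← sub_smul, ← bm_inv, ← bm_inv g j, h, mul_smul]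

theorem φ_xor_T {g : GH} (hg : g ∈ 𝓗) (p : ℕ) : φ g (p ^^^ pT) = φ g p ^^^ pT := by
  rw [← pmul_diag p (by decide), φ_pmul, (mem_FxS_one pT_lt).1 hg, pmul_diag _ (by decide)]

theorem KB_ρ {g : GH} (hg : g ∈ 𝓗) {v : V} (hv : v ∈ KB) : ρL g v ∈ KB := by
  obtain ⟨⟨l, a⟩, b, c⟩ := hv
  refine ⟨?_, fun p hp => ?_, wU_iff.2 ?_⟩
  · obtain ⟨ε, h⟩ := bm_uv (inv_mem hg)
    obtain ⟨ε', h'⟩ := bm_uv hg
    refine ⟨ε * l * ε', fun i => ?_⟩
    rw [mul_assoc, ← h', ← sum_uv (bm g i), Finset.mul_sum, aU_apply, cA_ρL_apply, cA_ρL_apply,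
      ← Finset.sum_sub_distrib]
    refine Finset.sum_congr rfl fun k _ => ?_
    have := a k
    rw [aU_apply, ← sum_uv fun j => cA k j v] at this
    rw [← Finset.sum_sub_distrib, smul_eq_mul, show ε * l * (uv k * bm g i k) = ε * bm g i k * (l * uv k)
      by ring, ← this, Finset.mul_sum]
    refine Finset.sum_congr rfl fun j _ => ?_
    rw [← bm_inv g j, ← bm_inv g j, smul_eq_mul]
    linear_combination bm g i k * cA k j v * h j
  · rw [cS_ρL_apply, cS_ρL_apply, φ_xor_T (inv_mem hg), b _ (orb_φ (inv_mem hg) hp)]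
  · obtain ⟨ε, h⟩ := wU_ρ hg
    have := LinearEquiv.congr_fun (φ_spec g pT) (wU v)
    rw [(mem_FxS_one pT_lt).1 hg, LinearEquiv.mul_apply, LinearEquiv.mul_apply, wU_iff.1 c] at this
    rw [h, map_smul, ← this, map_neg, smul_neg]

theorem lab_orb {l l' : Lb} (h : l.ok = true) (h' : l'.ok = true) (e : l'.code = l.code ^^^ pT) :
    l.code ∈ Orb 𝓗 pT2 := mem_orb.2 ⟨Lb.code_lt h, Lb.isSh h, e ▸ Lb.isSh h'⟩

theorem KB_τ {v : V} (hv : v ∈ KB) : τL v ∈ KB := by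
  have hX : ∀ x < 4096, Qp x → fm x 0 = fm x 1 ∧ Fa x 1 = Fa x 0 ^^^ pT ∧ Qp (x ^^^ 1) := fun x hx h => by
    have := allLT_iff.1 (by decide +kernel : allLT 4096 (fun x => Nat.beq (pcomm x pT) 1 ||
      (Nat.beq (fm x 0) (fm x 1) && (Nat.beq (Fa x 1) (Fa x 0 ^^^ pT) &&
        Nat.beq (pcomm (x ^^^ 1) pT) 0))) = true) x hx
    rw [h] at this
    simpa only [Bool.and_eq_true, Nat.beq_eq, Bool.or_eq_true, zero_ne_one, false_or, Qp] using this
  have i0 : ptIdx (idxPt 0) = 0 := rfl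
  have i1 : ptIdx (idxPt 1) = 1 := rfl
  refine ⟨aU_iff.2 ⟨?_, fun j hj => ?_⟩, fun p hp => ?_, fun x hx => ?_⟩
  · have := (aU_iff.1 hv.1).1
    simp only [aU_apply, τ_Ad, cA_comm (idxPt 1) (idxPt 0)] at this ⊢
    linarith
  · obtain ⟨a, b, c, d, e, f⟩ := (by decide +kernel : ∀ j < 22, idxPt (j + 2) ≠ idxPt 0 ∧
      idxPt (j + 2) ≠ idxPt 1 ∧ pB (idxPt (j + 2)) (idxPt 1) = pB (idxPt (j + 2)) (idxPt 0) ^^^ pT ∧
      pCc (idxPt (j + 2)) (idxPt 1) = pCc (idxPt (j + 2)) (idxPt 0) ^^^ pT ∧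
      pB (idxPt (j + 2)) (idxPt 0) = cj j ∧ pCc (idxPt (j + 2)) (idxPt 0) = eC 0 (j + 2)) j hj
    rw [aU_apply, τ_A a, τ_A b, c, d, e, f, hv.2.1 _ (cj_orb j hj), hv.2.1 (eC _ _) (lab_orb (l := .C 0 (j + 2))
      (l' := .C 1 (j + 2)) (Lb.ok_C.2 (by omega)) (Lb.ok_C.2 (by omega))
        ((by decide +kernel : ∀ j < 22, eC 1 (j + 2) = eC 0 (j + 2) ^^^ pT) j hj)), sub_self]
  · have k : ∀ b, (∀ v ∈ KB, cS (b ^^^ pT) (τL v) = cS b (τL v)) → p ∈ Orb NH b →
        cS (p ^^^ pT) (τL v) = cS p (τL v) := by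
      rintro b h ⟨n, hn, rfl⟩
      obtain ⟨m, a, e⟩ := exists_snd (inv_mem hn)
      have e' : ρL n⁻¹ (τL v) = τL (ρL m v) := by
        have := LinearEquiv.congr_fun (inv_mul_eq_iff_eq_mul.1 ((mul_assoc _ _ _).symm.trans (τ_hN _ e))) v
        rwa [LinearEquiv.mul_apply, LinearEquiv.mul_apply, labOK.τ_apply, labOK.τ_apply] at this
      rw [← φ_xor_T hn.1, ← cS_ρL_inv, ← cS_ρL_inv, e', h _ (KB_ρ a.1 hv)]
    rcases orb_cases hp with a | a | a <;> refine k _ (fun v hv => ?_) a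
    · have h1 := labOK.τ_B (p := idxPt 2) (q := idxPt 0) (by decide) v
      have h2 := labOK.τ_B (p := idxPt 2) (q := idxPt 1) (by decide) v
      have h3 := (aU_iff.1 hv.1).2 0 (by norm_num)
      have h4 := hv.2.1 _ (cj_orb 0 (by norm_num))
      have h5 := hv.2.1 _ (lab_orb (l := .C 0 2) (l' := .C 1 2) rfl rfl (by decide +kernel))
      rw [show pB (idxPt 2) (idxPt 0) = pT2 by decide +kernel,
        show pCc (idxPt 2) (idxPt 0) = (Lb.C 0 2).code by decide +kernel] at h1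
      rw [show pB (idxPt 2) (idxPt 1) = pT2 ^^^ pT by decide +kernel,
        show pCc (idxPt 2) (idxPt 1) = (Lb.C 0 2).code ^^^ pT by decide +kernel] at h2
      rw [show cj 0 = pT2 by decide +kernel] at h4
      rw [aU_apply] at h3
      linarith
    · have o : Oc 2 := by unfold Oc; decide +kernel
      rw [show cT ^^^ pT = Tp 2 2 by decide +kernel, show cT = Tp 2 3 by decide +kernel,
        labOK.τ_T o (by norm_num), labOK.τ_T o (by norm_num)]
      have h1 := sum_xor64 (fun k => (sg (hs 2 k) - sg (hs 3 k)) * cS (Tp 2 k) v) (a := 1) (by norm_num)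
      rw [Finset.sum_congr rfl (g := fun k => -((sg (hs 2 k) - sg (hs 3 k)) * cS (Tp 2 k) v))
        fun k hk => ?_, Finset.sum_neg_distrib] at h1
      · simp only [sub_mul, Finset.sum_sub_distrib] at h1
        linarith
      have hk := Finset.mem_range.1 hk
      rcases (by decide +kernel : ∀ k < 64, hs 2 k = hs 3 k ∧ hs 2 (k ^^^ 1) = hs 3 (k ^^^ 1) ∨
        hs 2 (k ^^^ 1) = hs 3 k ∧ hs 3 (k ^^^ 1) = hs 2 k ∧ Tp 2 (k ^^^ 1) = Tp 2 k ^^^ pT) k hk with
        ⟨a, b⟩ | ⟨a, b, c⟩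
      · rw [a, b]; ring
      · rw [a, b, c, hv.2.1 (Tp _ _) (lab_orb (l := .T 2 k) (l' := .T 2 (k ^^^ 1)) (okT.2 ⟨o, hk⟩)
          (okT.2 ⟨o, xor_lt64 hk (by norm_num)⟩) c)]
        ring
    · have h1 := labOK.τ_X (x := 0) rfl (idxPt 0) v
      have h2 := labOK.τ_X (x := 0) rfl (idxPt 1) v
      have h3 := hv.2.2 0 (by decide)
      rw [show Fa (0 : Fin 4096).1 (ptIdx (idxPt 0)) = pD by decide +kernel] at h1
      rw [show Fa (0 : Fin 4096).1 (ptIdx (idxPt 1)) = pD ^^^ pT by decide +kernel] at h2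
      rw [wU_apply] at h3
      linarith
  · obtain ⟨a, -, c⟩ := hX x x.2 hx
    by_cases h : x.1 % 2 = 0
    · have := hv.2.2 (xorF x 1) c
      rw [wU_apply] at this ⊢
      rw [τ_W0 h, τ_W0 h, i0, i1, a, ← mul_sub, this, mul_zero]
    · have h' : (xorF x 1).1 % 2 = 0 := by rw [xorF_one, xor_one_mod]; omega
      obtain ⟨a, b, -⟩ := hX _ (xorF x 1).2 c
      rw [← xorF_xorF x 1, wU_apply, τ_W1 h', τ_W1 h', i0, i1, a, b, hv.2.1 (Fa _ 0) (lab_orb
        (l := .X _ (ptIdx (idxPt 0))) (okX h' _) (okX h' (idxPt 1)) b), sub_self]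

/-- The coordinates on `V / KB`. -/
noncomputable def ΦB : V →ₗ[ℝ] (BR.Ix → ℝ) :=
  LinearMap.pi (Sum.elim (fun d : X2 => LinearMap.proj ⟨d.1, (mem_X2.1 d.2).1⟩ ∘ₗ wU) (Sum.elim
    (fun c : Cn => cS (c.1 ^^^ pT) - cS c.1) fun o => Option.casesOn' o (aU (idxPt 0) + aU (idxPt 1))
      fun j : Fin 22 => aU (idxPt (j + 2))))

theorem ker_ΦB : LinearMap.ker ΦB ≤ KB := fun v hv => by
  have h := fun i => congrFun (LinearMap.mem_ker.1 hv) i
  have k : ∀ c ∈ Cn, cS (c ^^^ pT) v = cS c v := fun c hc => sub_eq_zero.1 (h (.inr (.inl ⟨c, hc⟩)))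
  refine ⟨aU_iff.2 ⟨h (.inr (.inr none)), fun j hj => h (.inr (.inr (some ⟨j, hj⟩)))⟩, fun p hp => ?_,
    fun x hx => h (.inl ⟨x, mem_X2.2 ⟨x.2, hx⟩⟩)⟩
  rcases orb_sub_Cn hp with (a | ⟨c, a, rfl⟩) | ⟨c, a, rfl⟩ | ⟨c, a, rfl⟩
  · exact k p a
  · rw [Nat.xor_xor_cancel_right, k c a]
  · rw [Nat.xor_right_comm, cS_neg, cS_neg, LinearMap.neg_apply, LinearMap.neg_apply, k c a]
  · rw [Nat.xor_right_comm, Nat.xor_xor_cancel_right, cS_neg, cS_neg, LinearMap.neg_apply,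
      LinearMap.neg_apply, k c a]

theorem finrank_KB : Module.Finite ℝ (V ⧸ KB) ∧ Module.finrank ℝ (V ⧸ KB) ≤ 4371 := by
  have h : Function.Surjective (Submodule.factor ker_ΦB ∘ₗ ΦB.quotKerEquivRange.symm.toLinearMap) :=
    (Submodule.factor_surjective ker_ΦB).comp ΦB.quotKerEquivRange.symm.surjective
  refine ⟨Module.Finite.of_surjective _ h, (LinearMap.finrank_le_finrank_of_surjective h).trans
    ((Submodule.finrank_le _).trans ?_)⟩
  rw [Module.finrank_fintype_fun_eq_card, card_Ix]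

/-- The model as a representation of `H1`. -/
noncomputable def σH : Representation ℝ AM.H1 V :=
  LinearEquiv.automorphismGroup.toLinearMapMonoidHom.comp (𝕄.subtype.comp AM.H1.subtype)

theorem σH_ι (a : 𝓗) (v : V) : σH (AM.ιH a) v = ρL a v := rfl

theorem σH_τ (v : V) : σH AM.τH v = τL v := labOK.τ_apply v

theorem KB_inv (g : AM.H1) : KB ≤ KB.comap (σH g) := by
  refine H1_ind (P := fun g => ∀ v ∈ KB, σH g v ∈ KB) (fun a v hv => ?_) (fun v hv => ?_)
    (fun x y a b v hv => ?_) g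
  · rw [σH_ι]; exact KB_ρ a.2 hv
  · rw [σH_τ]; exact KB_τ hv
  · rw [map_mul, Module.End.mul_apply]; exact a _ (b v hv)

theorem quot_eq_one {k G U : Type*} [Field k] [Monoid G] [AddCommGroup U] [Module k U]
    {σ : Representation k G U} {K : Submodule k U} {h : ∀ g, K ≤ K.comap (σ g)} {g : G} :
    σ.quotient K h g = 1 ↔ ∀ v, σ g v - v ∈ K :=
  ⟨fun e v => (Submodule.Quotient.eq _).1 (LinearMap.congr_fun e (K.mkQ v)),
    fun e => Submodule.linearMap_qext _ (LinearMap.ext fun v => (Submodule.Quotient.eq _).2 (e v))⟩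

theorem exists_real : ∃ (U : Type) (_ : AddCommGroup U) (_ : Module ℝ U) (_ : Module.Finite ℝ U)
    (σ : AM.Baby →* Module.End ℝ U), Module.finrank ℝ U ≤ 4371 ∧ σ (AM.κ zH) ≠ 1 := by
  refine ⟨V ⧸ KB, _, _, finrank_KB.1, QuotientGroup.lift _ (σH.quotient KB KB_inv)
    (zpowers_le_of_mem ?_), finrank_KB.2, fun h => ?_⟩
  · refine MonoidHom.mem_ker.2 (quot_eq_one.2 fun v => ?_)
    rw [σH_ι, show (tH : GH) = pq pT from rfl]
    refine ⟨⟨0, fun i => ?_⟩, fun p hp => ?_, wU_iff.2 ?_⟩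
    · rw [map_sub, aU_apply, aU_apply, ← LinearMap.comp_apply, ← LinearMap.comp_apply (cA _ _),
        cA_ρL_pq, cA_ρL_pq, sub_self, zero_mul]
    · have e : pcomm pT p = 0 := by
        obtain ⟨g, hg, rfl⟩ := hp
        rw [pcomm_comm, pcomm_φ_fix hg]; decide
      rw [map_sub, map_sub, ← LinearMap.comp_apply, ← LinearMap.comp_apply (cS p), cS_ρL_pq, cS_ρL_pq,
        pcomm_xor_right, e, pcomm_self, Nat.xor_zero, sg_zero, one_smul, one_smul, sub_self, sub_self]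
    · have e : wU (ρL (pq pT) v) = pl pT (wU v) := by
        rw [wU, LinearMap.sub_apply, LinearMap.sub_apply, colW_ρL, colW_ρL, map_sub]
        simp [bm_pq, pq_fst]
      rw [map_sub, e, map_sub, neg_sub, ← LinearEquiv.mul_apply, ← pl_mul,
        show pmul pT pT = 0 by decide, pl_zero]
      rfl
  · let v : V := (0, 0, fun _ i => uv i)
    have h1 := (quot_eq_one (h := KB_inv) (g := AM.ιH zH)).1 h v
    rw [σH_ι, show (zH : GH) = pq pZ from rfl] at h1
    have h2 := h1.2.2 0 (by decide)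
    rw [wU_apply, map_sub, map_sub, ← LinearMap.comp_apply, ← LinearMap.comp_apply (cW _ (idxPt 1)),
      cW_ρL_pq, cW_ρL_pq] at h2
    change sg 1 * uv _ - uv _ - (sg 1 * uv _ - uv _) = 0 at h2
    rw [sg_one, uv, uv, if_pos rfl, if_neg (by decide), if_neg (by decide), if_pos rfl] at h2
    norm_num at h2

end Cfsg.Lib.Mon.B4
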