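import Cfsg.Agent.Mon.BUniq
import Cfsg.Agent.Mon.BReal

/-! The representation of degree 4371 of the Baby Monster over the integers and over any field of
characteristic other than two. -/

set_option autoImplicit false

namespace Cfsg.Lib.Mon.B4

open Subgroup Matrix

local notation "𝓗" => FxS [pT]

section Gen

variable {G ι K L : Type*} [Group G] [Fintype ι] [DecidableEq ι] [Field K] [Field L]

/-- The representation of a matrix representation. -/
noncomputable def matRep (M : G →* Matrix ι ι K) : G →* Module.End K (ι → K) :=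
  (Matrix.toLinAlgEquiv' (R := K) (n := ι)).toMulEquiv.toMonoidHom.comp M

theorem matRep_apply (M : G →* Matrix ι ι K) (g : G) (v : ι → K) : matRep M g v = M g *ᵥ v := rfl

theorem matRep_inj {M M' : G →* Matrix ι ι K} {g : G} (h : ∀ v, matRep M g v = matRep M' g v) :
    M g = M' g := (Matrix.toLinAlgEquiv' (R := K) (n := ι)).injective (LinearMap.ext h)

theorem exists_descent (φ : K →+* L) (M : G →* Matrix ι ι L) (h : ∀ g i j, ∃ a, φ a = M g i j) :
    ∃ M' : G →* Matrix ι ι K, ∀ g, (M' g).map φ = M g := by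
  choose N hN using h
  have e : ∀ g, (Matrix.of (N g)).map φ = M g := fun g => Matrix.ext (hN g)
  have i := Matrix.map_injective (m := ι) (n := ι) φ.injective
  exact ⟨⟨⟨fun g => Matrix.of (N g), i (by
    beta_reduce; rw [e, map_one, Matrix.map_one _ φ.map_zero φ.map_one])⟩, fun g h => i (by
    beta_reduce; rw [e, map_mul, Matrix.map_mul, e, e])⟩, e⟩

theorem exists_int [Finite G] (M : G →* Matrix ι ι ℚ) {n : ℕ} (hn : Fintype.card ι = n) :
    ∃ N : G →* Matrix (Fin n) (Fin n) ℤ, ∀ g, N g = 1 → M g = 1 := by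
  let Λ := Submodule.span ℤ (Set.range fun a : G × ι => M a.1 *ᵥ Pi.single a.2 1)
  have h1 : ∀ i, Pi.single i 1 ∈ Λ := fun i => Submodule.subset_span ⟨(1, i), by
    beta_reduce; rw [map_one, Matrix.one_mulVec]⟩
  have : Λ.IsLattice ℚ := ⟨Submodule.fg_span (Set.finite_range _), eq_top_iff.2 ((Pi.basisFun ℚ ι).span_eq.ge.trans
    (Submodule.span_mono (by rintro _ ⟨i, rfl⟩; rw [Pi.basisFun_apply]; exact h1 i)))⟩
  let b := Module.finBasisOfFinrankEq ℤ Λ ((Submodule.IsLattice.finrank_of_pi ℚ Λ).trans hn)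
  let σ : Representation ℤ G (ι → ℚ) :=
    ⟨⟨fun g => (matRep M g).restrictScalars ℤ, congrArg (LinearMap.restrictScalars ℤ) (map_one _)⟩,
      fun g h => congrArg (LinearMap.restrictScalars ℤ) (map_mul _ g h)⟩
  have h2 : ∀ g, Λ ≤ Λ.comap (σ g) := fun g => Submodule.span_le.2 (by
    rintro _ ⟨a, rfl⟩
    exact Submodule.subset_span ⟨(g * a.1, a.2), by
      beta_reduce; rw [map_mul, ← Matrix.mulVec_mulVec]; rfl⟩)
  refine ⟨(LinearMap.toMatrixAlgEquiv b).toMulEquiv.toMonoidHom.comp (σ.subrepresentation Λ h2),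
    fun g h => Matrix.ext fun i j => ?_⟩
  have h3 : σ.subrepresentation Λ h2 g = 1 :=
    (LinearMap.toMatrixAlgEquiv b).injective (h.trans (map_one _).symm)
  have h4 : M g *ᵥ Pi.single j 1 = Pi.single j 1 :=
    congrArg Subtype.val (LinearMap.congr_fun h3 ⟨_, h1 j⟩)
  rw [Matrix.mulVec_single_one] at h4
  exact (congrFun h4 i).trans (by rw [Pi.single_apply, Matrix.one_apply])

theorem eq_one_of_map (hK : ringChar K ≠ 2) {Z : Matrix ι ι ℤ} (h : Z * Z = 1)
    (e : Z.map (Int.castRingHom K) = 1) : Z = 1 := by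
  obtain ⟨N, rfl⟩ : ∃ N, Z = 1 + N := ⟨Z - 1, by abel⟩
  have h1 : N * N = -(2 • N) := by
    rw [eq_neg_iff_add_eq_zero, ← add_right_inj (1 : Matrix ι ι ℤ), add_zero]
    conv_rhs => rw [← h]
    noncomm_ring
  let d := Finset.univ.gcd fun a : ι × ι => N a.1 a.2
  have h2 : ∀ i j, d ∣ N i j := fun i j => Finset.gcd_dvd (f := fun a : ι × ι => N a.1 a.2) (Finset.mem_univ (i, j))
  have h3 : d * d ∣ 2 * d := by
    have : d * d ∣ Finset.univ.gcd fun a : ι × ι => 2 * N a.1 a.2 := Finset.dvd_gcd fun a _ => by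
      have := congrFun (congrFun h1 a.1) a.2
      rw [Matrix.neg_apply, Matrix.smul_apply, nsmul_eq_mul, Nat.cast_ofNat, Matrix.mul_apply] at this
      exact dvd_neg.1 (this ▸ Finset.dvd_sum fun k _ => mul_dvd_mul (h2 _ _) (h2 _ _))
    rwa [Finset.gcd_mul_left] at this
  have h4 : (ringChar K : ℤ) ∣ d := Finset.dvd_gcd fun a _ => by
    have := congrFun (congrFun e a.1) a.2
    rw [Matrix.map_apply, Matrix.add_apply, map_add, Matrix.one_apply, Matrix.one_apply, apply_ite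
      (Int.castRingHom K), map_one, map_zero, add_eq_left] at this
    exact (CharP.intCast_eq_zero_iff K (ringChar K) _).1 this
  by_cases h0 : d = 0
  · rw [add_eq_left]
    exact Matrix.ext fun i j => zero_dvd_iff.1 (h0 ▸ h2 i j)
  · have h5 : ringChar K ∣ 2 := Int.natCast_dvd_natCast.1 (h4.trans ((mul_dvd_mul_iff_right h0).1 h3))
    exact absurd (((Nat.dvd_prime Nat.prime_two).1 h5).resolve_right hK) CharP.ringChar_ne_one

end Gen

variable {X : Type*} [Group X] {A : Am X}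

theorem baby_ind {P : A.Baby → Prop} (h1 : ∀ a, P (A.κ a)) (h2 : P A.τH)
    (h3 : ∀ x y, P x → P y → P (x * y)) (y : A.Baby) : P y :=
  QuotientGroup.induction_on y (H1_ind (P := fun x => P (QuotientGroup.mk x)) h1 h2 fun _ _ => h3 _ _)

open Classical in
/-- The map from `GH` to the Baby Monster. -/
noncomputable def kap (A : Am X) (g : GH) : A.Baby := if h : g ∈ 𝓗 then A.κ ⟨g, h⟩ else 1

theorem kap_eq {g : GH} (h : g ∈ 𝓗) : kap A g = A.κ ⟨g, h⟩ := dif_pos h

theorem kap_z : kap A (pq pZ) = A.κ zH := kap_eq _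

theorem κz_sq : A.κ zH * A.κ zH = 1 :=
  congrArg QuotientGroup.mk (Subtype.ext (Am.sq_pq (by decide)) : A.ιH zH * A.ιH zH = 1)

theorem kap_mul {g k : GH} (hg : g ∈ 𝓗) (hk : k ∈ 𝓗) : kap A (g * k) = kap A g * kap A k := by
  rw [kap_eq hg, kap_eq hk, ← map_mul, kap_eq (mul_mem hg hk)]; rfl

theorem kap_one : kap A 1 = 1 := (kap_eq (one_mem _)).trans A.κ.map_one

theorem kap_cc : kap A cc = 1 :=
  (kap_eq ccH.2).trans (congrArg QuotientGroup.mk (Subtype.ext A.ι_cc : A.ιH ccH = 1))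

theorem kap_t : kap A (pq pT) = 1 := (kap_eq tH.2).trans ((QuotientGroup.eq_one_iff _).2 (mem_zpowers _))

theorem kap_hN {n m : GH} (e : (n, m) ∈ NP) (hn : n ∈ 𝓗) :
    kap A n * (A.τH : A.Baby) = (A.τH : A.Baby) * kap A m := by
  have hm := (NP_H e).1 hn
  rw [kap_eq hn, kap_eq hm]
  exact congrArg QuotientGroup.mk (Subtype.ext (inv_mul_eq_iff_eq_mul.1
    ((mul_assoc _ _ _).symm.trans (A.hN _ e))) : A.ιH ⟨n, hn⟩ * A.τH = A.τH * A.ιH ⟨m, hm⟩)

theorem kap_pow {n m : GH} (hn : n ∈ 𝓗) (hm : m ∈ 𝓗) {k : ℕ} (e : (A.ι n * A.τ * A.ι m) ^ k = 1) :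
    (kap A n * (A.τH : A.Baby) * kap A m) ^ k = 1 := by
  rw [kap_eq hn, kap_eq hm]
  exact congrArg QuotientGroup.mk (Subtype.ext e : (A.ιH ⟨n, hn⟩ * A.τH * A.ιH ⟨m, hm⟩) ^ k = 1)

namespace BR

variable {F V V' : Type*} [Field F] [AddCommGroup V] [Module F V] [AddCommGroup V'] [Module F V']

theorem rel2 {M : Type*} [Monoid M] (σ : M →* Module.End F V) {b c : M} (h : (1 * b * c) ^ 2 = 1) (v : V) :
    σ b (σ c (σ b (σ c v))) = v := by
  have := congrArg σ h
  rw [one_mul, pow_two, map_mul, map_mul, map_one] at this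
  exact LinearMap.congr_fun this v

theorem rel3 {M : Type*} [Monoid M] (σ : M →* Module.End F V) {a b c : M} (h : (a * b * c) ^ 3 = 1) (v : V) :
    σ a (σ b (σ c (σ a (σ b (σ c (σ a (σ b (σ c v)))))))) = v := by
  have := congrArg σ h
  rw [map_pow, map_mul, map_mul, map_one, pow_three] at this
  exact LinearMap.congr_fun this v

theorem rel1 {M : Type*} [Monoid M] (σ : M →* Module.End F V) {b : M} (h : (1 * b * 1) ^ 3 = 1) (v : V) :
    σ b (σ b (σ b v)) = v := by
  have := rel3 σ h v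
  rwa [map_one] at this

/-- A representation of the Baby Monster, restricted to the amalgam. -/
noncomputable def ofRep (σ : A.Baby →* Module.End F V) (h : (2 : F) ≠ 0) : BR F V where
  r g := σ (kap A g)
  T := σ A.τH
  two := h
  mul g hg k hk v := by rw [kap_mul hg hk, map_mul]; rfl
  one v := by rw [kap_one, map_one]; rfl
  cc v := by rw [kap_cc, map_one]; rfl
  t v := by rw [kap_t, map_one]; rfl
  hN n m e hn v := by
    have := congrArg σ (kap_hN e hn)
    rw [map_mul, map_mul] at this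
    exact LinearMap.congr_fun this v
  h2 := rel2 σ (by
    have := kap_pow (one_mem _) (Qp.mem (p := pD) (by decide)) (k := 2) (by rw [A.ι.map_one, one_mul, A.h2])
    rwa [kap_one] at this)
  h3 := rel1 σ (by
    have := kap_pow (one_mem _) (one_mem _) (k := 3) (by rw [A.ι.map_one, one_mul, mul_one, A.h3])
    rwa [kap_one] at this)
  tri := rel3 σ (kap_pow N1_mem_H (Qp.mem (by decide)) A.tri)

theorem ofRep_z {σ : A.Baby →* Module.End F V} (h : (2 : F) ≠ 0) (hz : σ (A.κ zH) ≠ 1) :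
    ∃ v, (ofRep σ h).x pZ v ≠ v := by
  by_contra hn
  push Not at hn
  exact hz (kap_z (A := A) ▸ LinearMap.ext hn)

theorem eqv_of {σ : A.Baby →* Module.End F V} {σ' : A.Baby →* Module.End F V'} {h : (2 : F) ≠ 0}
    {f : V → V'} (h1 : ∀ v, f ((ofRep σ h).T v) = (ofRep σ' h).T (f v))
    (h2 : ∀ g ∈ 𝓗, ∀ v, f ((ofRep σ h).r g v) = (ofRep σ' h).r g (f v)) (g : A.Baby) :
    ∀ v, f (σ g v) = σ' g (f v) :=
  baby_ind (P := fun g => ∀ v, f (σ g v) = σ' g (f v)) (fun a => kap_eq (A := A) a.2 ▸ h2 a a.2) h1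
    (fun x y a b v => by rw [map_mul, map_mul, Module.End.mul_apply, a, b, Module.End.mul_apply]) g

section Map

variable {F' U : Type*} [Field F'] [AddCommGroup U] [Module F' U] {ρ : BR F V} {ρ' : BR F' U} (ψ : V →+ U)

theorem map_sgF (n : ℕ) (v : V) : ψ (sgF F n • v) = sgF F' n • ψ v := by
  unfold sgF; split_ifs <;> simp

theorem fam_map (h1 : ∀ v, ψ (ρ.T v) = ρ'.T (ψ v)) (h2 : ∀ g v, ψ (ρ.r g v) = ρ'.r g (ψ v)) (u : V)
    (i : Ix) : ψ (ρ.fam u i) = ρ'.fam (ψ u) i := by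
  rcases i with d | c | _ | j <;>
    simp only [fam, Sum.elim_inl, Sum.elim_inr, Option.casesOn'_none, Option.casesOn'_some, x, a0, aa, m2,
      ee, h1, h2, map_add]

variable {σ : A.Baby →* Module.End F V} {σ' : A.Baby →* Module.End F' U} {h : (2 : F) ≠ 0}
  {h' : (2 : F') ≠ 0} (hψ : ∀ g v, ψ (σ g v) = σ' g (ψ v))
include hψ

theorem fam_ofRep (u : V) (i : Ix) : ψ ((ofRep σ h).fam u i) = (ofRep σ' h').fam (ψ u) i :=
  fam_map ψ (hψ _) (fun _ => hψ _) u i

theorem QW_ofRep {u : V} {c : ℕ} (e : u ∈ (ofRep σ h).QW c) : ψ u ∈ (ofRep σ' h').QW c :=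
  QW_iff.2 fun q hq => by rw [← map_sgF (F := F), ← QW_iff.1 e q hq]; exact (hψ _ _).symm

theorem QW_ofRep' (i : Function.Injective ψ) {u : V} {c : ℕ} (e : ψ u ∈ (ofRep σ' h').QW c) :
    u ∈ (ofRep σ h).QW c :=
  QW_iff.2 fun q hq => i (by rw [map_sgF (F' := F'), ← QW_iff.1 e q hq]; exact hψ _ _)

end Map

end BR

open BR

section Std

variable {K L : Type*} [Field K] [Field L] {h : (2 : K) ≠ 0} {h' : (2 : L) ≠ 0}
  {N N' : A.Baby →* Matrix Ix Ix K} {M : A.Baby →* Matrix Ix Ix L} {w w' : Ix → K}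

/-- The standard form of the representation. -/
def Std (N : A.Baby →* Matrix Ix Ix K) (h : (2 : K) ≠ 0) (w : Ix → K) : Prop :=
  (∀ i, (ofRep (matRep N) h).fam w i = Pi.single i 1) ∧ w ∈ (ofRep (matRep N) h).QW pD

/-- The index of `T u`. -/
def i0 : Ix := Sum.inl ⟨0, by decide +kernel⟩

theorem Std.w_eq (a : Std N h w) : w = matRep N A.τH (matRep N A.τH (Pi.single i0 1)) := by
  rw [← a.1]
  exact ((ofRep (matRep N) h).h3 w).symm.trans
    (congrArg (fun v => matRep N A.τH (matRep N A.τH v)) ((ofRep (matRep N) h).x_zero _).symm)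

theorem Std.full (a : Std N h w) : (ofRep (matRep N) h).Full w := by
  have b : w ≠ 0 := fun e => by
    have := congrFun (a.1 i0) i0
    rw [e, Pi.single_eq_same] at this
    simp [fam, i0] at this
  refine ⟨⟨b, a.2, fun v => line_of_le (by rw [Module.finrank_fintype_fun_eq_card, card_Ix]) b
    (NW_DW (QW_NW a.2) (by decide))⟩, ?_⟩
  rw [funext a.1, ← (Pi.basisFun K Ix).span_eq, funext (Pi.basisFun_apply K Ix)]

theorem Std.eq (a : Std N h w) (b : Std N' h w') (g : A.Baby) : N g = N' g :=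
  have P : Pair _ _ _ _ LinearMap.id := ⟨a.full, b.full, fun i => (a.1 i).trans (b.1 i).symm⟩
  matRep_inj (eqv_of P.T_all (fun _ => P.r_all) g)

theorem map_rep (s : K →+* L) (e : ∀ g, (N g).map s = M g) (g : A.Baby) (v : Ix → K) :
    s.toAddMonoidHom.compLeft Ix (matRep N g v) = matRep M g (s.toAddMonoidHom.compLeft Ix v) :=
  funext fun i => (RingHom.map_mulVec s (N g) v i).trans (by rw [e]; rfl)

theorem map_single (s : K →+* L) (i : Ix) : s.toAddMonoidHom.compLeft Ix (Pi.single i 1) = Pi.single i 1 :=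
  funext fun j => (Pi.apply_single (fun _ => s) (fun _ => s.map_zero) i 1 j).trans (by rw [map_one])

theorem Std.map (a : Std N h w) (s : K →+* L) (e : ∀ g, (N g).map s = M g) : ∃ w, Std M h' w :=
  ⟨_, fun i => by rw [← fam_ofRep (h := h) _ (map_rep s e), a.1, map_single],
    QW_ofRep _ (map_rep s e) a.2⟩

theorem Std.comap {w : Ix → L} (a : Std M h' w) (s : K →+* L) (e : ∀ g, (N g).map s = M g) :
    ∃ w, Std N h w := by
  have i : Function.Injective (s.toAddMonoidHom.compLeft Ix) := s.injective.comp_left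
  have b := a.w_eq
  rw [← map_single s, ← map_rep s e, ← map_rep s e] at b
  exact ⟨_, fun j => i (by rw [fam_ofRep (h' := h') _ (map_rep s e), ← b, a.1, map_single]),
    QW_ofRep' _ (map_rep s e) i (b ▸ a.2)⟩

theorem exists_std {U : Type*} [AddCommGroup U] [Module K U] [Module.Finite K U]
    (σ : A.Baby →* Module.End K U) (hU : Module.finrank K U ≤ 4371) (hz : σ (A.κ zH) ≠ 1) :
    ∃ (N : A.Baby →* Matrix Ix Ix K) (w : Ix → K), Std N h w ∧ N (A.κ zH) ≠ 1 := by
  obtain ⟨u, G⟩ := exists_full hU (ofRep_z h hz)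
  obtain ⟨b, hb⟩ : ∃ b : Module.Basis Ix K U, ∀ i, b i = (ofRep σ h).fam u i :=
    ⟨_, Module.Basis.mk_apply G.indep G.top.ge⟩
  let M := (LinearMap.toMatrixAlgEquiv b).toMulEquiv.toMonoidHom.comp σ
  have e : ∀ g v, b.equivFun.toLinearMap.toAddMonoidHom (σ g v) =
      matRep M g (b.equivFun.toLinearMap.toAddMonoidHom v) := fun g v =>
    (LinearMap.toMatrix_mulVec_repr b b _ _).symm
  refine ⟨M, _, ⟨fun i => ?_, QW_ofRep _ e G.wt⟩, fun k => hz
    ((LinearMap.toMatrixAlgEquiv b).injective (k.trans (map_one _).symm))⟩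
  rw [← fam_ofRep (h := h) _ e, ← hb]
  exact funext fun j => (b.equivFun_self i j).trans (by rw [Pi.single_apply, if_congr eq_comm rfl rfl])

end Std

theorem exists_rat {U : Type*} [AddCommGroup U] [Module ℝ U] [Module.Finite ℝ U]
    (σ : A.Baby →* Module.End ℝ U) (hU : Module.finrank ℝ U ≤ 4371) (hz : σ (A.κ zH) ≠ 1) :
    ∃ M : A.Baby →* Matrix Ix Ix ℚ, M (A.κ zH) ≠ 1 := by
  obtain ⟨M, w, a, b⟩ := exists_std (h := two_ne_zero) σ hU hz
  let E := Subfield.closure (Set.range fun a : A.Baby × Ix × Ix => M a.1 a.2.1 a.2.2)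
  obtain ⟨N, hN⟩ := exists_descent E.subtype M fun g i j => ⟨⟨_, Subfield.subset_closure ⟨(g, i, j), rfl⟩⟩, rfl⟩
  obtain ⟨w', a'⟩ := a.comap (h := two_ne_zero) _ hN
  have : Nonempty (E →+* ℂ) := ⟨Complex.ofRealHom.comp E.subtype⟩
  have := IsPurelyInseparable.of_injective_comp_algebraMap ℚ E ℂ fun s s' _ => by
    obtain ⟨_, c⟩ := a'.map (h' := two_ne_zero) (M := s.mapMatrix.toMonoidHom.comp N) s fun _ => rfl
    obtain ⟨_, c'⟩ := a'.map (h' := two_ne_zero) (M := s'.mapMatrix.toMonoidHom.comp N) s' fun _ => rfl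
    have h : E ≤ (s.eqLocusField s').map E.subtype := Subfield.closure_le.2 (by
      rintro _ ⟨a, rfl⟩
      exact ⟨N a.1 a.2.1 a.2.2, congrFun (congrFun (c.eq c' a.1) a.2.1) a.2.2,
        congrFun (congrFun (hN a.1) _) _⟩)
    refine RingHom.ext fun x => ?_
    obtain ⟨y, a, e⟩ := h x.2
    exact (Subtype.ext e : y = x) ▸ a
  obtain ⟨M', h⟩ := exists_descent (algebraMap ℚ E) N fun g i j =>
    IsPurelyInseparable.surjective_algebraMap_of_isSeparable ℚ E _
  exact ⟨M', fun e => b (by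
    rw [← hN, ← h, e, Matrix.map_one _ (map_zero _) (map_one _), Matrix.map_one _ (map_zero _) (map_one _)])⟩

/-- The integral representation of degree 4371. -/
theorem exists_integral : ∃ N : AM.Baby →* Matrix (Fin 4371) (Fin 4371) ℤ, N (AM.κ zH) ≠ 1 := by
  obtain ⟨U, _, _, _, σ, a, b⟩ := exists_real
  obtain ⟨M, h⟩ := exists_rat σ a b
  have : Finite AM.Baby := Nat.finite_of_card_ne_zero (by rw [enumM.card_baby]; norm_num)
  obtain ⟨N, hN⟩ := exists_int M card_Ix
  exact ⟨N, fun e => h (hN _ e)⟩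

variable {F V V' : Type*} [Field F] [AddCommGroup V] [Module F V] [AddCommGroup V'] [Module F V']

theorem exists_faithful (hF : ringChar F ≠ 2) :
    ∃ ρ : AM.Baby →* GL (Fin 4371) F, Function.Injective ρ := by
  obtain ⟨N, h⟩ := exists_integral
  let ρ := ((Int.castRingHom F).mapMatrix.toMonoidHom.comp N).toHomUnits
  refine ⟨ρ, (MonoidHom.ker_eq_bot_iff _).1 ((enumM.simple_baby.eq_bot_or_eq_top_of_normal _
    inferInstance).resolve_right fun e => h (eq_one_of_map hF (by rw [← map_mul, κz_sq, map_one]) ?_))⟩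
  exact congrArg Units.val (MonoidHom.mem_ker.1 (e.ge (mem_top (AM.κ zH))))

theorem κz_ne : AM.κ zH ≠ 1 := fun e => by
  obtain ⟨N, h⟩ := exists_integral
  exact h (e ▸ map_one N)

/-- The minimal degree of the Baby Monster in characteristic other than two. -/
theorem rep_le [Module.Finite F V] (h : (2 : F) ≠ 0) {σ : A.Baby →* Module.End F V}
    (hz : σ (A.κ zH) ≠ 1) : 4371 ≤ Module.finrank F V := BR.le_finrank (ofRep_z h hz)

theorem rep_irr [Module.Finite F V] (h : (2 : F) ≠ 0) {σ : A.Baby →* Module.End F V}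
    (hV : Module.finrank F V ≤ 4371) (hz : σ (A.κ zH) ≠ 1) (W : Submodule F V)
    (hW : ∀ g, W ≤ W.comap (σ g)) : W = ⊥ ∨ W = ⊤ := by
  by_contra hn
  obtain ⟨h1, h2⟩ := not_or.1 hn
  have e := W.finrank_quotient_add_finrank
  have a : Representation.subrepresentation σ W hW (A.κ zH) = 1 := by_contra fun k => by
    have := rep_le h k
    have := Submodule.finrank_lt h2
    omega
  have b : Representation.quotient σ W hW (A.κ zH) = 1 := by_contra fun k => by
    have := rep_le h k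
    have := mt Submodule.finrank_eq_zero.1 h1
    omega
  refine hz (LinearMap.ext fun v => ?_)
  have c : σ _ (σ _ v - v) = σ _ v - v := congrArg Subtype.val (LinearMap.congr_fun a ⟨_, quot_eq_one.1 b v⟩)
  rw [map_sub, ← Module.End.mul_apply, ← map_mul, κz_sq, map_one, ← neg_sub] at c
  exact sub_eq_zero.1 (eq_zero_of_ne (one_ne_neg h) ((one_smul _ _).trans
    (c.symm.trans (neg_one_smul _ _).symm)))

theorem rep_equiv [Module.Finite F V] [Module.Finite F V'] (h : (2 : F) ≠ 0)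
    {σ : A.Baby →* Module.End F V} {σ' : A.Baby →* Module.End F V'} (hV : Module.finrank F V ≤ 4371)
    (hV' : Module.finrank F V' ≤ 4371) (hz : σ (A.κ zH) ≠ 1) (hz' : σ' (A.κ zH) ≠ 1) :
    ∃ f : V ≃ₗ[F] V', ∀ g v, f (σ g v) = σ' g (f v) := by
  obtain ⟨f, a, b⟩ := exists_equiv _ _ hV hV' (ofRep_z h hz) (ofRep_z h hz')
  exact ⟨f, eqv_of a b⟩

section Lin

variable {G ι : Type*} [Group G] [Fintype ι] [DecidableEq ι] (e : G ≃* AM.Baby)

/-- A linear representation of a group isomorphic to the Baby Monster. -/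
noncomputable def glRep (ρ : G →* GL ι F) : AM.Baby →* Module.End F (ι → F) :=
  matRep (((Units.coeHom _).comp ρ).comp e.symm.toMonoidHom)

theorem glRep_apply (ρ : G →* GL ι F) (g : G) (v : ι → F) :
    glRep e ρ (e g) v = (ρ g : Matrix ι ι F) *ᵥ v :=
  congrArg (fun x => (ρ x : Matrix ι ι F) *ᵥ v) (e.symm_apply_apply g)

theorem glRep_z {ρ : G →* GL ι F} (hρ : Function.Injective ρ) : glRep e ρ (AM.κ zH) ≠ 1 := fun h => by
  have k := κz_ne
  generalize AM.κ zH = x at h k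
  obtain ⟨g, rfl⟩ := e.surjective x
  refine k ?_
  rw [hρ (Units.ext (Matrix.ext_of_mulVec_single fun i => ?_) : ρ g = ρ 1), map_one]
  rw [← glRep_apply e, ← glRep_apply e, h, map_one, map_one]

include e

theorem gl_irr (h2 : (2 : F) ≠ 0) (hι : Fintype.card ι ≤ 4371) {ρ : G →* GL ι F}
    (hρ : Function.Injective ρ) (W : Submodule F (ι → F))
    (hW : ∀ g, ∀ v ∈ W, (ρ g : Matrix ι ι F) *ᵥ v ∈ W) : W = ⊥ ∨ W = ⊤ :=
  rep_irr h2 ((Module.finrank_fintype_fun_eq_card F).trans_le hι) (glRep_z e hρ) W fun g v hv => by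
    obtain ⟨g, rfl⟩ := e.surjective g
    exact Submodule.mem_comap.2 (glRep_apply e ρ g v ▸ hW g v hv)

theorem gl_equiv (h2 : (2 : F) ≠ 0) (hι : Fintype.card ι ≤ 4371) {ρ ρ' : G →* GL ι F}
    (hρ : Function.Injective ρ) (hρ' : Function.Injective ρ') :
    ∃ P : GL ι F, ∀ g, ρ' g = P * ρ g * P⁻¹ := by
  have hn : Module.finrank F (ι → F) ≤ 4371 := (Module.finrank_fintype_fun_eq_card F).trans_le hι
  obtain ⟨f, hf⟩ := rep_equiv h2 hn hn (glRep_z e hρ) (glRep_z e hρ')
  refine ⟨Matrix.GeneralLinearGroup.toLin.symm (LinearMap.GeneralLinearGroup.ofLinearEquiv f),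
    fun g => eq_mul_inv_of_mul_eq (Matrix.GeneralLinearGroup.toLin.injective ?_)⟩
  rw [map_mul, map_mul, MulEquiv.apply_symm_apply]
  refine Units.ext (LinearMap.ext fun v => ?_)
  have := hf (e g) v
  rw [glRep_apply, glRep_apply] at this
  exact this.symm

end Lin

end Cfsg.Lib.Mon.B4
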