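import Cfsg.Agent.Mon.BRep

/-! Representations of the Baby Monster amalgam of degree 4371: the weight spaces. -/

set_option autoImplicit false

namespace Cfsg.Lib.Mon.B4

open Subgroup Submodule Cfsg.Lib.Mon.Kit
open scoped commutatorElement

local notation "𝓗" => FxS [pT]

theorem Sim.symm {a b : ℕ} (h : Sim a b) : Sim b a := h.imp Eq.symm fun h => by
  rw [Nat.xor_mod_two_pow, h, ← Nat.xor_mod_two_pow, Nat.xor_xor_cancel_right]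

theorem Sim.refl (a : ℕ) : Sim a a := Or.inl rfl

theorem Dp.split (q : ℕ) : Dp (q % 4096 ^^^ q) := by
  have : (q % 4096 ^^^ q) % 2 ^ 12 = 0 := by
    rw [Nat.xor_mod_two_pow, show 4096 = 2 ^ 12 from rfl, Nat.mod_mod, Nat.xor_self]
  exact this

theorem Qp.mod {q : ℕ} (h : Qp q) : Qp (q % 4096) := by
  rw [Qp, pcomm_comm, pcomm_diag (by decide) (Nat.mod_mod q _), pcomm_comm]; exact h

theorem pcomm_Z2 (c : ℕ) : pcomm c pZ2 = c % 2 := by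
  rw [pcomm_comm, show pZ2 = 2 ^ 12 from rfl, pcomm_pow (by norm_num)]; simp

theorem H_le_comm {K : Subgroup GH} (h : ⁅𝓗, 𝓗⁆ ≤ K) (hc : cc ∈ K) : 𝓗 ≤ K := fun g hg => by
  have : (⊤ : Subgroup 𝓗) ≤ K.comap (𝓗).subtype := commutator_H ▸ sup_le
    (Subgroup.commutator_le.2 fun a _ b _ => h (commutator_mem_commutator a.2 b.2))
    (zpowers_le_of_mem hc)
  exact this (Subgroup.mem_top ⟨g, hg⟩)

namespace BR

variable {F V : Type*} [Field F] [AddCommGroup V] [Module F V] {ρ : BR F V}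

theorem x_split {q : ℕ} (hq : Qp q) (v : V) : ρ.x q v = ρ.x (q % 4096) (ρ.x (q % 4096 ^^^ q) v) := by
  rw [ρ.x_x hq.mod (Dp.split q).qp, pmul_diag _ (Dp.split q), Nat.xor_xor_cancel_left]

theorem DW_zero {e e' d d' : ℕ} {v : V} (h : v ∈ ρ.DW e d) (h' : v ∈ ρ.DW e' d') (he : e < 2)
    (he' : e' < 2) (n : ¬ (e = e' ∧ d % 4096 = d' % 4096)) : v = 0 := by
  obtain ⟨q, a, b⟩ := DW_sep he he' (Nat.mod_lt _ (by norm_num)) (Nat.mod_lt _ (by norm_num)) n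
  exact Wt_zero (DW_congr h (Nat.mod_mod _ _).symm) (DW_congr h' (Nat.mod_mod _ _).symm) a b

theorem QW0_DW {v : V} (h : v ∈ ρ.QW 0) : v ∈ ρ.DW 0 0 := NW_DW (QW_NW h) rfl

theorem T_fix {v : V} (h : v ∈ ρ.QW 0) (h' : ρ.T v ∈ ρ.QW 0) : ρ.T v = v := by
  have := ρ.TδT v
  rw [QW0_x h' (by decide), QW0_x h (by decide)] at this
  rw [← this, ρ.h3, this]

theorem Z_fix {v : V} (h : v ∈ ρ.QW 0) (h' : ρ.T v = v) {p : ℕ} (hp : Qp p) : ρ.Z p v = v := by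
  rw [Z_apply, h', QW0_x h hp, h', h']

theorem Z_QW0 {v : V} (h : v ∈ ρ.QW 0) {p : ℕ} (hp : Np p) : ρ.Z p v ∈ ρ.QW 0 := by
  obtain ⟨m, a, b⟩ := exists_snd hp.mem
  rw [← r_eq_Z hp.1 b]
  exact QW0_r a.1 h

theorem Z_comm {v : V} (h : v ∈ ρ.QW 0) {p q : ℕ} (hp : Qp p) (hq : Qp q) :
    ρ.Z p (ρ.Z q v) = ρ.Z q (ρ.Z p v) := by
  have := DW_z (DW_T (e := 0) (d := 0) two_pos (QW0_DW h))
  rw [Z_apply, Z_apply, Z_apply, Z_apply, ρ.h3, ρ.h3, ρ.x_swap hp hq this]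
  simp [sgF_zero]

theorem Z_Z {v : V} (h : v ∈ ρ.QW 0) {p : ℕ} (hp : Qp p) : ρ.Z p (ρ.Z p v) = v := by
  have := DW_z0 (DW_T (e := 0) (d := 0) two_pos (QW0_DW h))
  rw [Z_apply, Z_apply, ρ.h3, ρ.x_x hp hp]
  have h1 := par_lt ((p >>> 12) &&& p)
  rw [pmul_self]
  generalize par ((p >>> 12) &&& p) = e at h1
  interval_cases e
  · exact (congrArg (fun w => ρ.T (ρ.T w)) (ρ.x_zero _)).trans (ρ.h3 v)
  · exact (congrArg (fun w => ρ.T (ρ.T w)) this).trans (ρ.h3 v)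

theorem Z_r {n m : GH} (h : (n, m) ∈ NP) (hn : n ∈ 𝓗) {p : ℕ} (hp : Qp p) (v : V) :
    ρ.Z p (ρ.r m v) = ρ.r m (ρ.Z (φ n⁻¹ p) v) := by
  rw [Z_apply, Z_apply, ← ρ.hN n m h hn, ρ.x_r hn hp, ρ.TT_r h hn]

theorem QW0_c {v : V} (h : v ∈ ρ.QW 0) {c : GH} (d : c = 1 ∨ c = pq pZ ∨ c = Mon.cc ∨ c = pq pZ * Mon.cc) :
    c ∈ ρ.Fix v := by
  have z := mem_Fix (q := pZ) (by decide) (QW0_x h (by decide))
  have z' : Mon.cc ∈ ρ.Fix v := ⟨cc_mem_FxS _, ρ.cc _⟩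
  rcases d with rfl | rfl | rfl | rfl
  exacts [one_mem _, z, z', mul_mem z z']

theorem n1_Z {v : V} (h : v ∈ ρ.QW 0) {p : ℕ} (hp : p = 2 ∨ p = 0x688130) :
    ρ.r (el rN1) (ρ.Z p v) = ρ.Z p (ρ.r (el rN1) v) := by
  obtain ⟨m, q, c, a, b, d, e⟩ := z4_spec hp
  have h1 : Qp p := by rcases hp with rfl | rfl <;> decide
  have hm : m ∈ 𝓗 := (NP_H a).1 h1.mem
  have hw := QW0_r N1_mem_H h
  have hc := QW0_c hw d
  conv_lhs => rw [← ρ.n1n1 v, ← r_eq_Z h1 a, ← ρ.mul _ hm _ N1_mem_H,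
    ← ρ.mul _ N1_mem_H _ (mul_mem hm N1_mem_H), e, ρ.mul _ (mul_mem hm b.mem) _ hc.1, hc.2,
    ρ.mul _ hm _ b.mem, ← x, QW0_x hw b, r_eq_Z h1 a]

theorem n1_pp (u : V) : ρ.r (el rN1) (ρ.aa u pp) = ρ.Z p0 (ρ.r (el rN1) (ρ.aa u 1)) := by
  have := Good.a0_eq (ρ := ρ) (u := u)
  rwa [a0, map_add, add_right_inj] at this

theorem nsn (v : V) : ρ.r (el rN1) (ρ.T (ρ.x pD (ρ.r (el rN1) v))) =
    ρ.T (ρ.x pD (ρ.r (el rN1) (ρ.T (ρ.x pD v)))) := by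
  have := ρ.tri (ρ.T (ρ.x pD (ρ.r (el rN1) (ρ.T (ρ.x pD v)))))
  rwa [← x, show ρ.T (ρ.x pD (ρ.T (ρ.x pD _))) = _ from ρ.h2 _, ρ.n1n1,
    show ρ.T (ρ.x pD (ρ.T (ρ.x pD _))) = _ from ρ.h2 _] at this

/-- The weight vectors on which `z = -1`. -/
def Sm (ρ : BR F V) (u : V) : Set V := {w | ∃ q, Qp q ∧ w = ρ.x q (ρ.T u)}

/-- The 2300 weight vectors. -/
def S2 (ρ : BR F V) (u : V) : Set V := {w | ∃ h ∈ 𝓗, w = ρ.r h (ρ.ee u)}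

/-- The vectors `a_j`. -/
def Sa (ρ : BR F V) (u : V) : Set V := {w | ∃ n ∈ NH, w = ρ.aa u n}

/-- The weight vectors of type `T`. -/
def St (ρ : BR F V) (u : V) : Set V := {w | ∃ n ∈ NH, w = ρ.r n (ρ.r (hh cT) (ρ.ee u))}

theorem Sa_r {u : V} {m : GH} (hm : m ∈ NH) {v : V} (hv : v ∈ span F (ρ.Sa u)) :
    ρ.r m v ∈ span F (ρ.Sa u) := by
  refine (span_le (p := (span F (ρ.Sa u)).comap (ρ.r m))).2 ?_ hv
  rintro _ ⟨n, hn, rfl⟩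
  obtain ⟨n', a, b⟩ := exists_fst hm
  exact subset_span ⟨_, mul_mem a hn, r_aa u b a.1 hn.1⟩

theorem St_r {u : V} {m : GH} (hm : m ∈ NH) {v : V} (hv : v ∈ span F (ρ.St u)) :
    ρ.r m v ∈ span F (ρ.St u) := by
  refine (span_le (p := (span F (ρ.St u)).comap (ρ.r m))).2 ?_ hv
  rintro _ ⟨n, hn, rfl⟩
  exact subset_span ⟨_, mul_mem hm hn, (ρ.mul _ hm.1 _ hn.1 _).symm⟩

theorem St_S2 {u : V} : ρ.St u ⊆ ρ.S2 u := by
  rintro _ ⟨n, hn, rfl⟩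
  exact ⟨_, mul_mem hn.1 (hh_spec cT_orb).1, (ρ.mul _ hn.1 _ (hh_spec cT_orb).1 _).symm⟩

namespace Good

variable {u : V} (G : ρ.Good u)
include G

theorem δ_u : ρ.x pD u = u := by rw [QW_iff.1 G.wt _ (by decide), pcomm_self, sgF_zero, one_smul]

theorem TT_u : ρ.T (ρ.T u) = ρ.x pD (ρ.T u) := by rw [ρ.δT, G.δ_u]

omit G in
theorem r_ee : ρ.r (hh pD) (ρ.ee u) = u := ρ.r_inv (hh_spec pD_orb).1 u

theorem DW11 {v : V} (h : v ∈ ρ.DW 1 1) : ∃ c : F, v = c • ρ.T u := by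
  obtain ⟨c, hc⟩ := G.line _ (DW_T (e := 1) (d := 0) one_lt_two (DW_T (e := 1) (d := 1) one_lt_two h))
  exact ⟨c, by rw [← map_smul, ← hc, ρ.h3]⟩

theorem S2_wt {h : GH} (hh' : h ∈ 𝓗) : ρ.r h (ρ.ee u) ∈ ρ.QW (φ h pT2) := QW_r hh' G.ee_wt

theorem Sm_z {w : V} (h : w ∈ ρ.Sm u) : ρ.x pZ w = (-1 : F) • w := by
  obtain ⟨q, hq, rfl⟩ := h
  exact sgF_one (F := F) ▸ DW_z (DW_x1 hq G.Tu_wt)

theorem S1_wt {w : V} (h : w ∈ insert (ρ.a0 u) (ρ.Sa u)) : w ∈ ρ.QW 0 := by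
  rcases h with rfl | ⟨n, hn, rfl⟩
  exacts [G.a0_wt, G.aa_wt hn]

theorem Sp_z {w : V} (h : w ∈ ρ.S2 u ∪ insert (ρ.a0 u) (ρ.Sa u)) : ρ.x pZ w = w := by
  rcases h with ⟨h, hh', rfl⟩ | h
  exacts [QW_z (G.S2_wt hh'), QW_z (G.S1_wt h)]

theorem a0_notMem : ρ.a0 u ∉ span F (ρ.Sa u) := fun h => by
  refine G.a0_ne (Submodule.mem_bot F |>.1 (span_le.2 ?_ (Z_filter ?_ h fun _ => G.Z_a0)))
  · rintro _ ⟨⟨n, hn, rfl⟩, b⟩
    exact (G.aa_zero hn b).elim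
  · rintro _ ⟨n, hn, rfl⟩ p hp
    exact ⟨_, G.Z_aa hn (np3 hp)⟩

theorem T_ee : (2 : F) • ρ.T (ρ.ee u) = ρ.x pD (ρ.m2 u) + ρ.aa u 1 := by
  rw [← map_smul, ← G.two_ee, map_add, ← G.T_m2, aa, ρ.one]

theorem St_wt {n : GH} (hn : n ∈ NH) : ρ.r n (ρ.r (hh cT) (ρ.ee u)) ∈ ρ.QW (φ n cT) := by
  have := QW_r hn.1 (G.S2_wt (hh_spec cT_orb).1)
  rwa [(hh_spec cT_orb).2] at this

theorem S2_line {h k : GH} {n : GH} (hh' : h ∈ 𝓗) (hk : k ∈ 𝓗) (hn : n ∈ NH)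
    (e : φ n (φ k pT2) = φ h pT2) : ∃ c : F, ρ.r h (ρ.ee u) = c • ρ.r n (ρ.r k (ρ.ee u)) := by
  rw [← ρ.mul _ hn.1 _ hk]
  exact G.QW_line (mul_mem hn.1 hk) (by rw [φ_mul, e]; exact G.S2_wt hh')

end Good

/-- The base vector of a representation of degree 4371. -/
structure Full (ρ : BR F V) (u : V) : Prop extends ρ.Good u where
  top : span F (Set.range (ρ.fam u)) = ⊤

theorem exists_full [Module.Finite F V] (hV : Module.finrank F V ≤ 4371) (hz : ∃ v, ρ.x pZ v ≠ v) :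
    ∃ u, ρ.Full u := by
  obtain ⟨u, G⟩ := exists_good hV hz
  exact ⟨u, G, G.indep.span_eq_top_of_card_eq_finrank'
    (le_antisymm G.le_finrank (hV.trans le_card_Ix))⟩

namespace Full

variable {u : V} (G : ρ.Full u)
include G

theorem mem (v : V) : v ∈ span F (ρ.Sm u ∪ (ρ.S2 u ∪ insert (ρ.a0 u) (ρ.Sa u))) := by
  refine span_mono ?_ (G.top.ge (Submodule.mem_top : v ∈ ⊤))
  rintro _ ⟨d | c | _ | j, rfl⟩
  · exact Or.inl ⟨_, (mem_X2.1 d.2).2, rfl⟩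
  · exact Or.inr (Or.inl ⟨_, (hh_spec c.2.1).1, rfl⟩)
  · exact Or.inr (Or.inr (Or.inl rfl))
  · exact Or.inr (Or.inr (Or.inr ⟨_, (nn_spec j.2).1, rfl⟩))

theorem mem_Sm {v : V} (h : ρ.x pZ v = (-1 : F) • v) : v ∈ span F (ρ.Sm u) := by
  refine span_le.2 ?_ (span_filter ρ.two (ρ.x pZ) (neg_ne_zero.2 one_ne_zero) (fun w hw => hw.imp G.Sm_z
    fun hw => by rw [G.Sp_z hw, neg_neg, one_smul]) (G.mem v) h)
  rintro w ⟨a | a, b⟩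
  · exact subset_span a
  · rw [G.Sp_z a] at b
    rw [eq_zero_of_ne (one_ne_neg ρ.two) ((one_smul _ _).trans b)]
    exact zero_mem _

theorem mem_Sp {v : V} (h : ρ.x pZ v = v) : v ∈ span F (ρ.S2 u ∪ insert (ρ.a0 u) (ρ.Sa u)) := by
  refine span_le.2 ?_ (span_filter ρ.two (ρ.x pZ) one_ne_zero (fun w hw => (hw.imp G.Sm_z
    fun hw => by rw [G.Sp_z hw, one_smul]).symm) (G.mem v) (h.trans (one_smul _ _).symm))
  rintro w ⟨a | a, b⟩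
  · rw [eq_zero_of_ne (one_ne_neg ρ.two) (b.symm.trans (G.Sm_z a))]
    exact zero_mem _
  · exact subset_span a

theorem Sp_wt {w : V} (h : w ∈ ρ.S2 u ∪ insert (ρ.a0 u) (ρ.Sa u)) : ∃ c, w ∈ ρ.QW c := by
  rcases h with ⟨h, hh', rfl⟩ | h
  exacts [⟨_, G.S2_wt hh'⟩, ⟨_, G.S1_wt h⟩]

theorem mem_S1 {v : V} (h : v ∈ ρ.QW 0) : v ∈ span F (insert (ρ.a0 u) (ρ.Sa u)) := by
  refine span_le.2 ?_ (QW_filter (fun w => G.Sp_wt) (G.mem_Sp (QW_z h)) h)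
  rintro w ⟨⟨h, hh', rfl⟩ | a, b⟩
  · rw [QW_zero (G.S2_wt hh') b fun e => not_sim_zero ⟨h, hh', rfl⟩ (Or.inl e)]
    exact zero_mem _
  · exact subset_span a

theorem a0_line {v : V} (h : v ∈ ρ.QW 0) (h' : ∀ p, p = p0 ∨ p = 2 ∨ p = 0x688130 → ρ.Z p v = v) :
    ∃ c : F, v = c • ρ.a0 u := by
  have : v ∈ span F {ρ.a0 u} := by
    refine span_le.2 ?_ (Z_filter ?_ (G.mem_S1 h) h')
    · rintro _ ⟨rfl | ⟨n, hn, rfl⟩, b⟩
      · exact subset_span rfl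
      · exact (G.aa_zero hn b).elim
    · rintro _ (rfl | ⟨n, hn, rfl⟩) p hp
      · exact ⟨0, by rw [G.Z_a0 hp, sgF_zero, one_smul]⟩
      · exact ⟨_, G.Z_aa hn (np3 hp)⟩
  exact (mem_span_singleton.1 this).imp fun _ => Eq.symm

theorem Z_a0_line {p : ℕ} (hp : Np p) : ∃ c : F, ρ.Z p (ρ.a0 u) = c • ρ.a0 u :=
  G.a0_line (Z_QW0 G.a0_wt hp) fun q hq => by rw [Z_comm G.a0_wt (np3 hq).1 hp.1, G.Z_a0 hq]

theorem r_a0_line {m : GH} (hm : m ∈ NH) : ∃ c : F, ρ.r m (ρ.a0 u) = c • ρ.a0 u := by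
  refine G.a0_line (QW0_r hm.1 G.a0_wt) fun p hp => ?_
  obtain ⟨n, a, b⟩ := exists_fst hm
  have h1 := (np3 hp).φ (inv_mem a)
  obtain ⟨c, hc⟩ := G.Z_a0_line h1
  have h2 := Z_Z G.a0_wt h1.1
  rw [hc, map_smul, hc, smul_smul] at h2
  have h3 := Z_r (ρ := ρ) b a.1 (np3 hp).1 (ρ.a0 u)
  rw [hc, map_smul] at h3
  rcases mul_self_eq_one_iff.1 (smul_left_injective F G.a0_ne (h2.trans (one_smul _ _).symm)) with
    rfl | rfl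
  · rw [h3, one_smul]
  · refine (G.a0_notMem ?_).elim
    rw [← ρ.inv_r hm.1 (ρ.a0 u)]
    refine Sa_r (inv_mem hm) (span_le.2 ?_ (span_filter ρ.two (ρ.Z p) (neg_ne_zero.2 one_ne_zero) ?_
      (G.mem_S1 (QW0_r hm.1 G.a0_wt)) h3))
    · rintro w ⟨rfl | a, b⟩
      · rw [G.Z_a0 hp] at b
        exact (G.a0_ne (eq_zero_of_ne (one_ne_neg ρ.two) ((one_smul _ _).trans b))).elim
      · exact subset_span a
    · rintro _ (rfl | ⟨n, hn, rfl⟩)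
      · exact Or.inr (by rw [G.Z_a0 hp, neg_neg, one_smul])
      · rw [G.Z_aa hn (np3 hp), ← sgF_one]
        exact (sgF_cases _ 1).imp (fun e => by rw [e]) fun e => by rw [e]

theorem T_a0 : ρ.T (ρ.a0 u) = ρ.a0 u := by
  have h0 : ρ.T (ρ.a0 u) ∈ ρ.DW 0 0 := DW_T (e := 0) (d := 0) two_pos (QW0_DW G.a0_wt)
  refine T_fix G.a0_wt (G.QW0_of (NW_of (fun q hq e => ?_) (by
    rw [DW_fix h0 (by decide) (by decide), pcomm_zero', sgF_zero, one_smul])))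
  rw [pcomm_zero', sgF_zero, one_smul]
  refine (Np_ind (K := ρ.Fix _) (fun p hp _ => mem_Fix hp.qp (DW_fix h0 hp (pcomm_zero' p)))
    (fun r hr => ?_) hq e).2
  obtain ⟨ε, p, a, b, -, d, e⟩ := rs_spec hr
  obtain ⟨c, hc⟩ := G.r_a0_line (Est_NH a b)
  obtain ⟨c', hc'⟩ := G.Z_a0_line d
  refine e ▸ comm_fix b (Qp.mem d.1) ⟨c, by rw [ρ.hN _ _ (NP_Est a) b, hc, map_smul]⟩ ⟨c', ?_⟩
  rw [← map_smul, ← hc', Z_apply, ρ.h3, x]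

theorem comm_a0 : ⁅NH, NH⁆ ≤ ρ.Fix (ρ.a0 u) := commutator_fix inf_le_left fun _ => G.r_a0_line

theorem T_eT : ρ.T (ρ.r (hh cT) (ρ.ee u)) ∈ span F (ρ.St u) := by
  have h0 := G.St_wt (one_mem _)
  rw [ρ.one, φ_one (by decide)] at h0
  have h1 : ρ.T (ρ.r (hh cT) (ρ.ee u)) ∈ ρ.DW 0 cT :=
    DW_T (e := 0) (d := cT) two_pos (NW_DW (QW_NW h0) rfl)
  refine span_le.2 ?_ (DW_filter (fun w hw => (G.Sp_wt hw).elim fun c h => ⟨0, c, NW_DW (QW_NW h) rfl⟩)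
    (G.mem_Sp (DW_z0 h1)) h1)
  rintro w ⟨⟨h, hh', rfl⟩ | a, b⟩
  · by_cases e : φ h pT2 % 4096 = cT % 4096
    · have e' : φ h pT2 % 4096 = 2 := e
      rcases orb_cases ⟨h, hh', rfl⟩ with a | ⟨n, hn, a⟩ | a
      · have := orbB a
        unfold Dp at this
        omega
      · obtain ⟨c, hc⟩ := G.S2_line hh' (hh_spec cT_orb).1 hn (by rw [(hh_spec cT_orb).2, a])
        exact hc ▸ smul_mem _ _ (subset_span ⟨n, hn, rfl⟩)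
      · have := orbX a
        omega
    · rw [DW_zero (NW_DW (QW_NW (G.S2_wt hh')) rfl) b two_pos two_pos fun k => e k.2]
      exact zero_mem _
  · rw [DW_zero (QW0_DW (G.S1_wt a)) b two_pos two_pos (by decide)]
    exact zero_mem _

theorem T_St {v : V} (hv : v ∈ span F (ρ.St u)) : ρ.T v ∈ span F (ρ.St u) := by
  refine (span_le (p := (span F (ρ.St u)).comap ρ.T)).2 ?_ hv
  rintro _ ⟨m, hm, rfl⟩
  obtain ⟨n, a, b⟩ := exists_fst hm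
  exact (show ρ.T _ ∈ span F _ from ρ.hN n m b a.1 _ ▸ St_r a G.T_eT)

theorem δ_St {v : V} (hv : v ∈ span F (ρ.St u)) : ρ.x pD v ∈ span F (ρ.St u) := by
  refine (span_le (p := (span F (ρ.St u)).comap (ρ.x pD))).2 ?_ hv
  rintro _ ⟨m, hm, rfl⟩
  exact (show ρ.x pD _ ∈ span F _ from QW_iff.1 (G.St_wt hm) pD (by decide) ▸
    smul_mem _ _ (subset_span ⟨m, hm, rfl⟩))

theorem NW_cT {v : V} (h : v ∈ ρ.NW cT) : ∃ c : F, v = c • ρ.r (hh cT) (ρ.ee u) := by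
  refine G.QW_line (hh_spec cT_orb).1 ?_
  rw [(hh_spec cT_orb).2]
  refine span_le.2 ?_ (NW_filter (fun w hw => (G.Sp_wt hw).elim fun c h => ⟨c, QW_NW h⟩)
    (G.mem_Sp (DW_z0 (NW_DW h rfl))) h)
  rintro w ⟨⟨h, hh', rfl⟩ | a, b⟩
  · by_cases e : SimN (φ h pT2) cT
    · exact QW_sim (G.S2_wt hh') (sim_cT ⟨h, hh', rfl⟩ e).symm
    · rw [NW_zero (QW_NW (G.S2_wt hh')) b e]
      exact zero_mem _
  · rw [NW_zero b (QW_NW (G.S1_wt a)) (not_sim_zero cT_orb)]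
    exact zero_mem _

end Full

end BR

end Cfsg.Lib.Mon.B4
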