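import Cfsg.Agent.Mon.BWt
import Cfsg.Agent.Mon.BDat
import Cfsg.Agent.Mon.VRho

/-! Representations of the Baby Monster amalgam: facts on `H`. -/

set_option autoImplicit false

namespace Cfsg.Lib.Mon.B4

open Subgroup Cfsg.Lib.Spor Cfsg.Lib.Spor.CK Cfsg.Lib.Spor.Bulk Cfsg.Lib.Mon.Kit Cfsg.Lib.Mon.YE1
open scoped commutatorElement

local notation "𝓗" => FxS [pT]

/-- `F` is the tableau of `g`. -/
def Tb (g : GH) (F : ℕ) : Prop := ∀ k < 24, φ g (2 ^ k) = tk F k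

theorem Tb.raw {r : ℕ} {g : GH} (h : Raw r g) : Tb g (tab r) := fun k hk => by
  rw [h.1 k hk, tk_tab hk, tk_eq_mod]

theorem Tb.mul {g h : GH} {F G : ℕ} (a : Tb g F) (b : Tb h G) : Tb (g * h) (tmul RP F G) :=
  fun k hk => by rw [tmul_RP a hk, ← b k hk, φ_mul]

theorem Tb.inv {g : GH} {F : ℕ} (a : Tb g F) (e : okI F = true) : Tb g⁻¹ (tinv F) := fun k hk => by
  rw [← tk_ID k hk, ← Nat.eq_of_beq_eq_true e, tmul_RP a hk, φ_inv_φ _ (tk_lt _ _)]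

theorem Tb.pq (p : ℕ) : Tb (pq p) (ptab p) := fun k hk => (φ_pq p (pow_lt_25 hk)).trans (by
  rw [← tk_ID k hk, ← tk_csg hk, ← tk_xor]; rfl)

theorem Tb.ap {g : GH} {F : ℕ} (a : Tb g F) (p : ℕ) : tmul 1 F p = φ g p := tmul_one a p

theorem Tb.ext {g h : GH} {F : ℕ} (a : Tb g F) (b : Tb h F) :
    ∃ c, (c = 1 ∨ c = Mon.pq pZ ∨ c = cc ∨ c = Mon.pq pZ * cc) ∧ g = h * c :=
  ⟨h⁻¹ * g, of_φ_trivial fun k hk => by rw [φ_mul, a k hk, ← b k hk, φ_inv_φ _ (pow_lt_25 hk)],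
    (mul_inv_cancel_left h g).symm⟩

theorem tk_comm {K L : Subgroup GH} {F G : ℕ} (a : TK K F) (b : TK K G) (e : okI F = true)
    (e' : okI G = true) (hL : ⁅K, K⁆ ≤ L) : TK L (cmt F G) := by
  obtain ⟨g, hg, a⟩ := a
  obtain ⟨h, hh, b⟩ := b
  refine ⟨⁅g, h⁆, hL (commutator_mem_commutator hg hh), ?_⟩
  rw [commutatorElement_def, mul_assoc, mul_assoc]
  exact Tb.mul a (Tb.mul b ((Tb.inv a e).mul (Tb.inv b e')))

theorem tk_fix {K : Subgroup GH} {F b : ℕ} (a : TK K F) (e : tmul 1 F b = b) :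
    TK (K ⊓ FxS [b]) F := by
  obtain ⟨g, hg, a⟩ := a
  rw [tmul_one a] at e
  exact ⟨g, ⟨hg, (mem_FxS_one (e ▸ φ_lt g b)).2 e⟩, a⟩

theorem tk_mono {K L : Subgroup GH} {F : ℕ} (a : TK K F) (h : K ≤ L) : TK L F :=
  a.imp fun _ a => ⟨h a.1, a.2⟩

theorem tl_GE : TL EstS GE :=
  TL.cons ⟨_, S1_mem.1, Tb.raw raw_S1⟩ <| TL.cons ⟨_, S2_mem.1, Tb.raw raw_S2⟩ <|
    TL.cons ⟨_, Ca_est, Tb.raw raw_Ca⟩ <| TL.cons ⟨_, G0_est, Tb.raw raw_G0⟩ TL.nil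

theorem tk_A {F : ℕ} (h : F ∈ [A1, A2]) : TK (EstS ⊓ 𝓗 ⊓ FxS [pT2] ⊓ FxS [pD]) F := by
  obtain ⟨a, b, c⟩ := fix_ok F h
  refine tk_fix (tk_fix (tk_fix ?_ a) b) c
  simp only [List.mem_cons, List.not_mem_nil, or_false] at h
  rcases h with rfl | rfl
  exacts [A1_eq ▸ tl_GE.wd _ _ TK.one, A2_eq ▸ tl_GE.wd _ _ TK.one]

theorem tk_AN {F : ℕ} (h : F ∈ [A1, A2]) : TK NH F :=
  tk_mono (tk_A h) fun _ hg => Est_NH hg.1.1.1 hg.1.1.2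

theorem Yb_NH : el rYb ∈ NH := ⟨(NP_H NP_yb).2 (Qp.mem (by decide)), NP_fst NP_yb⟩

theorem Ca_NH : el rCa ∈ NH := Est_NH Ca_est Ca_mem_H

theorem S1_NH : el rS1 ∈ NH := Est_NH S1_mem.1 S1_mem.2

theorem tl_GN : TL NH GN :=
  TL.cons ⟨_, S1_NH, Tb.raw raw_S1⟩ <| TL.cons (tk_AN (by simp)) <| TL.cons (tk_AN (by simp)) <|
    TL.cons ⟨_, Ca_NH, Tb.raw raw_Ca⟩ <| TL.cons ⟨_, Yb_NH, Tb.raw raw_Yb⟩ <|
      TL.cons (TK.ptab (Np.mem (by decide))) TL.nil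

theorem tl_GA : TL 𝓗 GA :=
  TL.cons ⟨_, S1_NH.1, Tb.raw raw_S1⟩ <| TL.cons (tk_mono (tk_AN (by simp)) inf_le_left) <|
    TL.cons (tk_mono (tk_AN (by simp)) inf_le_left) <| TL.cons ⟨_, Ca_NH.1, Tb.raw raw_Ca⟩ <|
      TL.cons ⟨_, Yb_NH.1, Tb.raw raw_Yb⟩ <| TL.cons ⟨_, N1_mem_H, Tb.raw raw_N1⟩ TL.nil

theorem okI_of {F : ℕ} (h : F ∈ [A1, A2, tab rCa, tab rYb, B1, B2, B3]) : okI F = true :=
  List.all_eq_true.1 okI_all F h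

theorem tl_GK {K : Subgroup GH} (h1 : ⁅NH, NH⁆ ≤ K) (h2 : el rN1 ∈ K) (h4 : ∀ p, Qp p → pq p ∈ K) :
    TL K GK :=
  TL.cons (C_eq.1 ▸ tk_comm (tk_AN (by simp)) (tk_AN (by simp)) (okI_of (by simp)) (okI_of (by simp)) h1) <|
  TL.cons (C_eq.2.1 ▸ tk_comm (tk_AN (by simp)) ⟨_, Ca_NH, Tb.raw raw_Ca⟩ (okI_of (by simp))
    (okI_of (by simp)) h1) <|
  TL.cons (C_eq.2.2 ▸ tk_comm (tk_AN (by simp)) ⟨_, Yb_NH, Tb.raw raw_Yb⟩ (okI_of (by simp))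
    (okI_of (by simp)) h1) <|
  TL.cons ⟨_, h2, Tb.raw raw_N1⟩ <| TL.cons (TK.ptab (h4 _ (by decide))) TL.nil

theorem P1_le_aux {K L : Subgroup GH} (h : TL K GK)
    (h1 : ⁅K ⊓ 𝓗 ⊓ FxS [pT2], K ⊓ 𝓗 ⊓ FxS [pT2]⁆ ≤ L)
    (h2 : ∀ p, Qp p → pcomm p pT2 = 0 → pq p ∈ L) (h3 : cc ∈ L) : FxS [pT, pT2] ≤ L := by
  have k : ∀ F ∈ [B1, B2, B3], TK K F → TK (K ⊓ 𝓗 ⊓ FxS [pT2]) F := fun F hF a =>
    tk_fix (tk_fix a (fixB_ok F hF).1) (fixB_ok F hF).2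
  have b1 := k B1 (by simp) (B1_eq ▸ h.wd _ _ TK.one)
  have b2 := k B2 (by simp) (B2_eq ▸ h.wd _ _ TK.one)
  have b3 := k B3 (by simp) (B3_eq ▸ h.wd _ _ TK.one)
  have q : ∀ p, Qp p ∧ pcomm p pT2 = 0 → TK L (ptab p) := fun p a => TK.ptab (h2 p a.1 a.2)
  exact P1_le (G := GP)
    (TL.cons (D_eq.1 ▸ tk_comm b1 b2 (okI_of (by simp)) (okI_of (by simp)) h1) <|
     TL.cons (D_eq.2.1 ▸ tk_comm b1 b3 (okI_of (by simp)) (okI_of (by simp)) h1) <|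
     TL.cons (D_eq.2.2 ▸ tk_comm b2 b3 (okI_of (by simp)) (okI_of (by simp)) h1) <|
     TL.cons (q _ (by decide)) <| TL.cons (q _ (by decide)) <| TL.cons (q _ (by decide)) <|
     TL.cons (q _ (by decide)) <| TL.cons (q _ (by decide)) <| TL.cons (q _ (by decide)) <|
     TL.cons (q _ (by decide)) TL.nil) (h2 _ (by decide) (by decide)) h3 chk_GP

theorem comm_le_self (K : Subgroup GH) : ⁅K, K⁆ ≤ K := commutator_le.2 fun _ ha _ hb =>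
  mul_mem (mul_mem (mul_mem ha hb) (inv_mem ha)) (inv_mem hb)

/-- `P1` is perfect modulo `Q` and `cc`. -/
theorem P1_le_of {L : Subgroup GH} (h1 : ⁅FxS [pT, pT2], FxS [pT, pT2]⁆ ≤ L)
    (h2 : ∀ p, Qp p → pcomm p pT2 = 0 → pq p ∈ L) (h3 : cc ∈ L) : FxS [pT, pT2] ≤ L :=
  P1_le_aux (K := 𝓗) (tl_GK ((comm_le_self _).trans inf_le_left) N1_mem_H fun _ h => h.mem)
    (by rwa [inf_idem, ← FxS_cons]) h2 h3

theorem walk_le' {K : Subgroup GH} {G : List ℕ} (h : TL K G) {M n w b c : ℕ} (hb : b < 2 ^ 25)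
    (e : walk G M n w b 0 0 = c) : c ≤ (Orb K b).ncard :=
  e ▸ walk_le h M b n w ⟨1, K.one_mem, φ_one hb⟩ (D := ∅) fun _ h => absurd h (by simp)

/-- Generation of `H`. -/
theorem H_le_of {K : Subgroup GH} (h1 : ⁅NH, NH⁆ ≤ K) (h2 : el rN1 ∈ K) (h3 : cc ∈ K)
    (h4 : ∀ p, Qp p → pq p ∈ K) : 𝓗 ≤ K := by
  have a : TL (K ⊓ 𝓗) GK := tl_GK (le_inf h1 ((comm_le_self _).trans inf_le_left)) ⟨h2, N1_mem_H⟩
    fun p h => ⟨h4 p h, h.mem⟩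
  have b := P1_le_aux (L := K) a ((comm_le_self _).trans (inf_le_left.trans
    (inf_le_left.trans inf_le_left))) (fun p h _ => h4 p h) h3
  have c : Orb (K ⊓ 𝓗) pT2 = Orb 𝓗 pT2 := Set.eq_of_subset_of_ncard_le
    (fun _ ⟨g, hg, e⟩ => ⟨g, hg.2, e⟩) (ncard_orb_H_pT2.trans_le (walk_le' a pT2_lt walk_K))
    (finite_Orb _ _)
  intro g hg
  obtain ⟨k, hk, e⟩ := c.ge ⟨g, hg, rfl⟩
  exact (K.mul_mem_cancel_left (inv_mem hk.1)).1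
    (b (mem_P1.2 ⟨mul_mem (inv_mem hk.2) hg, φ_eq_iff.1 e⟩))

/-! ### The orbit of `t2` -/

theorem shB_iff {p : ℕ} : shB p = true ↔ IsSh p := by
  rw [shB, Bool.and_eq_true, Nat.beq_eq]
  exact ⟨fun h => (Lb.isSh h.1).congr h.2, IsSh.dec_spec⟩

theorem mem_orb {c : ℕ} : c ∈ Orb 𝓗 pT2 ↔ c < 2 ^ 25 ∧ IsSh c ∧ IsSh (c ^^^ pT) := by
  rw [orb_H_pT2]
  refine and_congr_right fun _ => ⟨?_, ?_⟩
  · rintro ⟨x, hx, e⟩
    refine ⟨⟨x, hx.1, e⟩, x - uT, ?_, by rw [Nat.xor_mod_two_pow, e, pT_mod, cls_sub]⟩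
    show nm _ = 32
    rw [nm_sub, hx.1, nm_uT, dt_comm, hx.2]; rfl
  · rintro ⟨⟨x, hx, ex⟩, y, hy, ey⟩
    have hx : nm x = 32 := hx
    have hy : nm y = 32 := hy
    have h1 : cls y = cls uT ^^^ cls x := by
      rw [← ey, Nat.xor_mod_two_pow, ex, pT_mod, Nat.xor_comm]
    rcases le_total 0 (dt uT x) with hs | hs
    · have h3 : nm (uT - x) = 64 - 2 * dt uT x := by rw [nm_sub, nm_uT, hx]; ring
      refine ⟨x, ⟨hx, ?_⟩, ex⟩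
      rcases (cls_eq_iff.1 (h1.trans (cls_sub _ _).symm)).eq_of_Min hy (by omega) with a | a <;>
        rw [a] at h3 <;> have := nm_neg y <;> omega
    · have h3 : nm (uT + x) = 64 + 2 * dt uT x := by rw [nm_add, nm_uT, hx]; ring
      refine ⟨-x, ⟨(nm_neg x).trans hx, ?_⟩, ex.trans (cls_neg x).symm⟩
      rw [dt_neg_right]
      rcases (cls_eq_iff.1 (h1.trans (cls_add _ _).symm)).eq_of_Min hy (by omega) with a | a <;>
        rw [a] at h3 <;> have := nm_neg y <;> omega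

theorem mem_orb_of {c : ℕ} (h : c < 2 ^ 25 ∧ shB c = true ∧ shB (c ^^^ pT) = true) : c ∈ Orb 𝓗 pT2 :=
  mem_orb.2 ⟨h.1, shB_iff.1 h.2.1, shB_iff.1 h.2.2⟩

theorem orb_sim {c c' : ℕ} (h : c ∈ Orb 𝓗 pT2) (h' : c' < 2 ^ 25) (e : Sim c' c) : c' ∈ Orb 𝓗 pT2 := by
  obtain ⟨-, a, b⟩ := mem_orb.1 h
  rcases e with e | e
  · exact mem_orb.2 ⟨h', a.congr e.symm, b.congr (by rw [Nat.xor_mod_two_pow, ← e, ← Nat.xor_mod_two_pow])⟩
  · exact mem_orb.2 ⟨h', b.congr e.symm, a.congr (by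
      rw [Nat.xor_mod_two_pow, e, ← Nat.xor_mod_two_pow, Nat.xor_xor_cancel_right])⟩

theorem orb_φ {g : GH} (hg : g ∈ 𝓗) {c : ℕ} (h : c ∈ Orb 𝓗 pT2) : φ g c ∈ Orb 𝓗 pT2 := by
  obtain ⟨k, hk, rfl⟩ := h
  exact ⟨g * k, mul_mem hg hk, φ_mul _ _ _⟩

theorem pD_orb : pD ∈ Orb 𝓗 pT2 := mem_orb_of (by decide +kernel)

theorem cT_orb : cT ∈ Orb 𝓗 pT2 := mem_orb_of (by decide +kernel)

theorem cj_orb : ∀ j < 22, cj j ∈ Orb 𝓗 pT2 := fun j hj =>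
  mem_orb_of ((by decide +kernel : ∀ j < 22, cj j < 2 ^ 25 ∧ shB (cj j) = true ∧
    shB (cj j ^^^ pT) = true) j hj)

theorem orbB {c : ℕ} (h : c ∈ Orb NH pT2) : Dp c := by
  obtain ⟨g, hg, rfl⟩ := h
  exact Dp.φ hg (by decide)

theorem even_φ {g : GH} (hg : g ∈ NH) (c : ℕ) : φ g c % 2 = c % 2 := by
  have h : ∀ c, pcomm c pZ2 = c % 2 := fun c => by
    rw [pcomm_comm, show pZ2 = 2 ^ 12 from rfl, pcomm_pow (by norm_num)]; simp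
  rw [← h, ← h, pcomm_φ_fix (mem_FxS_Z2.2 hg.2)]

theorem orbT {c : ℕ} (h : c ∈ Orb NH cT) : ¬ Dp c ∧ c % 2 = 0 := by
  obtain ⟨g, hg, rfl⟩ := h
  refine ⟨fun h => ?_, even_φ hg _⟩
  have := h.φ (inv_mem hg)
  rw [φ_inv_φ _ (by decide)] at this
  exact absurd this (by decide)

theorem orbX {c : ℕ} (h : c ∈ Orb NH pD) : c % 2 = 1 := by
  obtain ⟨g, hg, rfl⟩ := h
  exact even_φ hg _

theorem orb_cases {c : ℕ} (h : c ∈ Orb 𝓗 pT2) :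
    c ∈ Orb NH pT2 ∨ c ∈ Orb NH cT ∨ c ∈ Orb NH pD := by
  have k : ∀ b ∈ Orb 𝓗 pT2, Orb NH b ⊆ Orb 𝓗 pT2 := fun b hb _ ⟨g, hg, e⟩ => e ▸ orb_φ hg.1 hb
  have e : Orb NH pT2 ∪ (Orb NH cT ∪ Orb NH pD) = Orb 𝓗 pT2 := by
    refine Set.eq_of_subset_of_ncard_le (Set.union_subset (k _ ⟨1, one_mem _, φ_one pT2_lt⟩)
      (Set.union_subset (k _ cT_orb) (k _ pD_orb))) ?_ (finite_Orb _ _)
    rw [Set.ncard_union_eq _ (finite_Orb _ _) ((finite_Orb _ _).union (finite_Orb _ _)),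
      Set.ncard_union_eq _ (finite_Orb _ _) (finite_Orb _ _), ncard_orb_H_pT2]
    · have a := walk_le' tl_GN (by decide) walk_B
      have b := walk_le' tl_GN (by decide) walk_T
      have c := walk_le' tl_GN (by decide) walk_X
      omega
    · exact Set.disjoint_left.2 fun x a b => by
        have := (orbT a).2
        have := orbX b
        omega
    · refine Set.disjoint_left.2 fun x a b => ?_
      have a := orbB a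
      rcases b with b | b
      · exact (orbT b).1 a
      · have := orbX b
        unfold Dp at a
        omega
  exact e.ge h

theorem orbB_of {c : ℕ} (h : c ∈ Orb 𝓗 pT2) (hd : Dp c) : c ∈ Orb NH pT2 := by
  rcases orb_cases h with a | a | a
  · exact a
  · exact absurd hd (orbT a).1
  · have := orbX a
    unfold Dp at hd
    omega

theorem diag_cases {c : ℕ} (h : c ∈ Orb 𝓗 pT2) (hd : Dp c) : ∃ j < 22, SimN c (cj j) := by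
  obtain ⟨h1, a, b⟩ := mem_orb.1 h
  have e : c % 2 ^ 24 = 4096 * (c / 4096 % 4096) % 2 ^ 24 := by unfold Dp at hd; omega
  have k := allLT_iff.1 diag_ok (c / 4096 % 4096) (Nat.mod_lt _ (by norm_num))
  rw [shB_iff.2 (a.congr e), shB_iff.2 (b.congr (by
    rw [Nat.xor_mod_two_pow, e, ← Nat.xor_mod_two_pow]))] at k
  simp only [Bool.not_true, Bool.false_or, List.any_eq_true, List.mem_range, Nat.beq_eq,
    List.mem_cons, List.not_mem_nil, or_false] at k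
  obtain ⟨j, hj, w, hw, k⟩ := k
  refine ⟨j, hj, ?_⟩
  rw [k] at e
  rcases hw with rfl | rfl | rfl | rfl
  · exact Or.inl (Or.inl (by rwa [Nat.xor_zero] at e))
  · exact Or.inl (Or.inr e)
  · exact Or.inr (Or.inl e)
  · exact Or.inr (Or.inr (by rwa [Nat.xor_assoc]))

theorem sim_cT {c : ℕ} (h : c ∈ Orb 𝓗 pT2) (e : SimN c cT) : Sim c cT :=
  e.resolve_right fun e => by
    have a := (mem_orb.1 h).2.1
    rcases e with e | e <;> exact absurd (shB_iff.2 (a.congr e)) (by decide +kernel)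

theorem not_sim_zero {c : ℕ} (h : c ∈ Orb 𝓗 pT2) : ¬ SimN c 0 := fun e => by
  obtain ⟨-, a, b⟩ := mem_orb.1 h
  have k : ∀ w, c % 2 ^ 24 = w % 2 ^ 24 → shB w = true ∧ shB (w ^^^ pT) = true := fun w e =>
    ⟨shB_iff.2 (a.congr e), shB_iff.2 (b.congr (by
      rw [Nat.xor_mod_two_pow, e, ← Nat.xor_mod_two_pow]))⟩
  rcases e with (e | e) | e | e <;> exact absurd (k _ e) (by decide +kernel)

/-- The canonical representatives of the 2300 characters. -/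
def Cn : Set ℕ := {c | c ∈ Orb 𝓗 pT2 ∧ c < 2 ^ 24 ∧ c.testBit 14 = false}

theorem exists_Cn {c : ℕ} (h : c ∈ Orb 𝓗 pT2) : ∃ c' ∈ Cn, Sim c c' := by
  have hl := Nat.mod_lt c (Nat.two_pow_pos 24)
  cases e : (c % 2 ^ 24).testBit 14
  · exact ⟨_, ⟨orb_sim h (by omega) (Or.inl (Nat.mod_mod _ _)), hl, e⟩, Or.inl (Nat.mod_mod _ _).symm⟩
  · have hl' : c % 2 ^ 24 ^^^ pT < 2 ^ 24 := Nat.xor_lt_two_pow hl (by decide)
    refine ⟨c % 2 ^ 24 ^^^ pT, ⟨orb_sim h (by omega) (Or.inr ?_), hl', ?_⟩, Or.inr ?_⟩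
    · rw [Nat.xor_mod_two_pow, Nat.xor_mod_two_pow, Nat.mod_mod]
    · rw [Nat.testBit_xor, e]; rfl
    · rw [Nat.xor_xor_cancel_right, Nat.mod_mod]

theorem Cn_inj {c c' : ℕ} (h : c ∈ Cn) (h' : c' ∈ Cn) (e : Sim c c') : c = c' := by
  rcases e with e | e
  · rwa [Nat.mod_eq_of_lt h.2.1, Nat.mod_eq_of_lt h'.2.1] at e
  · rw [Nat.mod_eq_of_lt h.2.1, Nat.mod_eq_of_lt (Nat.xor_lt_two_pow h'.2.1 (by decide))] at e
    have := h.2.2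
    rw [e, Nat.testBit_xor, h'.2.2] at this
    exact absurd this (by decide)

theorem finite_Cn : Cn.Finite := (finite_Orb _ _).subset fun _ h => h.1

theorem orb_sub_Cn : Orb 𝓗 pT2 ⊆ (Cn ∪ (· ^^^ pT) '' Cn) ∪
    ((· ^^^ 2 ^ 24) '' Cn ∪ (· ^^^ pT ^^^ 2 ^ 24) '' Cn) := fun c h => by
  obtain ⟨c', h', e⟩ := exists_Cn h
  have hl := (mem_orb.1 h).1
  have h1 : c' < 2 ^ 25 := h'.2.1.trans (by norm_num)
  rcases e with e | e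
  · rcases eq_or_neg_of_mod hl h1 e with e | e
    exacts [Or.inl (Or.inl (e ▸ h')), Or.inr (Or.inl ⟨c', h', e.symm⟩)]
  · rcases eq_or_neg_of_mod hl (Nat.xor_lt_two_pow h1 pT_lt) e with e | e
    exacts [Or.inl (Or.inr ⟨c', h', e.symm⟩), Or.inr (Or.inr ⟨c', h', e.symm⟩)]

theorem le_ncard_Cn : 2300 ≤ Cn.ncard := by
  have h := Set.ncard_le_ncard orb_sub_Cn ((finite_Cn.union (finite_Cn.image _)).union
    ((finite_Cn.image _).union (finite_Cn.image _)))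
  have a := Set.ncard_union_le (Cn ∪ (· ^^^ pT) '' Cn)
    ((· ^^^ 2 ^ 24) '' Cn ∪ (· ^^^ pT ^^^ 2 ^ 24) '' Cn)
  have b := Set.ncard_union_le Cn ((· ^^^ pT) '' Cn)
  have c := Set.ncard_union_le ((· ^^^ 2 ^ 24) '' Cn) ((· ^^^ pT ^^^ 2 ^ 24) '' Cn)
  have d1 := Set.ncard_image_le (f := (· ^^^ pT)) finite_Cn
  have d2 := Set.ncard_image_le (f := (· ^^^ 2 ^ 24)) finite_Cn
  have d3 := Set.ncard_image_le (f := (· ^^^ pT ^^^ 2 ^ 24)) finite_Cn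
  rw [ncard_orb_H_pT2] at h
  omega

theorem φ_congr24 (g : GH) {p q : ℕ} (h : p % 2 ^ 24 = q % 2 ^ 24) : φ g p % 2 ^ 24 = φ g q % 2 ^ 24 := by
  obtain ⟨x, hx⟩ := cls_surj (Nat.mod_lt q (Nat.two_pow_pos 24))
  rw [φ_cls g (h.trans hx.symm), φ_cls g hx.symm]

/-- The stabiliser of the character of `t2`. -/
theorem stab_le {K : Subgroup GH} (h1 : FxS [pT, pT2] ≤ K) (h2 : ∀ p, Qp p → pq p ∈ K) {σ : GH}
    (h3 : σ ∈ K) (h4 : σ ∈ 𝓗) (h5 : φ σ pT2 % 2 ^ 24 = (pT2 ^^^ pT) % 2 ^ 24) {s : GH} (hs : s ∈ 𝓗)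
    (e : Sim (φ s pT2) pT2) : s ∈ K := by
  have k : ∀ s ∈ 𝓗, φ s pT2 % 2 ^ 24 = pT2 % 2 ^ 24 → s ∈ K := fun s hs e => by
    rcases eq_or_neg_of_mod (φ_lt _ _) pT2_lt e with e | e
    · exact h1 (mem_P1.2 ⟨hs, (mem_FxS_one pT2_lt).2 e⟩)
    · refine (K.mul_mem_cancel_left (h2 p0 (by decide))).1 (h1 (mem_P1.2
        ⟨mul_mem (Qp.mem (by decide)) hs, (mem_FxS_one pT2_lt).2 ?_⟩))
      rw [φ_mul, e, φ_pq _ (by decide)]
      decide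
  rcases e with e | e
  · exact k s hs e
  · refine (K.mul_mem_cancel_left (inv_mem h3)).1 (k _ (mul_mem (inv_mem h4) hs) ?_)
    rw [φ_mul, φ_congr24 _ (e.trans h5.symm), φ_inv_φ _ pT2_lt]

/-! ### Generators of `Q ∩ N ∩ H` -/

theorem kprod_mem {K : Subgroup GH} {L : List ℕ} (h : ∀ r ∈ L, pq r ∈ K) (c : ℕ) :
    pq (kprod L c) ∈ K := by
  induction L generalizing c with
  | nil => exact pq_zero ▸ K.one_mem
  | cons a L ih =>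
    have := ih (fun r hr => h r (List.mem_cons_of_mem _ hr)) (Nat.shiftRight c 1)
    show pq (cond _ (kmul a (kprod L _)) (kprod L _)) ∈ K
    cases Nat.beq (Nat.land c 1) 1
    · exact this
    · exact pq_kmul a _ ▸ K.mul_mem (h a List.mem_cons_self) this

theorem Np_ind {K : Subgroup GH} (hD : ∀ p, Dp p → pcomm p pD = 0 → pq p ∈ K)
    (hr : ∀ r ∈ rs, pq r ∈ K) {q : ℕ} (hq : Np q) (hq' : pcomm q pD = 0) : pq q ∈ K := by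
  have h1 : q % 2 = 0 := by
    have := hq.2
    rwa [pcomm_comm, show pZ2 = 2 ^ 12 from rfl, pcomm_pow (by norm_num),
      show (12 + 12) % 24 = 0 from rfl, pow_zero, Nat.div_one] at this
  have h2 := allLT_iff.1 cols_ok (q % 4096 / 2) (by omega)
  rw [show 2 * (q % 4096 / 2) = q % 4096 by omega, pcomm_comm,
    pcomm_diag (by decide) (Nat.mod_mod q _), pcomm_comm, hq.1] at h2
  have h3 : kprod rs (xorComb cols (q % 4096)) % 4096 = q % 4096 := Nat.eq_of_beq_eq_true h2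
  have h4 := kprod_mem (K := K ⊓ FxS [pD]) (fun r h => ⟨hr r h, pq_mem_FxS.2
    ((by decide +kernel : ∀ r ∈ rs, pcomm r pD = 0) r h)⟩) (xorComb cols (q % 4096))
  generalize kprod rs (xorComb cols (q % 4096)) = s at h3 h4
  have h5 : pq (pmul (pinv s) q) = (pq s)⁻¹ * pq q := by rw [← pq_mul, pq_pinv]
  refine (K.mul_mem_cancel_left (inv_mem h4.1)).1 (h5 ▸ hD _ ?_ (pq_mem_FxS.1 ?_))
  · have e : ∀ a b : ℕ, (a ^^^ b) % 4096 = a % 4096 ^^^ b % 4096 :=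
      fun a b => Nat.xor_mod_two_pow (n := 12)
    have e' : ∀ a : ℕ, a <<< 24 % 4096 = 0 := fun a => by rw [Nat.shiftLeft_eq]; omega
    rw [Dp, pmul, show pinv s = s ^^^ (par ((s >>> 12) &&& s) <<< 24) from rfl, e, e, e, e', e', h3]
    simp
  · rw [h5]; exact mul_mem (inv_mem h4.2) (pq_mem_FxS.2 hq')

theorem pq_comm_eq {ε : GH} {F p r : ℕ} (h : Tb ε F) (e : kmul (tmul 1 F p) (pinv p) = r) :
    pq r = ⁅ε, pq p⁆ := by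
  rw [← e, pq_kmul, pq_pinv, h.ap, ← conj_pq, commutatorElement_def]

theorem RL_spec {r : ℕ} (h : r ∈ RL.map (·.1)) : ∃ ε p, ε ∈ Est ∧ ε ∈ 𝓗 ∧ ε ∈ FxS [pT2] ∧
    ε ∈ FxS [pD] ∧ Np p ∧ pcomm p pT2 = 0 ∧ pq r = ⁅ε, pq p⁆ := by
  obtain ⟨a, ha, rfl⟩ := List.mem_map.1 h
  obtain ⟨h1, h2, h3, h4⟩ := RL_ok a ha
  obtain ⟨ε, h5, h6⟩ := TL.get (K := EstS ⊓ 𝓗 ⊓ FxS [pT2] ⊓ FxS [pD]) (fun _ h => tk_A h) a.2.1
  exact ⟨ε, _, h5.1.1.1, h5.1.1.2, h5.1.2, h5.2, ⟨h2, h3⟩, h4, pq_comm_eq h6 h1⟩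

theorem rs_spec {r : ℕ} (h : r ∈ rs) : ∃ ε p, ε ∈ Est ∧ ε ∈ 𝓗 ∧ ε ∈ FxS [pD] ∧ Np p ∧
    pq r = ⁅ε, pq p⁆ := by
  rcases List.mem_append.1 h with h | h
  · obtain ⟨ε, p, a, b, -, c, d, -, e⟩ := RL_spec h
    exact ⟨ε, p, a, b, c, d, e⟩
  · rw [List.mem_singleton.1 h]
    exact ⟨_, _, Ca_est, Ca_mem_H, (mem_FxS_one (by decide)).2
      (((Tb.raw raw_Ca).ap _).symm.trans raw_ok.2.1), by decide, pq_comm_eq (Tb.raw raw_Ca) p0_ok⟩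

theorem exists_ha : ∃ h ∈ 𝓗, φ h (pD ^^^ pZ2) = 0xae9001 := by
  obtain ⟨h, a, b⟩ := tl_GA.wd 5 0x4005004 TK.one
  exact ⟨h, a, (tmul_one b _).symm.trans wa_ok⟩

theorem exists_hb : ∃ h ∈ 𝓗, φ h pZ2 = 0xc12001 := by
  obtain ⟨h, a, b⟩ := tl_GA.wd 8 0x142140040045 TK.one
  exact ⟨h, a, (tmul_one b _).symm.trans wb_ok⟩

theorem φ_S1_pD : φ (el rS1) pD = pD ^^^ pT := ((Tb.raw raw_S1).ap _).symm.trans raw_ok.1

theorem φ_N1_C2 : φ (el rN1) (pT2 ^^^ pZ2) = 0x152c000 ^^^ pT :=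
  ((Tb.raw raw_N1).ap _).symm.trans raw_ok.2.2.2

/-- Two elements `z_p` centralised by `n1` modulo `Q`. -/
theorem z4_spec {p : ℕ} (hp : p = 2 ∨ p = 0x688130) : ∃ m q c, (pq p, m) ∈ NP ∧ Qp q ∧
    (c = 1 ∨ c = pq pZ ∨ c = cc ∨ c = pq pZ * cc) ∧ el rN1 * (m * el rN1) = m * pq q * c := by
  have n := Tb.raw raw_N1
  have z := Tb.raw raw_Zb
  have a := Tb.raw raw_Ca
  rcases hp with rfl | rfl
  · obtain ⟨c, h1, h2⟩ := (n.mul (z.mul n)).ext (z4_ok.1 ▸ z.mul (Tb.pq 0xea0002))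
    exact ⟨_, _, c, NP_xb, by decide, h1, h2⟩
  · have a' := a.inv (okI_of (by simp))
    obtain ⟨c, h1, h2⟩ := (n.mul (a.mul (z.mul (a'.mul n)))).ext
      (z4_ok.2 ▸ a.mul (z.mul (a'.mul (Tb.pq 0xdeb130))))
    have := NP_mul (NP_mul (NP_Est Ca_est) NP_xb) (NP_inv (NP_Est Ca_est))
    rw [conj_pq, ← a.ap, show pXb = 2 from rfl, raw_ok.2.2.1] at this
    exact ⟨_, 0xdeb130, c, this, by decide, h1, by simpa only [mul_assoc] using h2⟩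

end Cfsg.Lib.Mon.B4
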