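import Cfsg.Agent.Mon.BGrp

/-! Representations of the Baby Monster amalgam: the structure in dimension at most 4371. -/

set_option autoImplicit false

namespace Cfsg.Lib.Mon.B4

open Subgroup Submodule Cfsg.Lib.Mon.Kit
open scoped commutatorElement

local notation "𝓗" => FxS [pT]

/-- An element carrying `t2` to `c`. -/
noncomputable def hh (c : ℕ) : GH := pick fun g => g ∈ 𝓗 ∧ φ g pT2 = c

theorem hh_spec {c : ℕ} (h : c ∈ Orb 𝓗 pT2) : hh c ∈ 𝓗 ∧ φ (hh c) pT2 = c := pick_spec h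

/-- An element of `N ∩ H` carrying `t2` to `x_{0 j}`. -/
noncomputable def nn (j : ℕ) : GH := pick fun g => g ∈ NH ∧ φ g pT2 = cj j

theorem nn_spec {j : ℕ} (h : j < 22) : nn j ∈ NH ∧ φ (nn j) pT2 = cj j :=
  pick_spec (orbB_of (cj_orb j h) ((by decide +kernel : ∀ j < 22, Dp (cj j)) j h))

/-- `y_{p0}`. -/
noncomputable def yy : GH := pick fun g => g ∈ NH ∧ (g, pq p0) ∈ NP

theorem yy_spec : yy ∈ NH ∧ (yy, pq p0) ∈ NP := pick_spec (exists_fst (Np.mem (by decide)))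

/-- `z_{p0}`. -/
noncomputable def zy : GH := pick fun g => g ∈ NH ∧ (pq p0, g) ∈ NP

theorem zy_spec : zy ∈ NH ∧ (pq p0, zy) ∈ NP := pick_spec (exists_snd (Np.mem (by decide)))

theorem φ_yy : φ yy pT2 = pT2 ^^^ pZ1 := by
  obtain ⟨h1, h2⟩ := NP_φ yy_spec.2 pT2_lt (by decide)
  refine alp_inj (φ_lt _ _) h1 (by decide) (by decide) (h2.symm.trans ?_)
  rw [φ_pq _ (by decide)]; decide

theorem φ_zy : φ zy pT2 = pT2 ^^^ pZ2 := by
  have := (NP_φ zy_spec.2 pT2_lt (by decide)).2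
  rw [φ_pq _ (by decide)] at this
  exact this

theorem N1zy_NH : el rN1 * zy * el rN1 ∈ NH := by
  refine ⟨mul_mem (mul_mem N1_mem_H zy_spec.1.1) N1_mem_H, (mem_FxS_one pZ1_lt).2 ?_⟩
  rw [φ_mul, φ_mul, φ_N1_Z1, (mem_FxS_one (by decide)).1 ((NP_fix zy_spec.2 (p := pW) (by decide)).1
    (pq_mem_FxS.2 (by decide))), φ_N1_W]

/-- The triality preimage of `n1 z_{p0} n1`. -/
noncomputable def pp : GH := pick fun g => g ∈ NH ∧ (g, el rN1 * zy * el rN1) ∈ NP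

theorem pp_spec : pp ∈ NH ∧ (pp, el rN1 * zy * el rN1) ∈ NP := pick_spec (exists_fst N1zy_NH)

theorem φ_pp : φ pp pT2 = 0x14f9000 := by
  obtain ⟨h1, h2⟩ := NP_φ pp_spec.2 pT2_lt (by decide)
  refine alp_inj (φ_lt _ _) h1 (by decide) (by decide) (h2.symm.trans ?_)
  rw [show alp pT2 = pT2 from rfl, φ_mul, φ_mul, (mem_FxS_one pT2_lt).1 N1_mem_T2, φ_zy, φ_N1_C2]
  decide

theorem φ_xor24 (g : GH) (p q : ℕ) : φ g (p ^^^ q) % 2 ^ 24 = (φ g p ^^^ φ g q) % 2 ^ 24 := by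
  rw [φ_xor_mod24, Nat.xor_mod_two_pow]

theorem Sim.φ {g : GH} (hg : g ∈ 𝓗) {c c' : ℕ} (h : Sim c c') : Sim (φ g c) (φ g c') := by
  rcases h with h | h
  · exact Or.inl (φ_congr24 g h)
  · exact Or.inr (by rw [φ_congr24 g h, φ_xor24, (mem_FxS_one pT_lt).1 hg])

theorem Sim.congr {c c' d : ℕ} (h : Sim c c') (e : c' % 2 ^ 24 = d % 2 ^ 24) : Sim c d := by
  unfold Sim at *
  rwa [Nat.xor_mod_two_pow, e, ← Nat.xor_mod_two_pow] at h

theorem φ_xor_Z2 {g : GH} (hg : g ∈ NH) (c : ℕ) :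
    φ g (c ^^^ pZ2) % 2 ^ 24 = (φ g c ^^^ pZ2) % 2 ^ 24 := by
  rw [φ_xor24, (mem_FxS_one (by decide)).1 (mem_FxS_Z2.2 hg.2)]

theorem SimN.φ {g : GH} (hg : g ∈ NH) {c c' : ℕ} (h : SimN c c') : SimN (φ g c) (φ g c') :=
  h.imp (Sim.φ hg.1) fun h => (h.φ hg.1).congr (φ_xor_Z2 hg _)

theorem SimN.xor {c c' d : ℕ} (h : SimN c c') (e : d % 2 ^ 24 = (c ^^^ pZ2) % 2 ^ 24) : SimN d c' := by
  unfold SimN Sim at *
  simp only [Nat.xor_mod_two_pow (n := 24)] at h e ⊢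
  rw [e]
  rcases h with (h | h) | h | h <;> rw [h]
  · exact Or.inr (Or.inl rfl)
  · exact Or.inr (Or.inr (by ac_rfl))
  · exact Or.inl (Or.inl (Nat.xor_xor_cancel_right _ _))
  · exact Or.inl (Or.inr (by rw [Nat.xor_right_comm, Nat.xor_xor_cancel_right]))

theorem DW_sep {e e' d d' : ℕ} (he : e < 2) (he' : e' < 2) (hd : d < 4096) (hd' : d' < 4096)
    (h : ¬ (e = e' ∧ d = d')) : ∃ q, Dp q ∧
      (pcomm q d ^^^ e * (q >>> 24)) % 2 ≠ (pcomm q d' ^^^ e' * (q >>> 24)) % 2 := by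
  by_cases h1 : d = d'
  · have k : ∀ d, pcomm pZ d = 0 := fun d => (pcomm_congr (p' := 0) (by decide) rfl).trans (pcomm_zero d)
    refine ⟨pZ, by decide, ?_⟩
    rw [k, k, show pZ >>> 24 = 1 from rfl, Nat.zero_xor, Nat.zero_xor]
    omega
  · have h2 : d ^^^ d' < 2 ^ 12 := Nat.xor_lt_two_pow hd hd'
    obtain ⟨k, hk, h3⟩ := exists_pcomm (p := d ^^^ d') (by
      rw [Nat.mod_eq_of_lt (by omega)]; exact fun e => h1 (Nat.xor_eq_zero_iff.1 e))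
    have h4 : 12 ≤ k := by
      by_contra hn
      rw [pcomm_pow hk, Nat.mod_eq_of_lt (a := k + 12) (by omega), Nat.div_eq_of_lt
        (h2.trans_le (Nat.pow_le_pow_right (by norm_num) (by omega)))] at h3
      omega
    obtain ⟨j, rfl⟩ := Nat.exists_eq_add_of_le h4
    refine ⟨_, pow_diag j, fun e => ?_⟩
    rw [Nat.shiftRight_eq_div_pow, Nat.div_eq_of_lt (Nat.pow_lt_pow_right (by norm_num) hk),
      mul_zero, mul_zero, Nat.xor_zero, Nat.xor_zero, Nat.mod_eq_of_lt (pcomm_lt _ _),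
      Nat.mod_eq_of_lt (pcomm_lt _ _)] at e
    rw [pcomm_xor_right, e, Nat.xor_self] at h3
    omega

/-- The `x`-parts commuting with `t`. -/
def X2 : Finset ℕ := (Finset.range 4096).filter Qp

theorem card_X2 : X2.card = 2048 := by decide +kernel

theorem card_X2e : (X2.filter (· % 2 = 0)).card = 1024 := by decide +kernel

theorem mem_X2 {d : ℕ} : d ∈ X2 ↔ d < 4096 ∧ Qp d := by simp [X2]

namespace BR

variable {F V : Type*} [Field F] [AddCommGroup V] [Module F V] {ρ : BR F V}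

theorem x_ne {q : ℕ} (hq : Qp q) {v : V} (hv : v ≠ 0) : ρ.x q v ≠ 0 := ρ.r_ne hq.mem hv

theorem T_inj {v w : V} (h : ρ.T v = ρ.T w) : v = w := by rw [← ρ.h3 v, h, ρ.h3]

theorem DW_indep {ι : Type*} (e d : ι → ℕ) (he : ∀ i, e i < 2) (hd : ∀ i, d i < 4096)
    (h : ∀ i j, e i = e j → d i = d j → i = j) (S : Finset ι) (w : ι → V)
    (hw : ∀ i, w i ∈ ρ.DW (e i) (d i)) (h0 : ∑ i ∈ S, w i = 0) : ∀ i ∈ S, w i = 0 :=
  zero_of_sep (fun q : {q // Dp q} => ρ.x q)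
    (fun i q => sgF F (pcomm q (d i) ^^^ e i * (q.1 >>> 24))) (fun i j hij => by
      obtain ⟨q, a, b⟩ := DW_sep (he i) (he j) (hd i) (hd j) fun k => hij (h i j k.1 k.2)
      exact ⟨⟨q, a⟩, sgF_ne ρ.two b⟩) S w (fun i q => hw i q q.2) h0

theorem exists_DW (hz : ∃ v, ρ.x pZ v ≠ v) : ∃ w ≠ 0, w ∈ ρ.DW 1 0 := by
  classical
  have hd : ∀ j, Dp (2 ^ (12 + j)) := pow_diag
  have h1 : ∀ k, ∃ w ≠ 0, ρ.x pZ w = -w ∧
      ∀ j < k, ρ.x (2 ^ (12 + j)) w = w ∨ ρ.x (2 ^ (12 + j)) w = -w := fun k => by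
    induction k with
    | zero =>
      obtain ⟨v, hv⟩ := hz
      exact ⟨v - ρ.x pZ v, sub_ne_zero.2 hv.symm, by rw [map_sub, ρ.zz, neg_sub], by simp⟩
    | succ k ih =>
      obtain ⟨w, a, b, c⟩ := ih
      by_cases h : ρ.x (2 ^ (12 + k)) w = -w
      · refine ⟨w, a, b, fun j hj => ?_⟩
        rcases Nat.lt_succ_iff_lt_or_eq.1 hj with hj | rfl
        exacts [c j hj, Or.inr h]
      · refine ⟨w + ρ.x (2 ^ (12 + k)) w, fun e => h (eq_neg_of_add_eq_zero_right e), ?_, fun j hj => ?_⟩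
        · rw [map_add, ρ.x_comm (by decide) (hd k).qp (Dp.comm (by decide) (hd k)), b, map_neg, neg_add]
        rcases Nat.lt_succ_iff_lt_or_eq.1 hj with hj | rfl
        · rw [map_add, ρ.x_comm (hd j).qp (hd k).qp ((hd j).comm (hd k))]
          exact (c j hj).imp (fun e => by rw [e]) fun e => by rw [e, map_neg, neg_add]
        · left
          rw [map_add, ρ.x_x (hd j).qp (hd j).qp, pmul_diag _ (hd j), Nat.xor_self, ρ.x_zero, add_comm]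
  obtain ⟨w, a, b, c⟩ := h1 12
  obtain ⟨d, -, h2⟩ := exists_pcomm_eq (fun k => if ρ.x (2 ^ k) w = w then 0 else 1)
    fun k => by split_ifs <;> norm_num
  have h3 : ∀ p < 2 ^ 25, p % 4096 = 0 → ρ.x p w = sgF F (pcomm p d ^^^ p >>> 24) • w :=
    diag_induction (by rw [ρ.x_zero, pcomm_zero]; exact (by rw [sgF_zero, one_smul] : w = sgF F 0 • w))
      fun k hk p _ hp ih => by
        have e : ρ.x (2 ^ (12 + k)) w = sgF F (pcomm (2 ^ (12 + k)) d ^^^ 2 ^ (12 + k) >>> 24) • w := by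
          rcases Nat.lt_succ_iff_lt_or_eq.1 hk with hk | rfl
          · rw [Nat.shiftRight_eq_div_pow, Nat.div_eq_of_lt (Nat.pow_lt_pow_right (by norm_num)
              (by omega)), Nat.xor_zero, pcomm_comm, h2 _ (by omega)]
            split_ifs with h
            · rw [h, sgF_zero, one_smul]
            · rw [(c k hk).resolve_left h, sgF_one, neg_one_smul]
          · rw [pcomm_congr (p' := 0) (q' := d) (by decide) rfl, pcomm_zero]
            exact b.trans (by rw [sgF_one, neg_one_smul] : -w = sgF F 1 • w)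
        rw [← pmul_diag p (hd k), ← ρ.x_x (Dp.qp hp) (hd k).qp, e, map_smul, ih, smul_smul, ← sgF_xor,
          pmul_diag p (hd k), pcomm_xor, Nat.shiftRight_xor_distrib]
        congr 2
        ac_rfl
  have h4 : w ∈ ρ.DW 1 d := DW_iff.2 fun p hp => by
    rw [← x_mod, h3 _ (Nat.mod_lt _ (by norm_num)) (by unfold Dp at hp; omega), pcomm_mod25, one_mul]
    refine congrArg (· • _) (sgF_congr ?_)
    rw [xor_mod2, xor_mod2 (pcomm p _),
      show (p % 2 ^ 25) >>> 24 % 2 = p >>> 24 % 2 by simp only [Nat.shiftRight_eq_div_pow]; omega]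
  have h5 : Qp d := by
    by_contra hn
    have := DW_iff.1 h4 pT (by decide)
    rw [x, ρ.t, show pT >>> 24 = 0 from rfl, mul_zero, Nat.xor_zero, pcomm_comm] at this
    have h6 := pcomm_lt d pT
    exact a (eq_zero_of_ne (sgF_ne ρ.two (a := 0) (b := pcomm d pT) (by unfold Qp at hn; omega))
      (by rw [sgF_zero, one_smul]; exact this))
  exact ⟨_, x_ne h5 a, Nat.xor_self d ▸ DW_x1 h5 h4⟩

theorem line_of_le [Module.Finite F V] (hV : Module.finrank F V ≤ 4371) {u : V} (hu : u ≠ 0)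
    (h : u ∈ ρ.DW 0 1) {v : V} (hv : v ∈ ρ.DW 0 1) : ∃ c : F, v = c • u := by
  by_contra hn
  push Not at hn
  have h0 : LinearIndependent F ![u, v] := (LinearIndependent.pair_iff' hu).2 fun c e => hn c e.symm
  let U : X2 ⊕ X2.filter (· % 2 = 0) → Module.End F V :=
    Sum.elim (fun d => ρ.x d ∘ₗ ρ.T ∘ₗ ρ.T) fun d => ρ.T ∘ₗ ρ.x d ∘ₗ ρ.T ∘ₗ ρ.T
  have hU : ∀ k w, U k w = 0 → w = 0 := by
    rintro (d | d) w e <;> by_contra hw
    · exact x_ne (mem_X2.1 d.2).2 (ρ.T_ne (ρ.T_ne hw)) e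
    · exact ρ.T_ne (x_ne (mem_X2.1 (Finset.mem_filter.1 d.2).1).2 (ρ.T_ne (ρ.T_ne hw))) e
  have h1 : LinearIndependent F fun a : (X2 ⊕ X2.filter (· % 2 = 0)) × Fin 2 => U a.1 (![u, v] a.2) := by
    refine Fintype.linearIndependent_iff.2 fun g hg a => ?_
    rw [Fintype.sum_prod_type] at hg
    have h2 := DW_indep (ρ := ρ) (Sum.elim (fun _ => 1) fun _ => 0)
      (Sum.elim (fun d : X2 => d.1) fun d : X2.filter (· % 2 = 0) => d.1 ^^^ 1)
      (by rintro (_ | _) <;> simp) (by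
        rintro (d | d)
        · exact (mem_X2.1 d.2).1
        · exact Nat.xor_lt_two_pow (n := 12) (mem_X2.1 (Finset.mem_filter.1 d.2).1).1 (by norm_num))
      (by
        rintro (d | d) (d' | d') a b
        · exact congrArg _ (Subtype.ext b)
        · simp at a
        · simp at a
        · exact congrArg _ (Subtype.ext (Nat.xor_left_inj.1 b))) Finset.univ
      (fun k => U k (∑ i, g (k, i) • ![u, v] i)) (fun k => by
        have h3 : ρ.T (ρ.T (∑ i, g (k, i) • ![u, v] i)) ∈ ρ.DW 1 0 :=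
          DW_T (e := 1) (d := 1) (by norm_num) (DW_T (e := 0) (d := 1) (by norm_num) (by
            rw [Fin.sum_univ_two]; exact add_mem (smul_mem _ _ h) (smul_mem _ _ hv)))
        rcases k with d | d
        · have := DW_x1 (mem_X2.1 d.2).2 h3
          rwa [Nat.zero_xor] at this
        · have := DW_T (by norm_num) (DW_x1 (mem_X2.1 (Finset.mem_filter.1 d.2).1).2 h3)
          rwa [Nat.zero_xor, (Finset.mem_filter.1 d.2).2] at this)
      (by simpa only [map_sum, map_smul] using hg) a.1 (Finset.mem_univ _)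
    exact Fintype.linearIndependent_iff.1 h0 _ (hU _ _ h2) a.2
  have := h1.fintype_card_le_finrank
  rw [Fintype.card_prod, Fintype.card_sum, Fintype.card_coe, Fintype.card_coe, card_X2, card_X2e,
    Fintype.card_fin] at this
  omega

theorem wt_step {c q s : ℕ} {v : V} (hq : Qp q) (hs : Qp s) (h0 : pmul s s = 0)
    (a : ρ.x s v = sgF F (pcomm s c) • v) (b : ρ.x (pmul q s) v = sgF F (pcomm (pmul q s) c) • v) :
    ρ.x q v = sgF F (pcomm q c) • v := by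
  conv_lhs => rw [← ρ.x_zero v, ← h0, ← ρ.x_x hs hs, ρ.x_x hq hs, a, map_smul, b]
  rw [smul_smul, ← sgF_xor, pcomm_pmul', Nat.xor_comm, Nat.xor_xor_cancel_right]

theorem NW_of {c : ℕ} {v : V} (h0 : ∀ q, Np q → pcomm q pD = 0 → ρ.x q v = sgF F (pcomm q c) • v)
    (h1 : ρ.x pZ2 v = sgF F (pcomm pZ2 c) • v) : v ∈ ρ.NW c := NW_iff.2 fun q hq => by
  have := pcomm_lt q pD
  obtain h | h : pcomm q pD = 0 ∨ pcomm q pD = 1 := by omega
  · exact h0 q hq h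
  · exact wt_step hq.1 (by decide) (by decide) h1 (h0 _ ⟨Qp.mul hq.1 (by decide), by
      rw [pcomm_pmul', hq.2]; decide⟩ (by rw [pcomm_pmul', h]; decide))

theorem QW_of {c : ℕ} {v : V} (h0 : v ∈ ρ.NW c) (h1 : ρ.x pD v = sgF F (pcomm pD c) • v) :
    v ∈ ρ.QW c := QW_iff.2 fun q hq => by
  have := pcomm_lt q pZ2
  obtain h | h : pcomm q pZ2 = 0 ∨ pcomm q pZ2 = 1 := by omega
  · exact h0 q ⟨hq, h⟩
  · exact wt_step hq (by decide) (by decide) h1 (h0 _ ⟨Qp.mul hq (by decide), by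
      rw [pcomm_pmul', h]; decide⟩)

theorem mem_Fix {q : ℕ} {v : V} (hq : Qp q) (h : ρ.x q v = v) : pq q ∈ ρ.Fix v := ⟨hq.mem, h⟩

theorem DW_fix {d p : ℕ} {v : V} (h : v ∈ ρ.DW 0 d) (hp : Dp p) (e : pcomm p d = 0) : ρ.x p v = v := by
  rw [DW_iff.1 h p hp, e, zero_mul, Nat.xor_zero, sgF_zero, one_smul]

/-- The base vector. -/
structure Good (ρ : BR F V) (u : V) : Prop where
  ne : u ≠ 0
  wt : u ∈ ρ.QW pD
  line : ∀ v ∈ ρ.DW 0 1, ∃ c : F, v = c • u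

theorem exists_good [Module.Finite F V] (hV : Module.finrank F V ≤ 4371) (hz : ∃ v, ρ.x pZ v ≠ v) :
    ∃ u, ρ.Good u := by
  obtain ⟨w, a, b⟩ := exists_DW hz
  have hu : ρ.T w ∈ ρ.DW 0 1 := DW_T (e := 1) (d := 0) (by norm_num) b
  have h0 := ρ.T_ne a
  generalize ρ.T w = u at hu h0
  have hl : ∀ v ∈ ρ.DW 0 1, ∃ c : F, v = c • u := fun v hv => line_of_le hV h0 hu hv
  have hu' : u ∈ ρ.DW 0 pD := DW_congr hu (by decide)
  have h1 : u ∈ ρ.NW pD := NW_of (fun q hq e => by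
    rw [e, sgF_zero, one_smul]
    refine (Np_ind (K := ρ.Fix u) (fun p hp e => mem_Fix hp.qp (DW_fix hu' hp e)) (fun r hr => ?_) hq e).2
    obtain ⟨ε, p, a, b, c, d, e⟩ := rs_spec hr
    refine e ▸ comm_fix b (Qp.mem d.1) (hl _ (DW_congr (DW_r (Est_NH a b) hu') ?_))
      (hl _ (DW_x0 d.1 hu))
    rw [(mem_FxS_one (by decide)).1 c]; decide)
    (by rw [DW_iff.1 hu' _ (by decide), zero_mul, Nat.xor_zero])
  refine ⟨u, h0, ?_, hl⟩
  obtain ⟨c, hc⟩ := hl _ (DW_x0 (q := pD) (by decide) hu)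
  have h2 := ρ.δδ u
  rw [hc, map_smul, hc, smul_smul] at h2
  have h3 : c * c = 1 := smul_left_injective F h0 (h2.trans (one_smul _ _).symm)
  rcases mul_self_eq_one_iff.1 h3 with rfl | rfl
  · exact QW_of h1 (by rw [hc, pcomm_self, sgF_zero])
  · have h4 : u ∈ ρ.QW (pD ^^^ pZ2) := QW_of (NW_sim h1 (by decide))
      (by rw [hc, show pcomm pD (pD ^^^ pZ2) = 1 by decide, sgF_one])
    obtain ⟨h, a, b⟩ := exists_ha
    have h5 := b ▸ QW_r a h4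
    obtain ⟨c, hc⟩ := hl _ (NW_DW (QW_NW h5) (by decide))
    exact absurd (QW_zero h5 (hc ▸ smul_mem _ _ h4) (by decide)) (ρ.r_ne a h0)

/-- The vector of weight `t2`. -/
noncomputable def ee (ρ : BR F V) (u : V) : V := ρ.r (hh pD)⁻¹ u

/-- `b_2 + c_2`. -/
noncomputable def m2 (ρ : BR F V) (u : V) : V := ρ.ee u + ρ.r yy (ρ.ee u)

/-- The vectors `a_j`. -/
noncomputable def aa (ρ : BR F V) (u : V) (n : GH) : V := ρ.T (ρ.T (ρ.r n (ρ.m2 u)))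

/-- The vector `a_0`. -/
noncomputable def a0 (ρ : BR F V) (u : V) : V := ρ.r (el rN1) (ρ.aa u 1 + ρ.aa u pp)

/-- The operators `z_p`. -/
noncomputable def Z (ρ : BR F V) (p : ℕ) : Module.End F V := ρ.T ∘ₗ ρ.T ∘ₗ ρ.x p ∘ₗ ρ.T

theorem Z_apply (p : ℕ) (v : V) : ρ.Z p v = ρ.T (ρ.T (ρ.x p (ρ.T v))) := rfl

theorem r_eq_Z {p : ℕ} (hp : Qp p) {m : GH} (h : (pq p, m) ∈ NP) (v : V) : ρ.r m v = ρ.Z p v := by
  rw [Z_apply, x, ρ.TT_r h hp.mem, ρ.h3]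

theorem r_aa (u : V) {n n' m : GH} (h : (n', m) ∈ NP) (hn' : n' ∈ 𝓗) (hn : n ∈ 𝓗) :
    ρ.r m (ρ.aa u n) = ρ.aa u (n' * n) := by
  rw [aa, ← ρ.TT_r h hn', aa, ρ.mul _ hn' _ hn]

namespace Good

variable {u : V} (G : ρ.Good u)
include G

theorem omega_zero {v : V} (hv : v ∈ ρ.QW pZ2) : v = 0 := by
  obtain ⟨h, a, b⟩ := exists_hb
  have h5 := b ▸ QW_r a hv
  obtain ⟨c, hc⟩ := G.line _ (NW_DW (QW_NW h5) (by decide))
  by_contra h0
  exact ρ.r_ne a h0 (QW_zero h5 (hc ▸ smul_mem _ _ G.wt) (by decide))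

theorem QW0_of {v : V} (hv : v ∈ ρ.NW 0) : v ∈ ρ.QW 0 := by
  have h1 : ρ.x pD v ∈ ρ.NW 0 := NW_iff.2 fun q hq => by
    rw [ρ.x_swap hq.1 (by decide) (DW_z (NW_DW (d := 0) hv rfl)), NW_iff.1 hv q hq, zero_mul, sgF_zero,
      one_smul, map_smul]
  have h2 := G.omega_zero (QW_of (NW_sim (sub_mem hv h1) (by decide)) (by
    rw [map_sub, ρ.δδ, show pcomm pD pZ2 = 1 by decide, sgF_one, neg_one_smul, neg_sub]))
  exact QW_of hv (by rw [pcomm_zero', sgF_zero, one_smul, ← sub_eq_zero.1 h2])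

theorem ee_wt : ρ.ee u ∈ ρ.QW pT2 := by
  have := QW_r (inv_mem (hh_spec pD_orb).1) G.wt
  rwa [(congrArg (φ _) (hh_spec pD_orb).2.symm).trans (φ_inv_φ _ pT2_lt)] at this

theorem ee_ne : ρ.ee u ≠ 0 := ρ.r_ne (inv_mem (hh_spec pD_orb).1) G.ne

theorem QW_line {h : GH} (hh' : h ∈ 𝓗) {v : V} (hv : v ∈ ρ.QW (φ h pT2)) :
    ∃ c : F, v = c • ρ.r h (ρ.ee u) := by
  obtain ⟨a, b⟩ := hh_spec pD_orb
  have := QW_r a (QW_r (inv_mem hh') hv)
  rw [φ_inv_φ _ pT2_lt, b] at this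
  obtain ⟨c, hc⟩ := G.line _ (NW_DW (QW_NW this) (by decide))
  exact ⟨c, by rw [ee, ← map_smul, ← map_smul, ← hc, ρ.inv_r a, ρ.r_inv hh']⟩

theorem ee_line {g : GH} (hg : g ∈ 𝓗) (h : Sim pT2 (φ g pT2)) : ∃ c : F, ρ.r g (ρ.ee u) = c • ρ.ee u := by
  have := G.QW_line (one_mem _) (v := ρ.r g (ρ.ee u))
    (by rw [φ_one pT2_lt]; exact QW_sim (QW_r hg G.ee_wt) h)
  rwa [ρ.one] at this

theorem ye_wt : ρ.r yy (ρ.ee u) ∈ ρ.QW (pT2 ^^^ pZ1) := φ_yy ▸ QW_r yy_spec.1.1 G.ee_wt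

theorem m2_wt : ρ.m2 u ∈ ρ.NW pT2 := add_mem (QW_NW G.ee_wt) (NW_sim (QW_NW G.ye_wt) (by decide))

theorem δ_ee : ρ.x pD (ρ.ee u) = ρ.ee u := by
  rw [QW_iff.1 G.ee_wt _ (by decide), show pcomm pD pT2 = 0 by decide, sgF_zero, one_smul]

theorem δ_m2 : ρ.x pD (ρ.m2 u) = ρ.ee u - ρ.r yy (ρ.ee u) := by
  rw [m2, map_add, G.δ_ee, QW_iff.1 G.ye_wt _ (by decide),
    show pcomm pD (pT2 ^^^ pZ1) = 1 by decide, sgF_one, neg_one_smul, sub_eq_add_neg]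

theorem two_ee : ρ.m2 u + ρ.x pD (ρ.m2 u) = (2 : F) • ρ.ee u := by
  rw [G.δ_m2, m2, two_smul]; abel

theorem m2_ne : ρ.m2 u ≠ 0 := fun h => by
  have := G.two_ee
  rw [h, map_zero, add_zero] at this
  exact smul_ne_zero ρ.two G.ee_ne this.symm

theorem aa_one : ρ.aa u 1 ∈ ρ.QW 0 := by
  have h0 : ρ.T (ρ.T (ρ.ee u)) ∈ ρ.DW 0 0 := DW_T (e := 0) (d := 0) two_pos
    (DW_T (e := 0) (d := 0) two_pos (NW_DW (QW_NW G.ee_wt) (by decide)))
  have h1 : ρ.aa u 1 = ρ.T (ρ.T (ρ.ee u)) + ρ.x p0 (ρ.T (ρ.T (ρ.ee u))) := by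
    rw [aa, ρ.one, m2, map_add, map_add, ρ.TT_r yy_spec.2 yy_spec.1.1, x]
  have h2 : ρ.aa u 1 ∈ ρ.DW 0 0 := h1 ▸ add_mem h0 (DW_x0 (by decide) h0)
  refine G.QW0_of (NW_of (fun q hq e => ?_) (by
    rw [DW_fix h2 (by decide) (by decide), pcomm_zero', sgF_zero, one_smul]))
  rw [pcomm_zero', sgF_zero, one_smul]
  refine (Np_ind (K := ρ.Fix _) (fun p hp _ => mem_Fix hp.qp (DW_fix h2 hp (pcomm_zero' p)))
    (fun r hr => ?_) hq e).2
  rcases List.mem_append.1 hr with hr | hr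
  · obtain ⟨ε, p, a, b, c, -, d, e, f⟩ := RL_spec hr
    obtain ⟨y, y1, y2⟩ := exists_fst d.mem
    have k : ∀ n m, (n, m) ∈ NP → n ∈ 𝓗 → n ∈ FxS [pT2] →
        ∃ c : F, ρ.r m (ρ.T (ρ.T (ρ.ee u))) = c • ρ.T (ρ.T (ρ.ee u)) := fun n m a b c => by
      obtain ⟨s, hs⟩ := G.ee_line b (by rw [(mem_FxS_one pT2_lt).1 c]; decide)
      exact ⟨s, by rw [← ρ.TT_r a b, hs, map_smul, map_smul]⟩
    have h3 := f ▸ comm_fix b (Qp.mem d.1) (k _ _ (NP_Est a) b c)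
      (k _ _ y2 y1.1 ((NP_fix y2 (by decide)).2 (pq_mem_FxS.2 e)))
    have h4 : Qp r := pq_mem_FxS.1 h3.1
    have h5 : ρ.x r _ = _ := h3.2
    exact mem_Fix h4 (by rw [h1, map_add, ρ.x_swap h4 (by decide) (DW_z h0), h5, zero_mul, sgF_zero,
      one_smul])
  · rw [List.mem_singleton.1 hr]
    exact mem_Fix (by decide) (by
      rw [h1, map_add, ρ.x_x (by decide) (by decide), show pmul p0 p0 = 0 by decide, ρ.x_zero, add_comm])

theorem aa_wt {n : GH} (hn : n ∈ NH) : ρ.aa u n ∈ ρ.QW 0 := by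
  obtain ⟨m, a, b⟩ := exists_snd hn
  rw [← mul_one n, ← r_aa u b hn.1 (one_mem _)]
  exact QW0_r a.1 G.aa_one

theorem aa_ne {n : GH} (hn : n ∈ NH) : ρ.aa u n ≠ 0 := ρ.T_ne (ρ.T_ne (ρ.r_ne hn.1 G.m2_ne))

theorem Z_aa {n : GH} (hn : n ∈ NH) {p : ℕ} (hp : Np p) :
    ρ.Z p (ρ.aa u n) = sgF F (pcomm p (φ n pT2)) • ρ.aa u n := by
  rw [Z_apply, aa, ρ.h3, NW_iff.1 (NW_r hn G.m2_wt) p hp, map_smul, map_smul]

theorem T_m2 : ρ.T (ρ.m2 u) = ρ.x pD (ρ.m2 u) := by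
  have := QW0_x G.aa_one (q := pD) (by decide)
  rw [aa, ρ.one, ρ.δTT] at this
  exact (T_inj this).symm

theorem aa_line {n m : GH} (hn : n ∈ NH) (hm : m ∈ NH) (h : SimN (φ n pT2) (φ m pT2)) :
    ∃ c : F, ρ.aa u n = c • ρ.aa u m := by
  have hs := mul_mem (inv_mem hm) hn
  have h1 : SimN (φ (m⁻¹ * n) pT2) pT2 := by
    have := h.φ (inv_mem hm)
    rwa [φ_inv_φ _ pT2_lt, ← φ_mul] at this
  have k : ∀ s ∈ NH, SimN (φ s pT2) pT2 →
      ∃ a b : F, ρ.r s (ρ.ee u) = a • ρ.ee u + b • ρ.r yy (ρ.ee u) := fun s hs h => by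
    have sy : ∀ {a b}, Sim a b → Sim b a := fun {a b} h => h.imp Eq.symm fun h => by
      rw [Nat.xor_mod_two_pow, h, ← Nat.xor_mod_two_pow, Nat.xor_xor_cancel_right]
    rcases h with h | h
    · obtain ⟨c, hc⟩ := G.ee_line hs.1 (sy h)
      exact ⟨c, 0, by rw [hc, zero_smul, add_zero]⟩
    · obtain ⟨c, hc⟩ := G.QW_line yy_spec.1.1 (QW_sim (QW_r hs.1 G.ee_wt)
        (sy (h.congr (by rw [φ_yy]; decide))))
      exact ⟨0, c, by rw [hc, zero_smul, zero_add]⟩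
  obtain ⟨a, b, h2⟩ := k _ hs h1
  obtain ⟨a', b', h3⟩ := k _ (mul_mem hs yy_spec.1) (h1.xor (by
    rw [φ_mul _ yy, φ_yy, φ_congr24 _ (q := pT2 ^^^ pZ2) (by decide), φ_xor_Z2 hs]))
  have h4 : ∀ s ∈ NH, ρ.r yy (ρ.r s (ρ.m2 u)) = ρ.r s (ρ.m2 u) := fun s hs => T_inj (T_inj (by
    rw [ρ.TT_r yy_spec.2 yy_spec.1.1]; exact QW0_x (G.aa_wt hs) (by decide)))
  have h5 := h4 1 (one_mem _)
  rw [ρ.one, m2, map_add, add_comm, add_left_inj] at h5
  have h6 : ρ.r (m⁻¹ * n) (ρ.m2 u) = (a + a') • ρ.ee u + (b + b') • ρ.r yy (ρ.ee u) := by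
    rw [m2, map_add, h2, ← ρ.mul _ hs.1 _ yy_spec.1.1, h3, add_smul, add_smul]; abel
  have h7 := h4 _ hs
  rw [h6, map_add, map_smul, map_smul, h5] at h7
  have h8 : a + a' = b + b' := by
    by_contra hne
    refine x_ne (ρ := ρ) (q := pD) (by decide) G.m2_ne (eq_zero_of_ne hne ?_)
    rw [G.δ_m2, smul_sub, smul_sub, sub_eq_sub_iff_add_eq_add, ← h7, add_comm]
  have h9 : ρ.r n (ρ.m2 u) = (a + a') • ρ.r m (ρ.m2 u) := by
    rw [← h8, ← smul_add, ← m2] at h6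
    rw [← map_smul, ← h6, ← ρ.mul _ hm.1 _ hs.1, mul_inv_cancel_left]
  exact ⟨a + a', by rw [aa, aa, h9, map_smul, map_smul]⟩

theorem a0_wt : ρ.a0 u ∈ ρ.QW 0 := QW0_r N1_mem_H (add_mem G.aa_one (G.aa_wt pp_spec.1))

theorem a0_ne : ρ.a0 u ≠ 0 := by
  refine ρ.r_ne N1_mem_H fun h => G.m2_ne ?_
  rw [aa, aa, ← map_add, ← map_add, ρ.one] at h
  have h1 : ρ.m2 u + ρ.r pp (ρ.m2 u) = 0 := T_inj (T_inj (by rw [h, map_zero, map_zero]))
  refine NW_zero G.m2_wt (c' := 0x14f9000) ?_ (by decide)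
  rw [eq_neg_of_add_eq_zero_left h1]
  exact neg_mem (φ_pp ▸ NW_r pp_spec.1 G.m2_wt)

omit G in
theorem a0_eq : ρ.a0 u = ρ.r (el rN1) (ρ.aa u 1) + ρ.Z p0 (ρ.r (el rN1) (ρ.aa u 1)) := by
  rw [a0, map_add, ← mul_one pp, ← r_aa u pp_spec.2 pp_spec.1.1 (one_mem _),
    ρ.mul _ (mul_mem N1_mem_H zy_spec.1.1) _ N1_mem_H, ρ.mul _ N1_mem_H _ zy_spec.1.1, ρ.n1n1,
    r_eq_Z (by decide) zy_spec.2]

theorem Z_a0 {p : ℕ} (hp : p = p0 ∨ p = 2 ∨ p = 0x688130) : ρ.Z p (ρ.a0 u) = ρ.a0 u := by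
  rcases hp with rfl | hp
  · rw [a0_eq, map_add, add_comm, Z_apply, Z_apply, ρ.h3, ρ.x_x (by decide) (by decide),
      show pmul p0 p0 = 0 by decide, ρ.x_zero, ρ.h3]
  · obtain ⟨m, q, c, a, b, d, e⟩ := z4_spec hp
    have h1 : Np p ∧ pcomm p pT2 = 0 ∧ pcomm p 0x14f9000 = 0 := by rcases hp with rfl | rfl <;> decide
    have hm : m ∈ 𝓗 := (NP_H a).1 (Qp.mem h1.1.1)
    have hw := add_mem G.aa_one (G.aa_wt pp_spec.1)
    have hc : c ∈ ρ.Fix (ρ.aa u 1 + ρ.aa u pp) := by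
      have z := mem_Fix (q := pZ) (by decide) (QW0_x hw (by decide))
      have z' : Mon.cc ∈ ρ.Fix (ρ.aa u 1 + ρ.aa u pp) := ⟨cc_mem_FxS _, ρ.cc _⟩
      rcases d with rfl | rfl | rfl | rfl
      exacts [one_mem _, z, z', mul_mem z z']
    rw [← r_eq_Z h1.1.1 a, a0, ← ρ.n1n1 (ρ.r m _), ← ρ.mul _ hm _ N1_mem_H,
      ← ρ.mul _ N1_mem_H _ (mul_mem hm N1_mem_H), e, ρ.mul _ (mul_mem hm b.mem) _ hc.1, hc.2,
      ρ.mul _ hm _ b.mem, ← x, QW0_x hw b, r_eq_Z h1.1.1 a, map_add, G.Z_aa (one_mem _) h1.1,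
      G.Z_aa pp_spec.1 h1.1, φ_one pT2_lt, φ_pp, h1.2.1, h1.2.2, sgF_zero, one_smul, one_smul]

theorem aa_zero {n : GH} (hn : n ∈ NH)
    (h : ∀ p, p = p0 ∨ p = 2 ∨ p = 0x688130 → ρ.Z p (ρ.aa u n) = ρ.aa u n) : False := by
  obtain ⟨j, hj, e⟩ := diag_cases (c := φ n pT2) ⟨n, hn.1, rfl⟩ (Dp.φ hn (by decide))
  obtain ⟨p, a, b, c⟩ := (by decide +kernel : ∀ j < 22, ∃ p ∈ [p0, 2, 0x688130], Np p ∧
    pcomm p (cj j) = 1) j hj
  have := h p (by simpa using a)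
  rw [G.Z_aa hn b, e.pc b, c, sgF_one] at this
  exact G.aa_ne hn (eq_zero_of_ne (one_ne_neg ρ.two) ((one_smul _ _).trans this.symm))

end Good

/-- The index set of the basis. -/
abbrev Ix : Type := X2 ⊕ Cn ⊕ Option (Fin 22)

noncomputable instance : Fintype Cn := finite_Cn.fintype

theorem le_card_Ix : 4371 ≤ Fintype.card Ix := by
  have := le_ncard_Cn
  rw [← Nat.card_coe_set_eq, Nat.card_eq_fintype_card] at this
  rw [Fintype.card_sum, Fintype.card_sum, Fintype.card_coe, card_X2, Fintype.card_option,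
    Fintype.card_fin]
  omega

/-- The basis. -/
noncomputable def fam (ρ : BR F V) (u : V) : Ix → V :=
  Sum.elim (fun d => ρ.x d (ρ.T u)) (Sum.elim (fun c => ρ.r (hh c) (ρ.ee u))
    fun o => Option.casesOn' o (ρ.a0 u) fun j : Fin 22 => ρ.aa u (nn j))

theorem QW_z {c : ℕ} {v : V} (h : v ∈ ρ.QW c) : ρ.x pZ v = v := DW_z0 (NW_DW (QW_NW h) rfl)

theorem Z_filter {s : Set V} (hs : ∀ w ∈ s, ∀ p, p = p0 ∨ p = 2 ∨ p = 0x688130 →
    ∃ e, ρ.Z p w = sgF F e • w) {v : V} (hv : v ∈ span F s)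
    (h : ∀ p, p = p0 ∨ p = 2 ∨ p = 0x688130 → ρ.Z p v = v) :
    v ∈ span F {w ∈ s | ∀ p, p = p0 ∨ p = 2 ∨ p = 0x688130 → ρ.Z p w = w} := by
  refine span_mono ?_ (span_filter' ρ.two ρ.Z (fun p => p = p0 ∨ p = 2 ∨ p = 0x688130)
    (c := fun _ => sgF F 0) (fun _ => sgF_ne_zero _) (fun w hw p hp => ?_) hv
    (fun p hp => by rw [h p hp, sgF_zero, one_smul]) (2 ^ 25))
  · rintro w ⟨a, b⟩
    refine ⟨a, fun p hp => ?_⟩
    rw [b p (by rcases hp with rfl | rfl | rfl <;> decide) hp, sgF_zero, one_smul]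
  · obtain ⟨e, he⟩ := hs w hw p hp
    rw [he]
    exact (sgF_cases e 0).imp (fun e => by rw [e]) fun e => by rw [e]

theorem np3 {p : ℕ} (hp : p = p0 ∨ p = 2 ∨ p = 0x688130) : Np p := by
  rcases hp with rfl | rfl | rfl <;> decide

namespace Good

variable {u : V} (G : ρ.Good u)
include G

theorem Tu_wt : ρ.T u ∈ ρ.DW 1 1 := DW_T (e := 0) (d := 1) two_pos (NW_DW (QW_NW G.wt) (by decide))

theorem indep : LinearIndependent F (ρ.fam u) := by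
  have hc : ∀ c : Cn, ρ.r (hh c) (ρ.ee u) ∈ ρ.QW c := fun c => by
    have := QW_r (hh_spec c.2.1).1 G.ee_wt
    rwa [(hh_spec c.2.1).2] at this
  have h3 : ∀ o : Option (Fin 22),
      (Option.casesOn' o (ρ.a0 u) fun j : Fin 22 => ρ.aa u (nn j)) ∈ ρ.QW 0 := by
    rintro (_ | j)
    exacts [G.a0_wt, G.aa_wt (nn_spec j.2).1]
  refine LinearIndependent.sum_type (linearIndependent_iff'.2 fun S g h0 i hi => ?_)
    (LinearIndependent.sum_type ?_ (LinearIndependent.option ?_ fun h => ?_) ?_) ?_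
  · refine (smul_eq_zero.1 (DW_indep (ρ := ρ) (fun _ => 1) (fun d : X2 => 1 ^^^ d.1) (fun _ => one_lt_two)
      (fun d => Nat.xor_lt_two_pow (n := 12) (by norm_num) (mem_X2.1 d.2).1)
      (fun i j _ e => Subtype.ext (Nat.xor_right_inj.1 e)) S _
      (fun d => smul_mem _ _ (DW_x1 (mem_X2.1 d.2).2 G.Tu_wt)) h0 i hi)).resolve_right
      (x_ne (mem_X2.1 i.2).2 (ρ.T_ne G.ne))
  · exact indep_of_sep (fun q : {q // Qp q} => ρ.x q) (fun (c : Cn) q => sgF F (pcomm q c))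
      (fun i j h => by
        obtain ⟨q, a, b⟩ := sep_of_not fun e => h (Subtype.ext (Cn_inj i.2 j.2 e))
        exact ⟨⟨q, a⟩, sgF_ne ρ.two b⟩) _ (fun c => ρ.r_ne (hh_spec c.2.1).1 G.ee_ne)
      fun c q => hc c q q.2
  · exact indep_of_sep (fun q : {q // Np q} => ρ.Z q) (fun (j : Fin 22) q => sgF F (pcomm q (cj j)))
      (fun i j h => by
        obtain ⟨q, a, b⟩ := sepN_of_not ((by decide +kernel :
          ∀ i j : Fin 22, i ≠ j → ¬ SimN (cj i) (cj j)) i j h)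
        exact ⟨⟨q, a⟩, sgF_ne ρ.two b⟩) _ (fun j => G.aa_ne (nn_spec j.2).1)
      fun j q => by rw [G.Z_aa (nn_spec j.2).1 q.2, (nn_spec j.2).2]
  · refine G.a0_ne (Submodule.mem_bot F |>.1 (span_le.2 ?_ (Z_filter ?_ h fun _ => G.Z_a0)))
    · rintro _ ⟨⟨j, rfl⟩, b⟩
      exact (G.aa_zero (nn_spec j.2).1 b).elim
    · rintro _ ⟨j, rfl⟩ p hp
      exact ⟨_, G.Z_aa (nn_spec j.2).1 (np3 hp)⟩
  · refine Submodule.disjoint_def.2 fun v a b => Submodule.mem_bot F |>.1 (span_le.2 ?_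
      (QW_filter (c := 0) ?_ a (span_le.2 (by rintro _ ⟨o, rfl⟩; exact h3 o) b)))
    · rintro _ ⟨⟨c, rfl⟩, b⟩
      exact QW_zero (hc c) b fun e => not_sim_zero c.2.1 (Or.inl e)
    · rintro _ ⟨c, rfl⟩
      exact ⟨_, hc c⟩
  · refine Submodule.disjoint_def.2 fun v a b => ?_
    have a' : v ∈ Module.End.eigenspace (ρ.x pZ) (-1) := span_le.2 (by
      rintro _ ⟨d, rfl⟩
      exact Module.End.mem_eigenspace_iff.2 (sgF_one (F := F) ▸ DW_z (DW_x1 (mem_X2.1 d.2).2 G.Tu_wt))) a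
    have b' : v ∈ Module.End.eigenspace (ρ.x pZ) 1 := span_le.2 (by
      rintro _ ⟨c | o, rfl⟩
      · exact Module.End.mem_eigenspace_iff.2 ((QW_z (hc c)).trans (one_smul _ _).symm)
      · exact Module.End.mem_eigenspace_iff.2 ((QW_z (h3 o)).trans (one_smul _ _).symm)) b
    exact eq_zero_of_ne (one_ne_neg ρ.two)
      ((Module.End.mem_eigenspace_iff.1 b').symm.trans (Module.End.mem_eigenspace_iff.1 a'))

theorem le_finrank [Module.Finite F V] : Fintype.card Ix ≤ Module.finrank F V :=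
  G.indep.fintype_card_le_finrank

end Good

/-- The minimal degree. -/
theorem le_finrank [Module.Finite F V] (hz : ∃ v, ρ.x pZ v ≠ v) : 4371 ≤ Module.finrank F V := by
  by_contra h
  obtain ⟨u, G⟩ := exists_good (by omega) hz
  exact h (le_card_Ix.trans G.le_finrank)

end BR

end Cfsg.Lib.Mon.B4
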