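import Cfsg.Agent.Mon.BFull

/-! Representations of the Baby Monster amalgam of degree 4371: uniqueness. -/

set_option autoImplicit false

namespace Cfsg.Lib.Mon.B4

open Subgroup Submodule Cfsg.Lib.Mon.Kit
open scoped commutatorElement

local notation "𝓗" => FxS [pT]

namespace BR

variable {F V V' : Type*} [Field F] [AddCommGroup V] [Module F V] [AddCommGroup V'] [Module F V']
  {ρ : BR F V} {ρ' : BR F V'} {u : V} {u' : V'} {f : V →ₗ[F] V'}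

/-- The elements acting on `v` and `v'` by the same scalar. -/
def Same (ρ : BR F V) (ρ' : BR F V') (v : V) (v' : V') : Subgroup GH where
  carrier := {g | g ∈ 𝓗 ∧ ∃ c : F, c ≠ 0 ∧ ρ.r g v = c • v ∧ ρ'.r g v' = c • v'}
  one_mem' := ⟨one_mem _, 1, one_ne_zero, by rw [ρ.one, one_smul], by rw [ρ'.one, one_smul]⟩
  mul_mem' := by
    rintro a b ⟨a1, c, c0, a2, a3⟩ ⟨b1, d, d0, b2, b3⟩
    exact ⟨mul_mem a1 b1, d * c, mul_ne_zero d0 c0, by rw [ρ.mul _ a1 _ b1, b2, map_smul, a2, smul_smul],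
      by rw [ρ'.mul _ a1 _ b1, b3, map_smul, a3, smul_smul]⟩
  inv_mem' := by
    rintro a ⟨a1, c, c0, a2, a3⟩
    refine ⟨inv_mem a1, c⁻¹, inv_ne_zero c0, ?_, ?_⟩
    · rw [eq_inv_smul_iff₀ c0, ← map_smul, ← a2, ρ.inv_r a1]
    · rw [eq_inv_smul_iff₀ c0, ← map_smul, ← a3, ρ'.inv_r a1]

theorem same_of_fix {v : V} {v' : V'} {g : GH} (h : g ∈ ρ.Fix v) (h' : g ∈ ρ'.Fix v') :
    g ∈ ρ.Same ρ' v v' := ⟨h.1, 1, one_ne_zero, h.2.trans (one_smul _ _).symm, h'.2.trans (one_smul _ _).symm⟩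

theorem eqv_span {s : Set V} {A : Module.End F V} {A' : Module.End F V'}
    (h : ∀ w ∈ s, f (A w) = A' (f w)) {v : V} (hv : v ∈ span F s) : f (A v) = A' (f v) :=
  LinearMap.eqOn_span (f := f ∘ₗ A) (g := A' ∘ₗ f) h hv

/-- The map between the bases. -/
structure Pair (ρ : BR F V) (ρ' : BR F V') (u : V) (u' : V') (f : V →ₗ[F] V') : Prop where
  G : ρ.Full u
  G' : ρ'.Full u'
  hf : ∀ i, f (ρ.fam u i) = ρ'.fam u' i

namespace Pair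

variable (P : ρ.Pair ρ' u u' f)
include P

theorem f_x {q : ℕ} (hq : Qp q) : f (ρ.x q (ρ.T u)) = ρ'.x q (ρ'.T u') := by
  rw [x_split hq, x_split hq (ρ'.T u'), DW_iff.1 P.G.Tu_wt _ (Dp.split q),
    DW_iff.1 P.G'.Tu_wt _ (Dp.split q), map_smul, map_smul, map_smul]
  exact congrArg _ (P.hf (Sum.inl ⟨_, mem_X2.2 ⟨Nat.mod_lt _ (by norm_num), hq.mod⟩⟩))

theorem f_Tu : f (ρ.T u) = ρ'.T u' := by
  have := P.f_x (q := 0) (by decide)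
  rwa [ρ.x_zero, ρ'.x_zero] at this

theorem f_a0 : f (ρ.a0 u) = ρ'.a0 u' := P.hf (Sum.inr (Sum.inr none))

theorem x_m {q : ℕ} (hq : Qp q) {v : V} (hv : ρ.x pZ v = (-1 : F) • v) : f (ρ.x q v) = ρ'.x q (f v) := by
  refine eqv_span ?_ (P.G.mem_Sm hv)
  rintro _ ⟨p, hp, rfl⟩
  rw [ρ.x_x hq hp, P.f_x (hq.mul hp), P.f_x hp, ρ'.x_x hq hp]

theorem r_m {g : GH} (hg : g ∈ 𝓗) {v : V} (hv : ρ.x pZ v = (-1 : F) • v) :
    f (ρ.r g v) = ρ'.r g (f v) := by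
  let S := Module.End.eigenspace (ρ.x pZ) (-1 : F)
  have hS : ∀ g ∈ 𝓗, ∀ v ∈ S, ρ.r g v ∈ S := fun g hg v hv => Module.End.mem_eigenspace_iff.2 (by
    rw [ρ.z_r hg, Module.End.mem_eigenspace_iff.1 hv, map_smul])
  refine (H_le_comm (K := ρ.Eqv ρ' f S) (commutator_eqv le_rfl hS fun h hh => ?_)
    ⟨cc_mem_FxS _, hS _ (cc_mem_FxS _), hS _ (inv_mem (cc_mem_FxS _)), fun v _ => by rw [ρ.cc, ρ'.cc]⟩
    hg).2.2.2 v (Module.End.mem_eigenspace_iff.2 hv)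
  have h1 : ∀ q, Qp q → ρ'.r h⁻¹ (f (ρ.r h (ρ.x q (ρ.T u)))) = ρ'.x q (ρ'.r h⁻¹ (f (ρ.r h (ρ.T u)))) :=
    fun q hq => by
      rw [ρ.r_x hh hq, P.x_m (hq.φ hh) (by rw [ρ.z_r hh, DW_z P.G.Tu_wt, sgF_one, map_smul]),
        ρ'.x_r (inv_mem hh) hq, inv_inv]
  obtain ⟨c, hc⟩ := P.G'.DW11 (v := ρ'.r h⁻¹ (f (ρ.r h (ρ.T u)))) (DW_iff.2 fun q hq => by
    rw [← h1 q hq.qp, DW_iff.1 P.G.Tu_wt q hq, map_smul, map_smul, map_smul])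
  refine ⟨c, fun v hv => eqv_span (A' := c • ρ'.r h) ?_ (P.G.mem_Sm (Module.End.mem_eigenspace_iff.1 hv))⟩
  rintro _ ⟨q, hq, rfl⟩
  rw [← ρ'.r_inv hh (f _), h1 q hq, hc, P.f_x hq, map_smul, map_smul]
  rfl

theorem f_ee {h : GH} (hh' : h ∈ 𝓗) : f (ρ.r h (ρ.ee u)) = ρ'.r h (ρ'.ee u') := by
  obtain ⟨c, a, b⟩ := exists_Cn ⟨h, hh', rfl⟩
  obtain ⟨k, e⟩ := hh_spec a.1
  obtain ⟨d1, d2⟩ := hh_spec pD_orb
  have hq : ∀ p, Qp p → pq p ∈ ρ.Same ρ' (ρ.ee u) (ρ'.ee u') := fun p hp =>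
    ⟨hp.mem, _, sgF_ne_zero _, QW_iff.1 P.G.ee_wt p hp, QW_iff.1 P.G'.ee_wt p hp⟩
  have hl : FxS [pT, pT2] ≤ 𝓗 := fun _ h => (mem_P1.1 h).1
  have hs : ∀ g ∈ FxS [pT, pT2], Sim pT2 (φ g pT2) := fun g hg => by
    rw [(mem_FxS_one pT2_lt).1 (mem_P1.1 hg).2]; exact Sim.refl _
  have hσ := mul_mem (mul_mem (inv_mem d1) S1_NH.1) d1
  obtain ⟨-, s, -, h1, h2⟩ := stab_le (K := ρ.Same ρ' (ρ.ee u) (ρ'.ee u')) (P1_le_of (fun g hg =>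
      same_of_fix (commutator_fix hl (fun g hg => P.G.ee_line (hl hg) (hs g hg)) hg)
        (commutator_fix hl (fun g hg => P.G'.ee_line (hl hg) (hs g hg)) hg)) (fun p hp _ => hq p hp)
      (same_of_fix ⟨cc_mem_FxS _, ρ.cc _⟩ ⟨cc_mem_FxS _, ρ'.cc _⟩)) hq (σ := (hh pD)⁻¹ * el rS1 * hh pD)
    (by
      obtain ⟨s, h1⟩ := P.G.line _ (NW_DW (QW_NW (φ_S1_pD ▸ QW_r S1_NH.1 P.G.wt)) (by decide))
      obtain ⟨s', h2⟩ := P.G'.line _ (NW_DW (QW_NW (φ_S1_pD ▸ QW_r S1_NH.1 P.G'.wt)) (by decide))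
      have h3 := P.r_m S1_NH.1 (sgF_one (F := F) ▸ DW_z P.G.Tu_wt)
      rw [P.f_Tu, ρ.hN _ _ (NP_Est S1_mem.1) S1_NH.1, ρ'.hN _ _ (NP_Est S1_mem.1) S1_NH.1, h1, h2,
        map_smul, map_smul, map_smul, P.f_Tu] at h3
      obtain rfl := smul_left_injective F (ρ'.T_ne P.G'.ne) h3
      refine ⟨hσ, s, fun e => ρ.r_ne S1_NH.1 P.G.ne (by rw [h1, e, zero_smul]), ?_, ?_⟩
      · rw [ρ.mul _ (mul_mem (inv_mem d1) S1_NH.1) _ d1, Good.r_ee, ρ.mul _ (inv_mem d1) _ S1_NH.1, h1,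
          map_smul, ee]
      · rw [ρ'.mul _ (mul_mem (inv_mem d1) S1_NH.1) _ d1, Good.r_ee, ρ'.mul _ (inv_mem d1) _ S1_NH.1, h2,
          map_smul, ee]) hσ
    (by
      rw [φ_mul, φ_mul, d2, φ_S1_pD, φ_xor24, (mem_FxS_one pT_lt).1 (inv_mem d1),
        (congrArg (φ _) d2.symm).trans (φ_inv_φ _ pT2_lt)])
    (s := (hh c)⁻¹ * h) (mul_mem (inv_mem k) hh') (by
      have := b.φ (inv_mem k)
      rwa [← φ_mul, (congrArg (φ _) e.symm).trans (φ_inv_φ _ pT2_lt)] at this)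
  rw [← mul_inv_cancel_left (hh c) h, ρ.mul _ k _ (mul_mem (inv_mem k) hh'),
    ρ'.mul _ k _ (mul_mem (inv_mem k) hh'), h1, h2, map_smul, map_smul, map_smul]
  exact congrArg _ (P.hf (Sum.inr (Sum.inl ⟨c, a⟩)))

theorem r_2 {g : GH} (hg : g ∈ 𝓗) {v : V} (hv : v ∈ span F (ρ.S2 u)) : f (ρ.r g v) = ρ'.r g (f v) := by
  refine eqv_span ?_ hv
  rintro _ ⟨h, hh', rfl⟩
  rw [← ρ.mul _ hg _ hh', P.f_ee (mul_mem hg hh'), P.f_ee hh', ρ'.mul _ hg _ hh']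

theorem f_m2 {h : GH} (hh' : h ∈ 𝓗) : f (ρ.r h (ρ.m2 u)) = ρ'.r h (ρ'.m2 u') := by
  rw [m2, m2, map_add, map_add, map_add, ← ρ.mul _ hh' _ yy_spec.1.1, P.f_ee hh',
    P.f_ee (mul_mem hh' yy_spec.1.1), ρ'.mul _ hh' _ yy_spec.1.1]

theorem f_aa {n : GH} (hn : n ∈ NH) : f (ρ.aa u n) = ρ'.aa u' n := by
  obtain ⟨j, hj, e⟩ := diag_cases (c := φ n pT2) ⟨n, hn.1, rfl⟩ (Dp.φ hn (by decide))
  obtain ⟨a, b⟩ := nn_spec hj
  obtain ⟨c, hc⟩ := P.G.aa_line hn a (b.symm ▸ e)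
  have h1 := congrArg (fun v => f (ρ.T v)) hc
  simp only [aa, map_smul, ρ.h3, P.f_m2 hn.1, P.f_m2 a.1] at h1
  have h2 : ρ'.aa u' n = c • ρ'.aa u' (nn j) := by rw [aa, h1, map_smul, map_smul, aa]
  rw [hc, map_smul, h2]
  exact congrArg _ (P.hf (Sum.inr (Sum.inr (some ⟨j, hj⟩))))

theorem f_QW0 {v : V} (hv : v ∈ ρ.QW 0) : f v ∈ ρ'.QW 0 := by
  refine (span_le (p := (ρ'.QW 0).comap f)).2 ?_ (P.G.mem_S1 hv)
  rintro _ (rfl | ⟨n, hn, rfl⟩)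
  · exact (show f _ ∈ ρ'.QW 0 from P.f_a0 ▸ P.G'.a0_wt)
  · exact (show f _ ∈ ρ'.QW 0 from P.f_aa hn ▸ P.G'.aa_wt hn)

theorem r_a {m : GH} (hm : m ∈ NH) {v : V} (hv : v ∈ span F (ρ.Sa u)) : f (ρ.r m v) = ρ'.r m (f v) := by
  refine eqv_span ?_ hv
  rintro _ ⟨n, hn, rfl⟩
  obtain ⟨n', a, b⟩ := exists_fst hm
  rw [r_aa u b a.1 hn.1, P.f_aa hn, P.f_aa (mul_mem a hn), r_aa u' b a.1 hn.1]

theorem r_of {g : GH} (hg : g ∈ 𝓗) (h : ∀ w ∈ insert (ρ.a0 u) (ρ.Sa u), f (ρ.r g w) = ρ'.r g (f w))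
    (v : V) : f (ρ.r g v) = ρ'.r g (f v) := by
  refine eqv_span ?_ (P.G.mem v)
  rintro w (a | a | a)
  exacts [P.r_m hg (P.G.Sm_z a), P.r_2 hg (subset_span a), h w a]

theorem x_all {q : ℕ} (hq : Qp q) (v : V) : f (ρ.x q v) = ρ'.x q (f v) :=
  P.r_of hq.mem (fun w hw => by
    rw [← x, ← x, QW0_x (P.G.S1_wt hw) hq, QW0_x (P.f_QW0 (P.G.S1_wt hw)) hq]) v

omit P in
theorem T_step {m : GH} (hm : m ∈ NH) {w : V} (h1 : f (ρ.r m w) = ρ'.r m (f w))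
    (h2 : ∀ n ∈ NH, f (ρ.r n (ρ.T w)) = ρ'.r n (f (ρ.T w))) {c : F} (h3 : f (ρ.T w) = c • ρ'.T (f w)) :
    f (ρ.T (ρ.r m w)) = c • ρ'.T (f (ρ.r m w)) := by
  obtain ⟨n, a, b⟩ := exists_fst hm
  rw [← ρ.hN n m b a.1, h2 n a, h3, h1, ← ρ'.hN n m b a.1, map_smul]

theorem f_u : f u = u' := by
  rw [← Good.r_ee (ρ := ρ) (u := u), P.f_ee (hh_spec pD_orb).1, Good.r_ee]

theorem T_m {q : ℕ} (hq : Qp q) : f (ρ.T (ρ.x q (ρ.T u))) = ρ'.T (f (ρ.x q (ρ.T u))) := by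
  have := pcomm_lt q pZ2
  have hz := sgF_one (F := F) ▸ DW_z P.G.Tu_wt
  obtain h | h : pcomm q pZ2 = 0 ∨ pcomm q pZ2 = 1 := by omega
  · have := T_step (Np.mem ⟨hq, h⟩) (P.x_all hq (ρ.T u)) (c := 1) (fun n hn => P.r_m hn.1 (by
      rw [P.G.TT_u, ρ.x_comm (by decide) (by decide) (by decide), hz, map_smul]))
      (by rw [P.G.TT_u, P.f_x (by decide), P.f_Tu, P.G'.TT_u, one_smul])
    rwa [one_smul] at this
  · have hp : Np (pmul q pD) := ⟨hq.mul (by decide), by rw [pcomm_pmul', h]; decide⟩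
    have := T_step hp.mem (P.x_all hp.1 (ρ.T (ρ.T u))) (c := 1) (fun n hn => by
      rw [ρ.h3]; exact P.r_2 hn.1 (subset_span ⟨_, (hh_spec pD_orb).1, Good.r_ee.symm⟩))
      (by rw [ρ.h3, P.f_u, P.G.TT_u, P.f_x (by decide), ← P.G'.TT_u, ρ'.h3, one_smul])
    rwa [one_smul, ← x, P.G.TT_u, ← ρ.x_x hq (by decide), ρ.δδ] at this

theorem T_St {v : V} (hv : v ∈ span F (ρ.St u)) : f (ρ.T v) = ρ'.T (f v) := by
  obtain ⟨k, e⟩ := hh_spec cT_orb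
  have h0 := P.G.St_wt (one_mem _)
  rw [ρ.one, φ_one (by decide)] at h0
  obtain ⟨c, hc⟩ := P.G'.NW_cT (v := ρ'.T (ρ'.T (f (ρ.T (ρ.r (hh cT) (ρ.ee u)))))) (NW_iff.2 fun q hq => by
    obtain ⟨n, a, b⟩ := exists_fst hq.mem
    rw [x, ← ρ'.TT_r b a.1, ← P.r_2 a.1 (span_mono St_S2 P.G.T_eT), ρ.hN _ _ b a.1, ← x,
      QW_iff.1 h0 q hq.1, map_smul, map_smul, map_smul, map_smul])
  have h1 : ∀ v ∈ span F (ρ.St u), f (ρ.T v) = c • ρ'.T (f v) := fun v hv => by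
    refine eqv_span (A' := c • ρ'.T) ?_ hv
    rintro _ ⟨m, hm, rfl⟩
    exact T_step hm (P.r_2 hm.1 (subset_span ⟨_, k, rfl⟩))
      (fun n hn => P.r_2 hn.1 (span_mono St_S2 P.G.T_eT))
      (by rw [P.f_ee k, ← map_smul, ← hc, ρ'.h3])
  have h2 : ρ.r (hh cT) (ρ.ee u) ∈ span F (ρ.St u) := subset_span ⟨1, one_mem _, (ρ.one _).symm⟩
  have h3 : f (ρ.r (hh cT) (ρ.ee u)) ≠ 0 := P.f_ee k ▸ ρ'.r_ne k P.G'.ee_ne
  generalize ρ.r (hh cT) (ρ.ee u) = w at h2 h3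
  have h4 := h1 _ (P.G.T_St (P.G.T_St h2))
  rw [ρ.h3, h1 _ (P.G.T_St h2), h1 _ h2, map_smul, map_smul, map_smul, ρ'.h3, smul_smul, smul_smul] at h4
  have h5 := h1 _ (P.G.δ_St (P.G.T_St (P.G.δ_St h2)))
  rw [show ρ.T (ρ.x pD (ρ.T (ρ.x pD w))) = w from ρ.h2 w, P.x_all (by decide), h1 _ (P.G.δ_St h2),
    P.x_all (by decide), map_smul, map_smul,
    show ρ'.T (ρ'.x pD (ρ'.T (ρ'.x pD (f w)))) = f w from ρ'.h2 _, smul_smul] at h5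
  have h6 := smul_left_injective F h3 ((one_smul _ _).trans h5)
  have h7 := smul_left_injective F h3 ((one_smul _ _).trans h4)
  rw [← h6, one_mul] at h7
  rw [h1 v hv, ← h7, one_smul]

theorem T_all (v : V) : f (ρ.T v) = ρ'.T (f v) := by
  refine eqv_span ?_ (P.G.mem v)
  rintro _ (⟨q, hq, rfl⟩ | ⟨h, hh', rfl⟩ | rfl | ⟨n, hn, rfl⟩)
  · exact P.T_m hq
  · have k : ∀ g ∈ 𝓗, φ h pT2 ∈ Orb NH (φ g pT2) → (∀ n ∈ NH, f (ρ.T (ρ.r n (ρ.r g (ρ.ee u)))) =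
        ρ'.T (f (ρ.r n (ρ.r g (ρ.ee u))))) → f (ρ.T (ρ.r h (ρ.ee u))) = ρ'.T (f (ρ.r h (ρ.ee u))) := by
      rintro g hg ⟨n, hn, e⟩ a
      obtain ⟨c, hc⟩ := P.G.S2_line hh' hg hn e
      rw [hc, map_smul, map_smul, map_smul, map_smul, a n hn]
    rcases orb_cases ⟨h, hh', rfl⟩ with a | a | a
    · refine k 1 (one_mem _) (by rwa [φ_one pT2_lt]) fun m hm => ?_
      have h1 : ρ.m2 u ∈ span F (ρ.S2 u) := add_mem (subset_span ⟨1, one_mem _, (ρ.one _).symm⟩)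
        (subset_span ⟨_, yy_spec.1.1, rfl⟩)
      have h2 := P.f_m2 (one_mem _)
      have h3 := P.f_ee (one_mem _)
      rw [ρ.one, ρ'.one] at h2 h3
      have := T_step hm (P.r_2 hm.1 (subset_span ⟨1, one_mem _, (ρ.one _).symm⟩)) (c := 1)
        (fun n hn => smul_right_injective V' ρ.two (by
          have hδ := Qp.mem (p := pD) (by decide)
          simp only [← map_smul, P.G.T_ee, map_add]
          rw [P.r_a hn (subset_span ⟨1, one_mem _, rfl⟩), x, ← ρ.mul _ hn.1 _ hδ, P.f_m2 hδ,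
            P.f_m2 (mul_mem hn.1 hδ), ρ'.mul _ hn.1 _ hδ]))
        (smul_right_injective V' ρ.two (by
          simp only [one_smul, h3, P.G'.T_ee]
          rw [← map_smul, P.G.T_ee, map_add, P.x_all (by decide), h2, P.f_aa (one_mem _)]))
      rwa [one_smul, ← ρ.one (ρ.ee u)] at this
    · exact k _ (hh_spec cT_orb).1 (by rwa [(hh_spec cT_orb).2]) fun m hm => P.T_St (subset_span ⟨m, hm, rfl⟩)
    · refine k _ (hh_spec pD_orb).1 (by rwa [(hh_spec pD_orb).2]) fun m hm => ?_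
      have := T_step hm (P.r_2 hm.1 (subset_span ⟨_, (hh_spec pD_orb).1, Good.r_ee.symm⟩)) (c := 1)
        (fun n hn => P.r_m hn.1 (sgF_one (F := F) ▸ DW_z P.G.Tu_wt)) (by rw [P.f_Tu, P.f_u, one_smul])
      rwa [one_smul, ← Good.r_ee (ρ := ρ) (u := u)] at this
  · rw [P.G.T_a0, P.f_a0, P.G'.T_a0]
  · rw [P.f_aa hn, aa, aa, ρ.h3, ρ'.h3, P.f_m2 hn.1]

theorem Z_all {p : ℕ} (hp : Qp p) (v : V) : f (ρ.Z p v) = ρ'.Z p (f v) := by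
  rw [Z_apply, Z_apply, P.T_all, P.T_all, P.x_all hp, P.T_all]

theorem n1_all (v : V) : f (ρ.r (el rN1) v) = ρ'.r (el rN1) (f v) := by
  let D : V →ₗ[F] V' := f ∘ₗ ρ.r (el rN1) - ρ'.r (el rN1) ∘ₗ f
  have hD : ∀ v, f (ρ.r (el rN1) v) = ρ'.r (el rN1) (f v) + D v := fun v => (add_sub_cancel _ _).symm
  have h0 : ∀ v, D v ∈ ρ'.QW 0 := fun v => by
    refine (span_le (p := (ρ'.QW 0).comap D)).2 ?_ (P.G.mem v)
    rintro w (a | a | a)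
    · exact Submodule.mem_comap.2 ((show D w = 0 from sub_eq_zero.2 (P.r_m N1_mem_H (P.G.Sm_z a))) ▸ zero_mem _)
    · exact Submodule.mem_comap.2 ((show D w = 0 from sub_eq_zero.2 (P.r_2 N1_mem_H (subset_span a))) ▸ zero_mem _)
    · exact sub_mem (P.f_QW0 (QW0_r N1_mem_H (P.G.S1_wt a))) (QW0_r N1_mem_H (P.f_QW0 (P.G.S1_wt a)))
  have h1 : ∀ n ∈ NH, ∀ p, Qp p → ρ'.Z p (D (ρ.aa u n)) = D (ρ.aa u n) := fun n hn p hp => by
    refine Z_fix (h0 _) (T_fix (h0 _) ?_) hp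
    have e := congrArg f (nsn (ρ := ρ) (ρ.aa u n))
    have e' : ρ.T (ρ.x pD (ρ.aa u n)) ∈ span F (ρ.S2 u) := by
      rw [QW0_x (P.G.aa_wt hn) (by decide), aa, ρ.h3, m2, map_add, ← ρ.mul _ hn.1 _ yy_spec.1.1]
      exact add_mem (subset_span ⟨_, hn.1, rfl⟩) (subset_span ⟨_, mul_mem hn.1 yy_spec.1.1, rfl⟩)
    rw [hD, P.T_all, P.T_all, P.x_all (by decide), P.x_all (by decide), P.r_2 N1_mem_H e', P.T_all,
      P.x_all (by decide), ← nsn, hD, map_add, map_add, map_add, add_assoc, add_eq_left,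
      QW0_x (h0 _) (by decide)] at e
    rw [← ρ'.n1n1 (ρ'.T _), eq_neg_of_add_eq_zero_left e]
    exact QW0_r N1_mem_H (neg_mem (h0 _))
  have h2 : D (ρ.aa u 1) = D (ρ.aa u pp) := by
    have := hD (ρ.aa u pp)
    rwa [n1_pp, P.Z_all (by decide), hD, map_add, h1 1 (one_mem _) _ (by decide), P.f_aa pp_spec.1, n1_pp,
      P.f_aa (one_mem _), add_right_inj] at this
  have h3 : D (ρ.aa u 1) = 0 := by
    have := hD (ρ.aa u 1 + ρ.aa u pp)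
    rw [← a0, P.f_a0, map_add, P.f_aa (one_mem _), P.f_aa pp_spec.1, ← a0, map_add, ← h2, ← two_smul F,
      left_eq_add] at this
    exact (smul_eq_zero.1 this).resolve_left ρ.two
  refine P.r_of N1_mem_H ?_ v
  rintro _ (rfl | ⟨n, hn, rfl⟩)
  · rw [P.f_a0, a0, a0, ρ.n1n1, ρ'.n1n1, map_add, P.f_aa (one_mem _), P.f_aa pp_spec.1]
  rw [hD, add_eq_left]
  obtain ⟨j, hj, e⟩ := diag_cases (c := φ n pT2) ⟨n, hn.1, rfl⟩ (Dp.φ hn (by decide))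
  have tr : ∀ {a b c}, SimN a b → SimN b c → SimN a c := fun {a b c} h h' => by
    by_contra hn
    obtain ⟨q, hq, e⟩ := sepN_of_not hn
    exact e (by rw [h.pc hq, h'.pc hq])
  have k : ∀ p, p = 2 ∨ p = 0x688130 → pcomm p (cj j) = 1 → D (ρ.aa u n) = 0 := fun p hp h => by
    have hp' := np3 (Or.inr hp)
    have := hD (ρ.Z p (ρ.aa u n))
    rw [n1_Z (P.G.aa_wt hn) hp, P.Z_all hp'.1, P.Z_all hp'.1, n1_Z (P.f_QW0 (P.G.aa_wt hn)) hp, hD,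
      map_add, add_right_inj, h1 n hn p hp'.1, P.G.Z_aa hn hp', e.pc hp', h, sgF_one, map_smul] at this
    exact eq_zero_of_ne (one_ne_neg ρ.two) ((one_smul _ _).trans this)
  rcases (by decide +kernel : ∀ j < 22, SimN (cj j) pT2 ∨ SimN (cj j) 0x14f9000 ∨ pcomm 2 (cj j) = 1 ∨
    pcomm 0x688130 (cj j) = 1) j hj with a | a | a | a
  · obtain ⟨c, hc⟩ := P.G.aa_line hn (one_mem _) (by rw [φ_one pT2_lt]; exact tr e a)
    rw [hc, map_smul, h3, smul_zero]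
  · obtain ⟨c, hc⟩ := P.G.aa_line hn pp_spec.1 (by rw [φ_pp]; exact tr e a)
    rw [hc, map_smul, ← h2, h3, smul_zero]
  exacts [k _ (Or.inl rfl) a, k _ (Or.inr rfl) a]

theorem r_all {g : GH} (hg : g ∈ 𝓗) (v : V) : f (ρ.r g v) = ρ'.r g (f v) := by
  have k : ∀ g ∈ 𝓗, (∀ v, f (ρ.r g v) = ρ'.r g (f v)) → g ∈ ρ.Eqv ρ' f ⊤ := fun g hg h =>
    ⟨hg, fun _ _ => trivial, fun _ _ => trivial, fun v _ => h v⟩
  refine (H_le_of (K := ρ.Eqv ρ' f ⊤) (fun m hm => ?_) (k _ N1_mem_H P.n1_all)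
    (k _ (cc_mem_FxS _) fun v => by rw [ρ.cc, ρ'.cc]) (fun p hp => k _ hp.mem (P.x_all hp)) hg).2.2.2 v trivial
  have hm' := comm_le_self _ hm
  refine k _ hm'.1 (P.r_of hm'.1 ?_)
  rintro _ (rfl | a)
  · rw [(P.G.comm_a0 hm).2, P.f_a0, (P.G'.comm_a0 hm).2]
  · exact P.r_a hm' (subset_span a)

end Pair

/-- Uniqueness of the representation of degree 4371. -/
theorem exists_equiv (ρ : BR F V) (ρ' : BR F V') [Module.Finite F V] [Module.Finite F V']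
    (hV : Module.finrank F V ≤ 4371) (hV' : Module.finrank F V' ≤ 4371) (hz : ∃ v, ρ.x pZ v ≠ v)
    (hz' : ∃ v, ρ'.x pZ v ≠ v) : ∃ f : V ≃ₗ[F] V', (∀ v, f (ρ.T v) = ρ'.T (f v)) ∧
      ∀ g ∈ 𝓗, ∀ v, f (ρ.r g v) = ρ'.r g (f v) := by
  obtain ⟨u, G⟩ := exists_full hV hz
  obtain ⟨u', G'⟩ := exists_full hV' hz'
  let b := Module.Basis.mk G.indep G.top.ge
  let b' := Module.Basis.mk G'.indep G'.top.ge
  have P : ρ.Pair ρ' u u' (b.equiv b' (Equiv.refl _)).toLinearMap := ⟨G, G', fun i => by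
    have := b.equiv_apply i b' (Equiv.refl _)
    rwa [Module.Basis.mk_apply, Equiv.refl_apply, Module.Basis.mk_apply] at this⟩
  exact ⟨_, P.T_all, fun _ hg => P.r_all hg⟩

end BR

end Cfsg.Lib.Mon.B4
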