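import Cfsg.Agent.Mon.OutH
import Cfsg.Agent.Mon.Theta
import Cfsg.Agent.Mon.DceLev
import Cfsg.Agent.Mon.FrozenOK

/-! Representations of the Baby Monster amalgam: weights. -/

set_option autoImplicit false

namespace Cfsg.Lib.Mon.B4

open Subgroup Submodule
open scoped commutatorElement

section LA

variable {F V V' : Type*} [Field F] [AddCommGroup V] [Module F V] [AddCommGroup V'] [Module F V']

theorem zero_of_sep {ι κ : Type*} (A : κ → Module.End F V) (μ : ι → κ → F)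
    (hμ : ∀ i j, i ≠ j → ∃ k, μ i k ≠ μ j k) (S : Finset ι) :
    ∀ w : ι → V, (∀ i k, A k (w i) = μ i k • w i) → ∑ i ∈ S, w i = 0 → ∀ i ∈ S, w i = 0 := by
  classical
  induction S using Finset.induction_on with
  | empty => intro _ _ _ i hi; simp at hi
  | insert j S hj ih =>
    intro w hw h0
    rw [Finset.sum_insert hj] at h0
    have h1 : ∀ i ∈ S, w i = 0 := fun i hi => by
      obtain ⟨k, hk⟩ := hμ i j (by rintro rfl; exact hj hi)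
      have h2 := ih (fun i => (μ i k - μ j k) • w i)
        (fun i k' => by rw [map_smul, hw, smul_comm]) (by
          have h3 := congrArg (A k) h0
          rw [map_add, map_sum, map_zero, hw] at h3
          simp only [hw] at h3
          simp only [sub_smul, Finset.sum_sub_distrib, ← Finset.smul_sum]
          rw [eq_neg_of_add_eq_zero_right h3, eq_neg_of_add_eq_zero_right h0, smul_neg, sub_self]) i hi
      exact (smul_eq_zero.1 h2).resolve_left (sub_ne_zero.2 hk)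
    intro i hi
    rcases Finset.mem_insert.1 hi with rfl | hi
    · rwa [Finset.sum_eq_zero h1, add_zero] at h0
    · exact h1 i hi

theorem indep_of_sep {ι κ : Type*} (A : κ → Module.End F V) (μ : ι → κ → F)
    (hμ : ∀ i j, i ≠ j → ∃ k, μ i k ≠ μ j k) (v : ι → V) (hv : ∀ i, v i ≠ 0)
    (h : ∀ i k, A k (v i) = μ i k • v i) : LinearIndependent F v :=
  linearIndependent_iff'.2 fun S g h0 i hi => (smul_eq_zero.1 (zero_of_sep A μ hμ S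
    (fun i => g i • v i) (fun i k => by rw [map_smul, h, smul_comm]) h0 i hi)).resolve_right (hv i)

theorem span_filter (h2 : (2 : F) ≠ 0) {s : Set V} (A : Module.End F V) {c : F} (hc : c ≠ 0)
    (hs : ∀ w ∈ s, A w = c • w ∨ A w = -c • w) {v : V} (hv : v ∈ span F s) (e : A v = c • v) :
    v ∈ span F {w ∈ s | A w = c • w} := by
  have key : ∀ v ∈ span F s, c • v + A v ∈ span F {w ∈ s | A w = c • w} := fun v hv => by
    induction hv using Submodule.span_induction with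
    | mem w hw =>
      rcases hs w hw with e | e
      · rw [e]
        have : w ∈ span F {w ∈ s | A w = c • w} := subset_span ⟨hw, e⟩
        exact add_mem (smul_mem _ _ this) (smul_mem _ _ this)
      · rw [e, neg_smul, add_neg_cancel]; exact zero_mem _
    | zero => simp
    | add a b _ _ ha hb =>
      rw [smul_add, map_add, add_add_add_comm]; exact add_mem ha hb
    | smul a b _ hb => rw [map_smul, smul_comm, ← smul_add]; exact smul_mem _ _ hb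
  have := smul_mem _ (2 * c)⁻¹ (key v hv)
  rwa [e, ← add_smul, smul_smul, ← two_mul, inv_mul_cancel₀ (mul_ne_zero h2 hc), one_smul] at this

theorem span_filter' (h2 : (2 : F) ≠ 0) {s : Set V} (A : ℕ → Module.End F V) (P : ℕ → Prop)
    {c : ℕ → F} (hc : ∀ k, c k ≠ 0) (hs : ∀ w ∈ s, ∀ k, P k → A k w = c k • w ∨ A k w = -c k • w)
    {v : V} (hv : v ∈ span F s) (e : ∀ k, P k → A k v = c k • v) (n : ℕ) :
    v ∈ span F {w ∈ s | ∀ k < n, P k → A k w = c k • w} := by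
  induction n with
  | zero => simpa using hv
  | succ n ih =>
    by_cases hn : P n
    · refine span_mono ?_ (span_filter h2 (A n) (hc n) (fun w hw => hs w hw.1 n hn) ih (e n hn))
      rintro w ⟨⟨h1, h3⟩, h4⟩
      refine ⟨h1, fun k hk hP => ?_⟩
      rcases Nat.lt_succ_iff_lt_or_eq.1 hk with hk | rfl
      exacts [h3 k hk hP, h4]
    · refine span_mono ?_ ih
      rintro w ⟨h1, h3⟩
      refine ⟨h1, fun k hk hP => ?_⟩
      rcases Nat.lt_succ_iff_lt_or_eq.1 hk with hk | rfl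
      exacts [h3 k hk hP, absurd hP hn]

theorem eq_zero_of_ne {v : V} {a b : F} (h : a ≠ b) (e : a • v = b • v) : v = 0 :=
  (smul_eq_zero.1 (by rw [sub_smul, e, sub_self] : (a - b) • v = 0)).resolve_left (sub_ne_zero.2 h)

/-- `(-1) ^ n`. -/
noncomputable def sgF (F : Type*) [Field F] (n : ℕ) : F := if n % 2 = 0 then 1 else -1

theorem sgF_congr {a b : ℕ} (h : a % 2 = b % 2) : sgF F a = sgF F b := by unfold sgF; rw [h]

theorem sgF_zero : sgF F 0 = 1 := if_pos rfl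

theorem sgF_one : sgF F 1 = -1 := if_neg (by norm_num)

theorem sgF_xor (a b : ℕ) : sgF F (a ^^^ b) = sgF F a * sgF F b := by
  unfold sgF
  have := Nat.xor_mod_two_pow (a := a) (b := b) (n := 1)
  rw [pow_one] at this
  rw [this]
  rcases Nat.mod_two_eq_zero_or_one a with e | e <;>
    rcases Nat.mod_two_eq_zero_or_one b with e' | e' <;> simp [e, e']

theorem sgF_ne_zero (a : ℕ) : sgF F a ≠ 0 := by unfold sgF; split_ifs <;> simp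

theorem sgF_cases (a b : ℕ) : sgF F a = sgF F b ∨ sgF F a = -sgF F b := by
  unfold sgF; split_ifs <;> simp

theorem one_ne_neg (h2 : (2 : F) ≠ 0) : (1 : F) ≠ -1 := fun h =>
  h2 (by rw [← one_add_one_eq_two]; exact add_eq_zero_iff_eq_neg.2 h)

theorem sgF_ne (h2 : (2 : F) ≠ 0) {a b : ℕ} (h : a % 2 ≠ b % 2) : sgF F a ≠ sgF F b := by
  unfold sgF
  split_ifs with h1 h3 h3
  · omega
  · exact one_ne_neg h2
  · exact (one_ne_neg h2).symm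
  · omega

end LA

/-- `H`. -/
local notation "𝓗" => FxS [pT]

/-- `N ∩ H`. -/
noncomputable def NH : Subgroup GH := 𝓗 ⊓ FxS [pZ1]

/-- A representation of the amalgam of the Baby Monster. -/
structure BR (F V : Type*) [Field F] [AddCommGroup V] [Module F V] where
  r : GH → Module.End F V
  T : Module.End F V
  two : (2 : F) ≠ 0
  mul : ∀ g ∈ 𝓗, ∀ h ∈ 𝓗, ∀ v, r (g * h) v = r g (r h v)
  one : ∀ v, r 1 v = v
  cc : ∀ v, r cc v = v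
  t : ∀ v, r (pq pT) v = v
  hN : ∀ n m, (n, m) ∈ NP → n ∈ 𝓗 → ∀ v, r n (T v) = T (r m v)
  h2 : ∀ v, T (r (pq pD) (T (r (pq pD) v))) = v
  h3 : ∀ v, T (T (T v)) = v
  tri : ∀ v, r (el rN1) (T (r (pq pD) (r (el rN1) (T (r (pq pD) (r (el rN1) (T (r (pq pD) v)))))))) = v

/-- Codes commuting with `t`. -/
def Qp (q : ℕ) : Prop := pcomm q pT = 0

/-- Codes commuting with `t` and `Ω`. -/
def Np (q : ℕ) : Prop := pcomm q pT = 0 ∧ pcomm q pZ2 = 0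

/-- Diagonal codes. -/
def Dp (q : ℕ) : Prop := q % 4096 = 0

instance (q : ℕ) : Decidable (Qp q) := inferInstanceAs (Decidable (_ = _))

instance (q : ℕ) : Decidable (Np q) := inferInstanceAs (Decidable (_ ∧ _))

instance (q : ℕ) : Decidable (Dp q) := inferInstanceAs (Decidable (_ = _))

theorem pcomm_diag {p c c' : ℕ} (hp : Dp p) (h : c % 4096 = c' % 4096) : pcomm p c = pcomm p c' := by
  rw [pcomm_def, pcomm_def, par_and_right _ hp, par_and_right _ hp, par_and_congr rfl h]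

theorem pcomm_zero' (p : ℕ) : pcomm p 0 = 0 := by rw [pcomm_comm, pcomm_zero]

theorem Dp.comm {p q : ℕ} (hp : Dp p) (hq : Dp q) : pcomm p q = 0 := by
  rw [pcomm_diag (c' := 0) hp hq, pcomm_zero']

theorem Dp.np {p : ℕ} (hp : Dp p) : Np p := ⟨hp.comm (by decide), hp.comm (by decide)⟩

theorem Dp.qp {p : ℕ} (hp : Dp p) : Qp p := hp.np.1

theorem Qp.mem {p : ℕ} (hp : Qp p) : pq p ∈ 𝓗 := pq_mem_FxS.2 hp

theorem pcomm_neg (p q : ℕ) : pcomm p (q ^^^ 2 ^ 24) = pcomm p q := pcomm_congr rfl (xor_neg_mod q)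

theorem pcomm_Z1 (p : ℕ) : pcomm p pZ1 = pcomm p pZ2 := pcomm_congr rfl rfl

theorem Np.mem {p : ℕ} (hp : Np p) : pq p ∈ NH := ⟨hp.1 |> Qp.mem, pq_mem_FxS.2 ((pcomm_Z1 p).trans hp.2)⟩

theorem pcomm_pmul' (p q r : ℕ) : pcomm (pmul p q) r = pcomm p r ^^^ pcomm q r := by
  rw [← pcomm_xor]; exact pcomm_congr (by rw [pmul_mod, Nat.xor_mod_two_pow]) rfl

theorem pcomm_pmul'' (p q r : ℕ) : pcomm r (pmul p q) = pcomm r p ^^^ pcomm r q := by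
  rw [pcomm_comm, pcomm_pmul', pcomm_comm p, pcomm_comm q]

theorem pcomm_mod25 (p q : ℕ) : pcomm (p % 2 ^ 25) q = pcomm p q :=
  pcomm_congr (Nat.mod_mod_of_dvd _ (by norm_num)) rfl

theorem pcomm_φ_inv (g : GH) (q c : ℕ) : pcomm (φ g⁻¹ q) c = pcomm q (φ g c) := by
  rw [← pcomm_φ g, ← φ_mul, mul_inv_cancel, φ_one', pcomm_mod25]

theorem pcomm_φ_fix {g : GH} {c : ℕ} (hg : g ∈ FxS [c]) (q : ℕ) : pcomm (φ g q) c = pcomm q c := by
  rw [← inv_inv g, pcomm_φ_inv, (FxS [c]).inv_mem hg c (by simp), pcomm_comm, pcomm_mod25, pcomm_comm]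

theorem Qp.φ {g : GH} (hg : g ∈ 𝓗) {q : ℕ} (h : Qp q) : Qp (φ g q) := (pcomm_φ_fix hg q).trans h

theorem Np.φ {g : GH} (hg : g ∈ NH) {q : ℕ} (h : Np q) : Np (φ g q) :=
  ⟨Qp.φ hg.1 h.1, (pcomm_φ_fix (mem_FxS_Z2.2 hg.2) q).trans h.2⟩

theorem Dp.φ {g : GH} (hg : g ∈ NH) {q : ℕ} (h : Dp q) : Dp (φ g q) := by
  obtain ⟨m, hm⟩ := exists_NP hg.2
  rw [← φ_mod]
  exact (NP_φ hm (Nat.mod_lt _ (by norm_num)) (by unfold Dp at h; omega)).1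

theorem Qp.mul {p q : ℕ} (hp : Qp p) (hq : Qp q) : Qp (pmul p q) := by
  rw [Qp, pcomm_pmul', hp, hq]; rfl

theorem NP_H {n m : GH} (h : (n, m) ∈ NP) : n ∈ 𝓗 ↔ m ∈ 𝓗 := NP_fix h (by decide)

theorem exists_snd {n : GH} (h : n ∈ NH) : ∃ m ∈ NH, (n, m) ∈ NP := by
  obtain ⟨m, hm⟩ := exists_NP h.2
  exact ⟨m, ⟨(NP_H hm).1 h.1, NP_snd hm⟩, hm⟩

theorem exists_fst {m : GH} (h : m ∈ NH) : ∃ n ∈ NH, (n, m) ∈ NP := by
  obtain ⟨n, hn⟩ := exists_NP' h.2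
  exact ⟨n, ⟨(NP_H hn).2 h.1, NP_fst hn⟩, hn⟩

theorem Est_NH {e : GH} (h : e ∈ Est) (h' : e ∈ 𝓗) : e ∈ NH := ⟨h', NP_fst (NP_Est h)⟩

/-- The same character of `Q ∩ H`. -/
def Sim (c c' : ℕ) : Prop := c % 2 ^ 24 = c' % 2 ^ 24 ∨ c % 2 ^ 24 = (c' ^^^ pT) % 2 ^ 24

instance (c c' : ℕ) : Decidable (Sim c c') := inferInstanceAs (Decidable (_ ∨ _))

theorem Sim.pc {c c' q : ℕ} (h : Sim c c') (hq : Qp q) : pcomm q c = pcomm q c' := by
  rcases h with h | h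
  · exact pcomm_congr rfl h
  · rw [pcomm_congr rfl h, pcomm_xor_right, hq, Nat.xor_zero]

theorem sep_of_not {c c' : ℕ} (h : ¬ Sim c c') : ∃ q, Qp q ∧ pcomm q c % 2 ≠ pcomm q c' % 2 := by
  obtain ⟨q, h1, h2⟩ := exists_pcomm_two (t := pT) (p := c ^^^ c')
    (fun e => h (Or.inl (by rwa [Nat.xor_mod_two_pow, Nat.xor_eq_zero_iff] at e)))
    (fun e => h (Or.inr (by
      rw [Nat.xor_mod_two_pow] at e
      rw [Nat.xor_mod_two_pow, ← e, Nat.xor_comm, Nat.xor_xor_cancel_right])))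
  refine ⟨q, h1, fun e => ?_⟩
  rw [Nat.mod_eq_of_lt (pcomm_lt _ _), Nat.mod_eq_of_lt (pcomm_lt _ _)] at e
  rw [pcomm_xor_right, e, Nat.xor_self] at h2
  exact absurd h2 (by decide)

/-- The same character of `Q ∩ N ∩ H`. -/
def SimN (c c' : ℕ) : Prop := Sim c c' ∨ Sim c (c' ^^^ pZ2)

instance (c c' : ℕ) : Decidable (SimN c c') := inferInstanceAs (Decidable (_ ∨ _))

theorem SimN.pc {c c' q : ℕ} (h : SimN c c') (hq : Np q) : pcomm q c = pcomm q c' := by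
  rcases h with h | h
  · exact h.pc hq.1
  · rw [h.pc hq.1, pcomm_xor_right, hq.2, Nat.xor_zero]

theorem sepN_of_not {c c' : ℕ} (h : ¬ SimN c c') : ∃ q, Np q ∧ pcomm q c % 2 ≠ pcomm q c' % 2 := by
  by_contra hn
  push Not at hn
  obtain ⟨w, hw, e⟩ := span_cases (p := c ^^^ c') fun k hk => by
    have := hn (bT k) ((by decide +kernel : ∀ k < 24, Np (bT k)) k hk)
    rw [Nat.mod_eq_of_lt (pcomm_lt _ _), Nat.mod_eq_of_lt (pcomm_lt _ _)] at this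
    rw [pcomm_xor_right, this, Nat.xor_self]
  have e' : c % 2 ^ 24 = c' % 2 ^ 24 ^^^ w := by
    rw [← e, Nat.xor_mod_two_pow, Nat.xor_comm (c % _), Nat.xor_xor_cancel_left]
  refine h ?_
  unfold SimN Sim
  simp only [Nat.xor_mod_two_pow (n := 24), e']
  rcases hw with rfl | rfl | rfl | rfl
  · exact Or.inl (Or.inl (Nat.xor_zero _))
  · exact Or.inl (Or.inr rfl)
  · exact Or.inr (Or.inl rfl)
  · exact Or.inr (Or.inr (by rw [Nat.xor_assoc]; rfl))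

namespace BR

variable {F V V' : Type*} [Field F] [AddCommGroup V] [Module F V] [AddCommGroup V'] [Module F V']
  (ρ : BR F V)

/-- The operator of a Pauli code. -/
noncomputable def x (p : ℕ) : Module.End F V := ρ.r (pq p)

theorem inv_r {g : GH} (hg : g ∈ 𝓗) (v : V) : ρ.r g⁻¹ (ρ.r g v) = v := by
  rw [← ρ.mul _ (inv_mem hg) _ hg, inv_mul_cancel, ρ.one]

theorem r_inv {g : GH} (hg : g ∈ 𝓗) (v : V) : ρ.r g (ρ.r g⁻¹ v) = v := by
  rw [← ρ.mul _ hg _ (inv_mem hg), mul_inv_cancel, ρ.one]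

theorem r_ne {g : GH} (hg : g ∈ 𝓗) {v : V} (hv : v ≠ 0) : ρ.r g v ≠ 0 := fun h =>
  hv (by rw [← ρ.inv_r hg v, h, map_zero])

theorem T_ne {v : V} (hv : v ≠ 0) : ρ.T v ≠ 0 := fun h =>
  hv (by rw [← ρ.h3 v, h, map_zero, map_zero])

theorem x_x {p q : ℕ} (hp : Qp p) (hq : Qp q) (v : V) : ρ.x p (ρ.x q v) = ρ.x (pmul p q) v := by
  rw [x, x, ← ρ.mul _ hp.mem _ hq.mem, pq_mul, x]

theorem x_zero (v : V) : ρ.x 0 v = v := by rw [x, pq_zero, ρ.one]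

theorem x_mod (p : ℕ) : ρ.x (p % 2 ^ 25) = ρ.x p := by rw [x, pq_mod, x]

theorem r_x {g : GH} (hg : g ∈ 𝓗) {p : ℕ} (hp : Qp p) (v : V) :
    ρ.r g (ρ.x p v) = ρ.x (φ g p) (ρ.r g v) := by
  rw [x, x, ← ρ.mul _ hg _ hp.mem, mul_pq, ρ.mul _ (hp.φ hg).mem _ hg]

theorem x_r {g : GH} (hg : g ∈ 𝓗) {p : ℕ} (hp : Qp p) (v : V) :
    ρ.x p (ρ.r g v) = ρ.r g (ρ.x (φ g⁻¹ p) v) := by
  rw [ρ.r_x hg (hp.φ (inv_mem hg)), ← φ_mul, mul_inv_cancel, φ_one', x_mod]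

theorem z_r {g : GH} (hg : g ∈ 𝓗) (v : V) : ρ.x pZ (ρ.r g v) = ρ.r g (ρ.x pZ v) := by
  rw [ρ.r_x hg (by decide), φ_pZ]

theorem δδ (v : V) : ρ.x pD (ρ.x pD v) = v := by
  rw [ρ.x_x (by decide) (by decide)]; exact ρ.x_zero v

theorem zz (v : V) : ρ.x pZ (ρ.x pZ v) = v := by
  rw [ρ.x_x (by decide) (by decide)]; exact ρ.x_zero v

theorem x_comm {p q : ℕ} (hp : Qp p) (hq : Qp q) (h : pcomm p q = 0) (v : V) :
    ρ.x p (ρ.x q v) = ρ.x q (ρ.x p v) := by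
  rw [x, x, ← ρ.mul _ hp.mem _ hq.mem, pq_comm_iff.2 h, ρ.mul _ hq.mem _ hp.mem]

theorem x_anti {p q : ℕ} (hp : Qp p) (hq : Qp q) (h : pcomm p q = 1) (v : V) :
    ρ.x p (ρ.x q v) = ρ.x q (ρ.x p (ρ.x pZ v)) := by
  rw [x, x, ← ρ.mul _ hp.mem _ hq.mem, pq_anti h, ← pZ_comm,
    ρ.mul _ (mul_mem hq.mem hp.mem) _ (pZ_mem_FxS _), ρ.mul _ hq.mem _ hp.mem, x]

theorem x_swap {p q e : ℕ} (hp : Qp p) (hq : Qp q) {v : V} (hv : ρ.x pZ v = sgF F e • v) :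
    ρ.x p (ρ.x q v) = sgF F (e * pcomm p q) • ρ.x q (ρ.x p v) := by
  have := pcomm_lt p q
  obtain h | h : pcomm p q = 0 ∨ pcomm p q = 1 := by omega
  · rw [ρ.x_comm hp hq h, h, mul_zero, sgF_zero, one_smul]
  · rw [ρ.x_anti hp hq h, h, mul_one, hv, map_smul, map_smul]

theorem TδT (v : V) : ρ.T (ρ.x pD (ρ.T v)) = ρ.x pD v := by
  have := ρ.h2 (ρ.x pD v)
  rwa [← x, ρ.δδ] at this

theorem δT (v : V) : ρ.x pD (ρ.T v) = ρ.T (ρ.T (ρ.x pD v)) := by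
  rw [← ρ.h3 (ρ.x pD (ρ.T v)), ρ.TδT]

theorem δTT (v : V) : ρ.x pD (ρ.T (ρ.T v)) = ρ.T (ρ.x pD v) := by rw [ρ.δT, ρ.δT, ρ.h3]

theorem TT_r {n m : GH} (h : (n, m) ∈ NP) (hn : n ∈ 𝓗) (v : V) :
    ρ.T (ρ.T (ρ.r n v)) = ρ.r m (ρ.T (ρ.T v)) := by
  rw [← ρ.h3 (ρ.r m _), ← ρ.hN n m h hn, ρ.h3]

theorem n1n1 (v : V) : ρ.r (el rN1) (ρ.r (el rN1) v) = v := by
  rw [← ρ.mul _ N1_mem_H _ N1_mem_H]
  rcases N1_sq with e | e <;> rw [e]
  · exact ρ.one v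
  · rw [mul_one, ρ.cc]

/-- Weight spaces. -/
def Wt (P : ℕ → Prop) (χ : ℕ → ℕ) : Submodule F V where
  carrier := {v | ∀ q, P q → ρ.x q v = sgF F (χ q) • v}
  zero_mem' q _ := by rw [map_zero, smul_zero]
  add_mem' ha hb q hq := by rw [map_add, ha q hq, hb q hq, smul_add]
  smul_mem' c v hv q hq := by rw [map_smul, hv q hq, smul_comm]

/-- Weight spaces of `Q ∩ H`. -/
def QW (c : ℕ) : Submodule F V := ρ.Wt Qp fun q => pcomm q c

/-- Weight spaces of `Q ∩ N ∩ H`. -/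
def NW (c : ℕ) : Submodule F V := ρ.Wt Np fun q => pcomm q c

/-- Weight spaces of the diagonal group. -/
def DW (e d : ℕ) : Submodule F V := ρ.Wt Dp fun q => pcomm q d ^^^ e * (q >>> 24)

variable {ρ}

theorem QW_iff {c : ℕ} {v : V} : v ∈ ρ.QW c ↔ ∀ q, Qp q → ρ.x q v = sgF F (pcomm q c) • v := Iff.rfl

theorem NW_iff {c : ℕ} {v : V} : v ∈ ρ.NW c ↔ ∀ q, Np q → ρ.x q v = sgF F (pcomm q c) • v := Iff.rfl

theorem DW_iff {e d : ℕ} {v : V} : v ∈ ρ.DW e d ↔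
    ∀ q, Dp q → ρ.x q v = sgF F (pcomm q d ^^^ e * (q >>> 24)) • v := Iff.rfl

theorem Wt_filter {P : ℕ → Prop} {χ : ℕ → ℕ} (hP : ∀ q, P q → P (q % 2 ^ 25))
    (hχ : ∀ q, χ (q % 2 ^ 25) % 2 = χ q % 2) {s : Set V}
    (hs : ∀ w ∈ s, ∃ χ', w ∈ ρ.Wt P χ') {v : V} (hv : v ∈ span F s) (e : v ∈ ρ.Wt P χ) :
    v ∈ span F {w ∈ s | w ∈ ρ.Wt P χ} := by
  refine span_mono ?_ (span_filter' ρ.two ρ.x P (fun k => sgF_ne_zero (χ k)) (fun w hw k hk => ?_)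
    hv e (2 ^ 25))
  · rintro w ⟨h1, h2⟩
    refine ⟨h1, fun q hq => ?_⟩
    rw [← x_mod, h2 _ (Nat.mod_lt _ (by norm_num)) (hP q hq), sgF_congr (hχ q)]
  · obtain ⟨χ', h⟩ := hs w hw
    rw [h k hk]
    exact (sgF_cases _ _).imp (fun e => by rw [e]) fun e => by rw [e]

theorem QW_filter {c : ℕ} {s : Set V} (hs : ∀ w ∈ s, ∃ c', w ∈ ρ.QW c') {v : V}
    (hv : v ∈ span F s) (e : v ∈ ρ.QW c) : v ∈ span F {w ∈ s | w ∈ ρ.QW c} :=
  Wt_filter (P := Qp) (χ := fun q => pcomm q c) (fun q hq => (pcomm_mod25 q pT).trans hq)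
    (fun q => congrArg (· % 2) (pcomm_mod25 q c))
    (fun w hw => (hs w hw).elim fun _ h => ⟨_, h⟩) hv e

theorem NW_filter {c : ℕ} {s : Set V} (hs : ∀ w ∈ s, ∃ c', w ∈ ρ.NW c') {v : V}
    (hv : v ∈ span F s) (e : v ∈ ρ.NW c) : v ∈ span F {w ∈ s | w ∈ ρ.NW c} :=
  Wt_filter (P := Np) (χ := fun q => pcomm q c)
    (fun q hq => ⟨(pcomm_mod25 q pT).trans hq.1, (pcomm_mod25 q pZ2).trans hq.2⟩)
    (fun q => congrArg (· % 2) (pcomm_mod25 q c))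
    (fun w hw => (hs w hw).elim fun _ h => ⟨_, h⟩) hv e

theorem xor_mod2 (a b : ℕ) : (a ^^^ b) % 2 = a % 2 ^^^ b % 2 := Nat.xor_mod_two_pow (n := 1)

theorem DW_filter {e d : ℕ} {s : Set V} (hs : ∀ w ∈ s, ∃ e' d', w ∈ ρ.DW e' d') {v : V}
    (hv : v ∈ span F s) (h : v ∈ ρ.DW e d) : v ∈ span F {w ∈ s | w ∈ ρ.DW e d} :=
  Wt_filter (P := Dp) (χ := fun q => pcomm q d ^^^ e * (q >>> 24))
    (fun q hq => by unfold Dp at *; omega)
    (fun q => by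
      beta_reduce
      rw [pcomm_mod25, xor_mod2, xor_mod2, Nat.mul_mod, Nat.mul_mod e (q >>> 24),
        show (q % 2 ^ 25) >>> 24 % 2 = q >>> 24 % 2 by
          simp only [Nat.shiftRight_eq_div_pow]; omega])
    (fun w hw => (hs w hw).elim fun _ h => h.elim fun _ h => ⟨_, h⟩) hv h

theorem Wt_zero {P : ℕ → Prop} {χ χ' : ℕ → ℕ} {v : V} (h : v ∈ ρ.Wt P χ) (h' : v ∈ ρ.Wt P χ')
    {q : ℕ} (hq : P q) (e : χ q % 2 ≠ χ' q % 2) : v = 0 :=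
  eq_zero_of_ne (sgF_ne ρ.two e) ((h q hq).symm.trans (h' q hq))

theorem QW_zero {c c' : ℕ} {v : V} (h : v ∈ ρ.QW c) (h' : v ∈ ρ.QW c') (e : ¬ Sim c c') : v = 0 :=
  (sep_of_not e).elim fun _ a => Wt_zero h h' a.1 a.2

theorem NW_zero {c c' : ℕ} {v : V} (h : v ∈ ρ.NW c) (h' : v ∈ ρ.NW c') (e : ¬ SimN c c') : v = 0 :=
  (sepN_of_not e).elim fun _ a => Wt_zero h h' a.1 a.2

theorem QW_sim {c c' : ℕ} {v : V} (h : v ∈ ρ.QW c) (e : Sim c' c) : v ∈ ρ.QW c' :=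
  QW_iff.2 fun q hq => by rw [QW_iff.1 h q hq, e.pc hq]

theorem NW_sim {c c' : ℕ} {v : V} (h : v ∈ ρ.NW c) (e : SimN c' c) : v ∈ ρ.NW c' :=
  NW_iff.2 fun q hq => by rw [NW_iff.1 h q hq, e.pc hq]

theorem QW_NW {c : ℕ} {v : V} (h : v ∈ ρ.QW c) : v ∈ ρ.NW c := fun q hq => h q hq.1

theorem NW_DW {c d : ℕ} {v : V} (h : v ∈ ρ.NW c) (e : c % 4096 = d % 4096) : v ∈ ρ.DW 0 d :=
  DW_iff.2 fun q hq => by rw [NW_iff.1 h q hq.np, zero_mul, Nat.xor_zero, pcomm_diag hq e]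

theorem DW_congr {e c d : ℕ} {v : V} (h : v ∈ ρ.DW e c) (a : c % 4096 = d % 4096) : v ∈ ρ.DW e d :=
  DW_iff.2 fun q hq => by rw [DW_iff.1 h q hq, pcomm_diag hq a]

theorem DW_z {e d : ℕ} {v : V} (h : v ∈ ρ.DW e d) : ρ.x pZ v = sgF F e • v := by
  rw [DW_iff.1 h pZ (by decide), pcomm_congr (p' := 0) (q' := d) (by decide) rfl, pcomm_zero, Nat.zero_xor,
    show pZ >>> 24 = 1 from rfl, mul_one]

theorem DW_z0 {d : ℕ} {v : V} (h : v ∈ ρ.DW 0 d) : ρ.x pZ v = v := by rw [DW_z h, sgF_zero, one_smul]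

theorem Wt_r {P : ℕ → Prop} {g : GH} (hg : g ∈ 𝓗) (hP : ∀ q, P q → Qp q ∧ P (φ g⁻¹ q)) {c : ℕ}
    {v : V} (h : v ∈ ρ.Wt P fun q => pcomm q c) : ρ.r g v ∈ ρ.Wt P fun q => pcomm q (φ g c) :=
  fun q hq => by
    rw [ρ.x_r hg (hP q hq).1, h _ (hP q hq).2, map_smul]
    exact congrArg (sgF F · • _) (pcomm_φ_inv _ _ _)

theorem QW_r {g : GH} (hg : g ∈ 𝓗) {c : ℕ} {v : V} (h : v ∈ ρ.QW c) : ρ.r g v ∈ ρ.QW (φ g c) :=
  Wt_r hg (fun _ hq => ⟨hq, hq.φ (inv_mem hg)⟩) h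

theorem NW_r {g : GH} (hg : g ∈ NH) {c : ℕ} {v : V} (h : v ∈ ρ.NW c) : ρ.r g v ∈ ρ.NW (φ g c) :=
  Wt_r hg.1 (fun _ hq => ⟨hq.1, hq.φ (inv_mem hg)⟩) h

theorem QW0_r {g : GH} (hg : g ∈ 𝓗) {v : V} (h : v ∈ ρ.QW 0) : ρ.r g v ∈ ρ.QW 0 :=
  φ_zero g ▸ QW_r hg h

theorem QW0_x {v : V} (h : v ∈ ρ.QW 0) {q : ℕ} (hq : Qp q) : ρ.x q v = v := by
  rw [QW_iff.1 h q hq, pcomm_zero', sgF_zero, one_smul]

theorem DW0_iff {d : ℕ} {v : V} : v ∈ ρ.DW 0 d ↔ v ∈ ρ.Wt Dp fun q => pcomm q d := by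
  unfold DW; simp only [zero_mul, Nat.xor_zero]

theorem DW_r {g : GH} (hg : g ∈ NH) {c : ℕ} {v : V} (h : v ∈ ρ.DW 0 c) :
    ρ.r g v ∈ ρ.DW 0 (φ g c) :=
  DW0_iff.2 (Wt_r hg.1 (fun _ hq => ⟨hq.qp, hq.φ (inv_mem hg)⟩) (DW0_iff.1 h))

theorem DW_x0 {d q : ℕ} (hq : Qp q) {v : V} (h : v ∈ ρ.DW 0 d) : ρ.x q v ∈ ρ.DW 0 d :=
  DW_iff.2 fun p hp => by
    rw [ρ.x_swap hp.qp hq (DW_z h), DW_iff.1 h p hp, zero_mul, sgF_zero, one_smul, map_smul]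

theorem DW_x1 {d q : ℕ} (hq : Qp q) {v : V} (h : v ∈ ρ.DW 1 d) : ρ.x q v ∈ ρ.DW 1 (d ^^^ q) :=
  DW_iff.2 fun p hp => by
    rw [ρ.x_swap hp.qp hq (DW_z h), DW_iff.1 h p hp, map_smul, smul_smul, ← sgF_xor, one_mul, pcomm_xor_right,
      ← Nat.xor_assoc, Nat.xor_comm (pcomm p q)]

theorem chi_alp {p : ℕ} (hp : p < 2 ^ 25) {e : ℕ} (he : e < 2) (d : ℕ) :
    pcomm (alp p) d ^^^ e * (alp p >>> 24) = pcomm p (d ^^^ e) ^^^ d % 2 * (p >>> 24) := by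
  have h1 : pcomm p 1 = p >>> 12 % 2 := by
    rw [pcomm_comm, ← pow_zero 2, pcomm_pow (by norm_num), Nat.shiftRight_eq_div_pow]
  have h2 : pcomm (1 <<< 12) d = d % 2 := by
    rw [show 1 <<< 12 = 2 ^ 12 from rfl, pcomm_pow (by norm_num)]; simp
  have h3 : pcomm (1 <<< 24) d = 0 := (pcomm_congr (p' := 0) (by decide) rfl).trans (pcomm_zero d)
  have h4 : p >>> 24 < 2 := by rw [Nat.shiftRight_eq_div_pow]; omega
  have h5 := Nat.mod_lt d two_pos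
  have h6 := Nat.mod_lt (p >>> 12) two_pos
  have h7 := pcomm_lt p d
  rw [alp, pcomm_xor, pcomm_xor, pcomm_xor_right, Nat.shiftRight_xor_distrib,
    Nat.shiftRight_xor_distrib, Nat.shiftLeft_shiftRight, xor_mod2, Nat.mod_eq_of_lt h4]
  have h8 : pcomm p e = e * (p >>> 12 % 2) := by
    interval_cases e
    · rw [pcomm_zero', zero_mul]
    · rw [h1, one_mul]
  rw [h8]
  generalize p >>> 24 = a at *
  generalize p >>> 12 % 2 = b at *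
  generalize pcomm p d = c at *
  interval_cases a <;> interval_cases b <;>
    simp only [Nat.xor_self, Nat.xor_zero, Nat.zero_xor, Nat.zero_shiftLeft, pcomm_zero, h2, h3] <;>
    generalize d % 2 = f at * <;> interval_cases f <;> interval_cases c <;> interval_cases e <;> rfl

theorem DW_T {e d : ℕ} (he : e < 2) {v : V} (h : v ∈ ρ.DW e d) : ρ.T v ∈ ρ.DW (d % 2) (d ^^^ e) := by
  refine DW_iff.2 fun p hp => ?_
  have h1 : p % 2 ^ 25 < 2 ^ 25 := Nat.mod_lt _ (by norm_num)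
  have h2 : Dp (p % 2 ^ 25) := by unfold Dp at *; omega
  rw [← x_mod, x, ρ.hN _ _ (NP_diag _ h1 h2) h2.qp.mem, ← x, DW_iff.1 h _ ((alp_mod _).trans h2),
    map_smul, chi_alp h1 he, pcomm_mod25]
  refine congrArg (· • _) (sgF_congr ?_)
  rw [xor_mod2, xor_mod2 (pcomm p _), Nat.mul_mod, Nat.mul_mod _ (p >>> 24),
    show (p % 2 ^ 25) >>> 24 % 2 = p >>> 24 % 2 by simp only [Nat.shiftRight_eq_div_pow]; omega]

/-- The stabiliser of a vector. -/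
def Fix (ρ : BR F V) (v : V) : Subgroup GH where
  carrier := {g | g ∈ 𝓗 ∧ ρ.r g v = v}
  one_mem' := ⟨one_mem _, ρ.one v⟩
  mul_mem' ha hb := ⟨mul_mem ha.1 hb.1, by rw [ρ.mul _ ha.1 _ hb.1, hb.2, ha.2]⟩
  inv_mem' ha := ⟨inv_mem ha.1, by
    conv_lhs => rw [← ha.2]
    exact ρ.inv_r ha.1 v⟩

theorem comm_fix {g h : GH} (hg : g ∈ 𝓗) (hh : h ∈ 𝓗) {v : V} (a : ∃ c : F, ρ.r g v = c • v)
    (b : ∃ c : F, ρ.r h v = c • v) : ⁅g, h⁆ ∈ ρ.Fix v := by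
  obtain ⟨a, ha⟩ := a
  obtain ⟨b, hb⟩ := b
  have hc : ⁅g, h⁆ ∈ 𝓗 := mul_mem (mul_mem (mul_mem hg hh) (inv_mem hg)) (inv_mem hh)
  refine ⟨hc, ?_⟩
  have h1 : ρ.r ⁅g, h⁆ (ρ.r (h * g) v) = ρ.r (h * g) v := by
    rw [← ρ.mul _ hc _ (mul_mem hh hg), show ⁅g, h⁆ * (h * g) = g * h by
      rw [commutatorElement_def]; group, ρ.mul _ hg _ hh, ρ.mul _ hh _ hg, ha, hb, map_smul, map_smul,
      ha, hb, smul_comm]
  by_cases hv : v = 0
  · rw [hv, map_zero]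
  have h2 := ρ.r_ne (mul_mem hh hg) hv
  rw [ρ.mul _ hh _ hg, ha, map_smul, hb, smul_smul] at h1 h2
  rw [map_smul] at h1
  exact smul_right_injective V (left_ne_zero_of_smul h2) h1

theorem commutator_fix {K : Subgroup GH} (hK : K ≤ 𝓗) {v : V} (h : ∀ g ∈ K, ∃ c : F, ρ.r g v = c • v) :
    ⁅K, K⁆ ≤ ρ.Fix v :=
  commutator_le.2 fun g hg k hk => comm_fix (hK hg) (hK hk) (h g hg) (h k hk)

/-- The elements with which `f` commutes on `S`. -/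
def Eqv (ρ : BR F V) (ρ' : BR F V') (f : V →ₗ[F] V') (S : Submodule F V) : Subgroup GH where
  carrier := {g | g ∈ 𝓗 ∧ (∀ v ∈ S, ρ.r g v ∈ S) ∧ (∀ v ∈ S, ρ.r g⁻¹ v ∈ S) ∧
    ∀ v ∈ S, f (ρ.r g v) = ρ'.r g (f v)}
  one_mem' := ⟨one_mem _, fun v h => by rwa [ρ.one], fun v h => by rwa [inv_one, ρ.one],
    fun v _ => by rw [ρ.one, ρ'.one]⟩
  mul_mem' := by
    rintro a b ⟨a1, a2, a3, a4⟩ ⟨b1, b2, b3, b4⟩
    refine ⟨mul_mem a1 b1, fun v h => ?_, fun v h => ?_, fun v h => ?_⟩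
    · rw [ρ.mul _ a1 _ b1]; exact a2 _ (b2 v h)
    · rw [mul_inv_rev, ρ.mul _ (inv_mem b1) _ (inv_mem a1)]; exact b3 _ (a3 v h)
    · rw [ρ.mul _ a1 _ b1, ρ'.mul _ a1 _ b1, a4 _ (b2 v h), b4 v h]
  inv_mem' := by
    rintro a ⟨a1, a2, a3, a4⟩
    refine ⟨inv_mem a1, a3, by rwa [inv_inv], fun v h => ?_⟩
    rw [← ρ'.inv_r a1 (f _), ← a4 _ (a3 v h), ρ.r_inv a1]

theorem commutator_eqv {ρ' : BR F V'} {f : V →ₗ[F] V'} {S : Submodule F V} {K : Subgroup GH}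
    (hK : K ≤ 𝓗) (hS : ∀ g ∈ K, ∀ v ∈ S, ρ.r g v ∈ S)
    (h : ∀ g ∈ K, ∃ c : F, ∀ v ∈ S, f (ρ.r g v) = c • ρ'.r g (f v)) : ⁅K, K⁆ ≤ ρ.Eqv ρ' f S := by
  refine commutator_le.2 fun a ha b hb => ?_
  have hc : ⁅a, b⁆ ∈ K := mul_mem (mul_mem (mul_mem ha hb) (inv_mem ha)) (inv_mem hb)
  refine ⟨hK hc, hS _ hc, hS _ (inv_mem hc), fun v hv => ?_⟩
  obtain ⟨c, hc1⟩ := h a ha
  obtain ⟨d, hd1⟩ := h b hb
  have hba := mul_mem hb ha
  have hw := hS _ (inv_mem hba) v hv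
  have e : ⁅a, b⁆ * (b * a) = a * b := by rw [commutatorElement_def]; group
  rw [← ρ.r_inv (hK hba) v]
  generalize ρ.r (b * a)⁻¹ v = w at hw
  rw [← ρ.mul _ (hK hc) _ (hK hba), e, ρ.mul _ (hK ha) _ (hK hb), ρ.mul _ (hK hb) _ (hK ha),
    hc1 _ (hS _ hb w hw), hd1 _ (hS _ ha w hw), hc1 w hw, hd1 w hw, map_smul, map_smul, map_smul,
    map_smul, ← ρ'.mul _ (hK hb) _ (hK ha), ← ρ'.mul _ (hK hc) _ (hK hba), e,
    ρ'.mul _ (hK ha) _ (hK hb), smul_comm]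

end BR

end Cfsg.Lib.Mon.B4
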