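import Cfsg.Agent.Mon.IvDat
import Cfsg.Agent.CoStd.Main
import Cfsg.Agent.Solv.CardModEq
import Cfsg.Agent.Solv.ExtraSub
import Cfsg.Agent.S0095

/-! The Ivanov amalgam: elements of order 23 and the monomial subgroup of `Co0`. -/

set_option autoImplicit false

namespace Cfsg.Lib.Mon.Iv

open Cfsg Subgroup Cfsg.Lib.Spor Cfsg.Lib.Spor.CK Cfsg.Lib.SporChar Cfsg.Lib.SporChar.Co

theorem card_inf_mul {G : Type*} [Group G] (H K : Subgroup G) :
    Nat.card ↥(K ⊓ H) * H.relIndex K = Nat.card K := by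
  rw [← (H.subgroupOf K).card_mul_index, inf_comm,
    ← Nat.card_congr (subgroupOfEquivOfLe inf_le_right).toEquiv, inf_subgroupOf_right]
  rfl

theorem card_mul_rel {G : Type*} [Group G] {H K : Subgroup G} (h : H ≤ K) :
    Nat.card H * H.relIndex K = Nat.card K := by
  rw [← card_inf_mul H K, inf_eq_right.2 h]

theorem neg_center : co0Neg ∈ center Co0 := mem_center_Co0.2 (Or.inr rfl)

theorem center_sq {b : Co0} (h : b ∈ center Co0) : b * b = 1 := by
  rcases mem_center_Co0.1 h with rfl | rfl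
  exacts [one_mul _, co0Neg_mul_self]

theorem φ_center {g : GH} (h : pr g ∈ center Co0) (p : ℕ) : φ g p % 2 ^ 24 = p % 2 ^ 24 := by
  obtain ⟨v, hv⟩ := exists_cls p
  rw [φ_pr g hv, hv]
  rcases mem_center_Co0.1 h with e | e <;> rw [e]
  · rw [one_smul]
  · rw [co0Neg_smul, cls_neg]

theorem center_of_φ {g : GH} (h : ∀ p, φ g p % 2 ^ 24 = p % 2 ^ 24) : pr g ∈ center Co0 :=
  mem_center_Co0.2 (pm_of_cg fun x => cls_eq_iff.1 (by rw [← φ_pr g (cls_mod x), h, cls_mod]))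

theorem Yb_A0 : pr (el rYb) ∈ A0 := ⟨_, Yb_snd.symm⟩

theorem Yb_center : pr (el rYb) ∉ center Co0 := fun h =>
  absurd (φ_center h (2 ^ 13)) (by rw [φY]; decide +kernel)

theorem U0_mono : pr (el rU0) ∈ monoSub := pr_of_mem_N U0_N

theorem u_pow : pr (el rU0) ^ 23 = 1 := by rw [← map_pow, U0_pow, map_one]

theorem u_ne : pr (el rU0) ≠ 1 := fun h =>
  absurd (φ_center (h ▸ one_mem _) (2 ^ 13)) (by rw [φU]; decide +kernel)

theorem fix_of_comm {g h : GH} (e : pr g * pr h = pr h * pr g) {p : ℕ}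
    (hp : φ g p % 2 ^ 24 = p % 2 ^ 24) : φ g (φ h p) % 2 ^ 24 = φ h p % 2 ^ 24 := by
  rw [← φ_mul, φ_of_pr (h := h * g) (by rw [map_mul, map_mul, e]), φ_mul, φ_congr h hp]

theorem fix_cls {h : Co0} (e : h * pr (el rU0) = pr (el rU0) * h) {x : leechLattice}
    (hx : φ (el rU0) (cls x) % 2 ^ 24 = cls x) (h0 : nm x = 32 ∨ nm x = 64) :
    cls (h • x) = 4096 ∨ cls (h • x) = pD := by
  obtain ⟨g, rfl⟩ := pr_surj h
  have k := fixU (fix_of_comm e.symm (hx.trans (cls_mod x).symm))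
  rw [φ_pr g (cls_mod x)] at k
  have k1 := par_cls (pr g • x)
  rw [nm_smul] at k1
  rcases k with k | k | k | k
  · exact absurd k (cls_ne_zero (by rw [nm_smul]; omega) (by rw [nm_smul]; omega))
  · exact Or.inl k
  · exact Or.inr k
  · rw [k, show par ((pD ^^^ 4096) >>> 12 &&& (pD ^^^ 4096)) = 1 by decide] at k1
    omega

theorem not_cls {x y : leechLattice} (hx : nm x = 32) (hy : nm y = 64) : cls x ≠ cls y := fun h => by
  rcases (cls_eq_iff.1 h).eq_of_Min hx hy.le with e | e <;> rw [e] at hy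
  · omega
  · rw [nm_neg] at hy; omega

theorem center_of_A0 {h : Co0} (hA : h ∈ A0) (e : h * pr (el rU0) = pr (el rU0) * h) :
    h ∈ center Co0 := by
  obtain ⟨x, h1, h2⟩ := pD_two
  have k := (fix_cls e (x := x) (by rw [← h2, φ_U0_D]; rfl) (Or.inl h1)).resolve_left
    fun k => not_cls (by rw [nm_smul, h1]) (nm_e8 none) (k.trans (cls_e8' none).symm)
  obtain ⟨g, rfl⟩ := pr_surj h
  refine center_of_φ (Sub.odd (S := fun p => φ g p % 2 ^ 24 = p % 2 ^ 24)
    ⟨fun a b => (φ_congr g b).trans (a.trans b.symm), fun a b => by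
      rw [φ_xor, a, b, Nat.xor_mod_two_pow], fix_of_comm e, fix_of_comm (A0_comm hA Yb_A0)⟩
    (p := pD) rfl ?_)
  change φ g pD % 2 ^ 24 = pD
  rw [φ_pr g (x := x) (by rw [← h2]; rfl), k]

theorem mono_of_comm {h : Co0} (e : h * pr (el rU0) = pr (el rU0) * h) : h ∈ monoSub := by
  obtain ⟨x, h1, h2⟩ := pD_two
  refine (mem_monoSub_iff_cg (j := none)).2 (cls_eq_iff.1 (Eq.trans ?_ (cls_e8' none).symm))
  exact (fix_cls e (by rw [cls_e8', φ_Z0 U0_est]; rfl) (Or.inr (nm_e8 none))).resolve_right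
    fun k => not_cls h1 (by rw [nm_smul, nm_e8]) (k.trans h2).symm

theorem mono_pow (σ : M24) (c : golaySets) (n : ℕ) : ∃ d, monoCo0 σ c ^ n = monoCo0 (σ ^ n) d := by
  induction n with
  | zero => exact ⟨_, by rw [pow_zero, pow_zero, ← permCo0_def, map_one]⟩
  | succ n ih =>
    obtain ⟨d, hd⟩ := ih
    exact ⟨_, by rw [pow_succ, hd, mono_mul, ← pow_succ]⟩

theorem perm23 {σ τ : Equiv.Perm GolayPt} (h : orderOf σ = 23) (e : τ * σ = σ * τ) : τ ^ 23 = 1 := by
  obtain ⟨k, hk⟩ := Equiv.Perm.cycleType_prime_order (σ := σ) (by rw [h]; norm_num)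
  have h1 := σ.sum_cycleType_le
  rw [hk, h, Multiset.sum_replicate, card_golayPt, smul_eq_mul] at h1
  obtain rfl : k = 0 := by omega
  have h2 := Equiv.Perm.nat_card_centralizer σ
  rw [hk, h, card_golayPt] at h2
  have h3 : Nat.card (centralizer {σ}) = 23 := h2.trans (by simp)
  have := pow_card_eq_one' (x := (⟨τ, mem_centralizer_singleton_iff.2 e⟩ : centralizer {σ}))
  rw [h3] at this
  exact congrArg Subtype.val this

theorem C23 {a h : Co0} (ha : a ^ 23 = 1) (h1 : a ≠ 1) {k : ℕ} (hh : h ^ 2 ^ k = 1)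
    (e : a * h = h * a) : h ∈ center Co0 := by
  have : Fact (Nat.Prime 23) := ⟨by norm_num⟩
  have hu := orderOf_eq_prime u_pow u_ne
  obtain ⟨c, hc⟩ := CoStd.exists_conj_mem (p := 23) (H := zpowers (pr (el rU0))) (S := zpowers a) (by
    have := (zpowers (pr (el rU0))).card_mul_index
    rw [Nat.card_zpowers, hu, card_Co0] at this
    omega) (IsPGroup.of_card (n := 1) (by rw [Nat.card_zpowers, orderOf_eq_prime ha h1, pow_one]))
  have k1 : zpowers (c⁻¹ * a * c) = zpowers (pr (el rU0)) :=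
    eq_of_le_of_card_ge (zpowers_le_of_mem (hc a (mem_zpowers a))) (by
      rw [Nat.card_zpowers, Nat.card_zpowers, hu, orderOf_eq_prime (x := c⁻¹ * a * c) (p := 23) (by
        rw [← inv_inv c, inv_inv c⁻¹, conj_pow, ha]; simp) fun e => h1 (by
        calc a = c * (c⁻¹ * a * c) * c⁻¹ := by group
          _ = 1 := by rw [e]; simp)])
  have k2 : c⁻¹ * h * c * pr (el rU0) = pr (el rU0) * (c⁻¹ * h * c) := by
    obtain ⟨n, hn⟩ := k1.ge (mem_zpowers _)
    rw [← hn]
    refine (Commute.zpow_right ?_ n).eq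
    calc c⁻¹ * h * c * (c⁻¹ * a * c) = c⁻¹ * (h * a) * c := by group
      _ = _ := by rw [← e]; group
  have k3 : (c⁻¹ * h * c) ^ 2 ^ k = 1 := by rw [← inv_inv c, inv_inv c⁻¹, conj_pow, hh]; simp
  obtain ⟨σ, d, k4⟩ := mem_monoSub.1 (mono_of_comm k2)
  obtain ⟨τ, k5⟩ := U0_est.1
  have k6 : σ = 1 := by
    have e1 := k2
    obtain ⟨d', e2⟩ := mono_pow σ d (2 ^ k)
    rw [k4, pr_apply, k5, permCo0_def, mono_mul, mono_mul] at e1
    rw [← k4, k3, ← map_one permCo0, permCo0_def] at e2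
    have e3 := perm23 (σ := τ) (τ := σ) (by
      rw [orderOf_coe, ← orderOf_injective permCo0 permCo0_injective, ← k5]; exact hu)
      (congrArg Subtype.val (monoCo0_injective e1).1)
    exact (pow_eq_one_iff_of_coprime (m := 23) (n := 2 ^ k)
      (Nat.Coprime.pow_right _ (by norm_num))).1 ⟨Subtype.ext e3, (monoCo0_injective e2).1.symm⟩
  have k7 := center_of_A0 (by rw [k4, k6]; exact sg_mem d) k2
  have := (inferInstance : (center Co0).Normal).conj_mem _ k7 c
  simpa [mul_assoc] using this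

theorem C23' {a h : Co0} (ha : a ^ 23 = 1) (h1 : a ≠ 1) {k : ℕ} (hh : h ^ 2 ^ k = 1)
    (e : a * h * a⁻¹ * h⁻¹ ∈ center Co0) : h ∈ center Co0 := by
  refine C23 (a := a ^ 2) (by rw [← pow_mul, mul_comm, pow_mul, ha, one_pow]) (fun k => h1
    ((pow_eq_one_iff_of_coprime (m := 23) (n := 2) (by norm_num)).1 ⟨ha, k⟩)) hh ?_
  have e1 := center_sq e
  have e2 := mem_center_iff.1 e a
  calc a ^ 2 * h = a * (a * h * a⁻¹ * h⁻¹) * h * a := by rw [sq]; group
    _ = a * h * a⁻¹ * h⁻¹ * (a * h * a⁻¹ * h⁻¹) * h * a * a := by rw [e2]; group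
    _ = _ := by rw [e1, sq]; group

theorem card_center : Nat.card (center Co0) = 2 := by
  rw [show center Co0 = zpowers co0Neg from Subgroup.ext fun b => by
    rw [mem_center_Co0, mem_zpowers_of_sq co0Neg_mul_self], Nat.card_zpowers,
    orderOf_eq_prime (by rw [sq, co0Neg_mul_self]) co0Neg_ne_one]

theorem center_le {S : Subgroup Co0} (hn : co0Neg ∈ S) : center Co0 ≤ S := fun b hb => by
  rcases mem_center_Co0.1 hb with rfl | rfl
  exacts [one_mem _, hn]

theorem two_inv {a : Co0} (ha : a ^ 23 = 1) (h1 : a ≠ 1) {S : Subgroup Co0} (hS : IsPGroup 2 S)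
    (hn : co0Neg ∈ S) (hi : ∀ x ∈ S, a * x * a⁻¹ ∈ S) (hc : Nat.card S ≤ 4096) :
    S ≤ center Co0 ∨ Nat.card S = 4096 := by
  have : Fact (Nat.Prime 23) := ⟨by norm_num⟩
  have k := Solv.card_modEq_card_inf_centralizer (q := 23) (Q := zpowers a) (L := S)
    (IsPGroup.of_card (n := 1) (by rw [Nat.card_zpowers, orderOf_eq_prime ha h1, pow_one]))
    (zpowers_le_of_mem (mem_normalizer_fintype hi))
  rw [show S ⊓ centralizer (zpowers a : Set Co0) = center Co0 from le_antisymm (fun x hx => by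
    obtain ⟨k, hk⟩ := hS ⟨x, hx.1⟩
    exact C23 ha h1 (congrArg Subtype.val hk) (hx.2 a (mem_zpowers a)))
    (le_inf (center_le hn) (center_le_centralizer _)), card_center] at k
  obtain ⟨n, e⟩ := IsPGroup.iff_card.1 hS
  rw [e] at k hc
  have h2 : n ≤ 12 := (Nat.pow_le_pow_iff_right one_lt_two).1 hc
  obtain rfl | rfl : n = 1 ∨ n = 12 := by revert k; interval_cases n <;> decide
  · exact Or.inl (eq_of_le_of_card_ge (center_le hn) (by rw [e, card_center]; rfl)).ge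
  · exact Or.inr e

theorem A0_pg : IsPGroup 2 A0 := IsPGroup.of_card (n := 12) card_A0

theorem irrA {K : Subgroup Co0} (hK : K ≤ A0) (hn : co0Neg ∈ K)
    (hi : ∀ x ∈ K, pr (el rU0) * x * (pr (el rU0))⁻¹ ∈ K) (h : ¬ K ≤ center Co0) : K = A0 :=
  eq_of_le_of_card_ge hK (card_A0.trans ((two_inv u_pow u_ne (A0_pg.to_le hK) hn hi
    (card_A0 ▸ card_le_of_le hK)).resolve_left h).symm).le

theorem elem_of_inv {a : Co0} (ha : a ^ 23 = 1) (h1 : a ≠ 1) {F : Subgroup Co0} (hF : IsPGroup 2 F)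
    (hn : co0Neg ∈ F) (hi : ∀ x ∈ F, a * x * a⁻¹ ∈ F) (hc : Nat.card F = 4096) :
    ∀ x ∈ F, x * x = 1 := by
  have key : ∀ S ≤ F, co0Neg ∈ S → (∀ x ∈ S, a * x * a⁻¹ ∈ S) → S ≤ center Co0 ∨ F ≤ S :=
    fun S h2 h3 h4 => (two_inv ha h1 (hF.to_le h2) h3 h4 (hc ▸ card_le_of_le h2)).imp id fun e =>
      (eq_of_le_of_card_ge h2 (hc.trans e.symm).le).ge
  have hn' : ¬ F ≤ center Co0 := fun h => by
    have := card_le_of_le h
    rw [hc, card_center] at this
    omega
  have hi' : ∀ x ∈ F, a⁻¹ * x * a ∈ F := fun x hx =>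
    (mem_normalizer_iff.1 (mem_normalizer_fintype hi) _).2 (by simpa [mul_assoc] using hx)
  have hk : toCo1.ker = center Co0 := QuotientGroup.ker_mk' _
  have e1 : F ≤ F ⊓ (centralizer (F.map toCo1 : Set Spor.Co1)).comap toCo1 := by
    refine (key _ inf_le_left ⟨hn, fun y _ => by rw [show toCo1 co0Neg = 1 from hk.ge neg_center]; simp⟩
      fun x hx => ⟨hi x hx.1, ?_⟩).resolve_left fun h => ?_
    · rintro _ ⟨y, hy, rfl⟩
      have := hx.2 _ ⟨_, hi' y hy, rfl⟩
      simp only [map_mul, map_inv] at this ⊢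
      calc _ = toCo1 a * ((toCo1 a)⁻¹ * toCo1 y * toCo1 a * toCo1 x) * (toCo1 a)⁻¹ := by group
        _ = _ := by rw [this]; group
    · have : Nontrivial (F.map toCo1) := (nontrivial_iff_ne_bot _).2 fun e =>
        hn' (hk ▸ (Subgroup.map_eq_bot_iff _).1 e)
      have := (hF.map toCo1).center_nontrivial
      obtain ⟨⟨⟨_, x, hx, rfl⟩, hw⟩, hw'⟩ := exists_ne (1 : center (F.map toCo1))
      exact hw' (Subtype.ext (Subtype.ext (hk.ge (h ⟨hx, fun y hy =>
        congrArg Subtype.val (mem_center_iff.1 hw ⟨y, hy⟩)⟩))))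
  have e2 : F ≤ F ⊓ centralizer (F : Set Co0) := by
    refine (key _ inf_le_left ⟨hn, center_le_centralizer _ neg_center⟩
      fun x hx => ⟨hi x hx.1, fun y hy => ?_⟩).resolve_left fun h => ?_
    · calc _ = a * (a⁻¹ * y * a * x) * a⁻¹ := by group
        _ = _ := by rw [hx.2 _ (hi' y hy)]; group
    · obtain ⟨n, -, e⟩ := Cfsg.Agent.S0095.result (Solv.PG.isExtraspecial_of (p := 2) (Q := F) (by
        rw [le_antisymm h (le_inf (center_le hn) (center_le_centralizer _)), card_center])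
        (commutator_le.2 fun x hx y hy => center_le_centralizer _ (hk.le (by
          rw [MonoidHom.mem_ker, map_commutatorElement, commutatorElement_eq_one_iff_mul_comm]
          exact (e1 hy).2 _ ⟨x, hx, rfl⟩))) fun k => hn' fun x hx => h ⟨hx, k hx⟩)
      have := Nat.pow_right_injective le_rfl ((show 2 ^ 12 = _ from hc.symm).trans e)
      omega
  let K : Subgroup Co0 :=
    { carrier := {x | x ∈ F ∧ x * x = 1}
      one_mem' := ⟨one_mem _, one_mul _⟩
      mul_mem' := fun {x y} hx hy => ⟨mul_mem hx.1 hy.1, by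
        rw [mul_assoc, ← mul_assoc y, (e2 hx.1).2 y hy.1, mul_assoc, hy.2, mul_one, hx.2]⟩
      inv_mem' := fun {x} hx => ⟨inv_mem hx.1, by rw [← mul_inv_rev, hx.2, inv_one]⟩ }
  refine fun x hx => ((key K (fun _ h => h.1) ⟨hn, co0Neg_mul_self⟩ fun y hy =>
    ⟨hi y hy.1, by rw [conj_mul, hy.2]; simp⟩).resolve_left (fun h => ?_) hx).2
  let E : Subgroup Co0 :=
    { carrier := {x | x ∈ F ∧ x * x ∈ center Co0}
      one_mem' := ⟨one_mem _, by simp⟩
      mul_mem' := fun {x y} hx hy => ⟨mul_mem hx.1 hy.1, by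
        rw [mul_assoc, ← mul_assoc y, (e2 hx.1).2 y hy.1, mul_assoc, ← mul_assoc x x]
        exact mul_mem hx.2 hy.2⟩
      inv_mem' := fun {x} hx => ⟨inv_mem hx.1, by rw [← mul_inv_rev]; exact inv_mem hx.2⟩ }
  have e3 : E ≤ center Co0 := fun y hy => by
    obtain ⟨k, hk⟩ := hF ⟨y, hy.1⟩
    rcases mem_center_Co0.1 hy.2 with e | e
    · exact h ⟨hy.1, e⟩
    refine C23' ha h1 (congrArg Subtype.val hk) (h ⟨mul_mem (hi y hy.1) (inv_mem hy.1), ?_⟩)
    rw [mul_assoc _ y⁻¹, ← mul_assoc y⁻¹, (e2 (hi y hy.1)).2 _ (inv_mem hy.1), mul_assoc _ y⁻¹,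
      ← mul_assoc (a * y * a⁻¹), conj_mul, ← mul_inv_rev, e, mem_center_iff.1 neg_center a]
    simp
  refine hn' fun y hy => ?_
  obtain ⟨k, hk⟩ := hF ⟨y, hy⟩
  replace hk : y ^ 2 ^ k ∈ center Co0 := by
    rw [show y ^ 2 ^ k = 1 from congrArg Subtype.val hk]; exact one_mem _
  induction k with
  | zero => simpa using hk
  | succ k ih => exact ih (e3 ⟨pow_mem hy _, by rwa [← sq, ← pow_mul, ← pow_succ]⟩)

theorem conj_A0 {F D : Subgroup Co0} (hFD : F ≤ D) (hF : IsPGroup 2 F) (hn : co0Neg ∈ F)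
    (hc : ¬ F ≤ center Co0) (hi : ∀ d ∈ D, ∀ x ∈ F, d * x * d⁻¹ ∈ F)
    (hx : F.relIndex D = 244823040) :
    ∃ c : Co0, F.map (MulAut.conj c⁻¹).toMonoidHom = A0 ∧
      D.map (MulAut.conj c⁻¹).toMonoidHom = monoSub := by
  have : Fact (Nat.Prime 23) := ⟨by norm_num⟩
  have h1 := card_mul_rel hFD
  rw [hx] at h1
  obtain ⟨a, ha⟩ := exists_prime_orderOf_dvd_card' (G := D) 23 (h1 ▸ Dvd.dvd.mul_left (by norm_num) _)
  have a1 : (a : Co0) ^ 23 = 1 := by rw [← ha, ← coe_pow, pow_orderOf_eq_one, coe_one]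
  have a2 : (a : Co0) ≠ 1 := fun e => by
    rw [show a = 1 from Subtype.ext e, orderOf_one] at ha
    omega
  have h2 : Nat.card F = 4096 := (two_inv a1 a2 hF hn (hi a a.2) (by
    obtain ⟨n, e⟩ := IsPGroup.iff_card.1 hF
    have h3 := D.card_subgroup_dvd_card
    rw [← h1, card_Co0, e, show 8315553613086720000 = 33965568000 * 244823040 by norm_num] at h3
    have h4 := Nat.dvd_of_mul_dvd_mul_right (by norm_num) h3
    rw [e]
    by_contra hn
    have h5 : 13 ≤ n := by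
      by_contra h6
      exact hn (Nat.pow_le_pow_right two_pos (show n ≤ 12 by omega))
    exact absurd ((pow_dvd_pow 2 h5).trans h4) (by norm_num))).resolve_left hc
  obtain ⟨c, h3⟩ := CoStd.exists_conj_mono hF
  have hinj : Function.Injective (MulAut.conj c⁻¹).toMonoidHom := (MulAut.conj c⁻¹).injective
  have hm : monoSub ≤ normalizer (A0 : Set Co0) := fun g hg =>
    mem_normalizer_fintype fun _ => conj_mem_A0 hg
  have h4 := (CoStd.St.ue (ι := MonoidHom.id Co0) ⟨Function.injective_id,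
    fun g _ => ⟨g, 1, by simp, by simp⟩, fun k hk _ =>
      mem_center_Co0.1 (mem_center_iff.2 fun g => (hk g).symm)⟩).uniq
    (F.map (MulAut.conj c⁻¹).toMonoidHom) (by
      rw [map_id]
      rintro _ ⟨x, hx, rfl⟩
      exact hm (by simpa using h3 x hx)) (by
      rintro _ ⟨x, hx, rfl⟩
      rw [← map_mul, elem_of_inv a1 a2 hF hn (hi a a.2) h2 x hx, map_one])
    (by rw [map_id, card_map_of_injective hinj, h2, card_A0])
  rw [map_id] at h4
  refine ⟨c, h4, eq_of_le_of_card_ge ?_ (by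
    rw [card_map_of_injective hinj, ← h1, h2, card_monoSub])⟩
  rintro _ ⟨d, hd, rfl⟩
  refine CoStd.normalizer_A0_le (mem_normalizer_fintype ?_)
  rw [← h4]
  rintro _ ⟨x, hx, rfl⟩
  exact ⟨_, hi d hd x hx, by simp only [map_mul, map_inv]⟩

end Cfsg.Lib.Mon.Iv
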