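import Cfsg.Agent.Mon.IvCo

/-! The Ivanov amalgam: separating the code module from the cocode module. -/

set_option autoImplicit false

namespace Cfsg.Lib.Mon.Iv

open Cfsg Subgroup Cfsg.Lib.Spor Cfsg.Lib.Spor.CK Cfsg.Lib.SporChar Cfsg.Lib.SporChar.Co Kit

section
variable {G H : Type*} [Group G] [Group H]

/-- A polynomial in the conjugation by `a`, applied to `y`. -/
def hor (a y : G) : List Bool → G
  | [] => 1
  | b :: l => a * hor a y l * a⁻¹ * bif b then y else 1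

theorem hor_map (f : G →* H) (a y : G) (l : List Bool) : f (hor a y l) = hor (f a) (f y) l := by
  induction l with
  | nil => exact map_one f
  | cons b l ih => cases b <;> simp [hor, ih]

theorem hor_conj {r a : G} (h : r * a = a * r) (y : G) (l : List Bool) :
    hor a (r * y * r⁻¹) l = r * hor a y l * r⁻¹ := by
  have := hor_map (MulAut.conj r).toMonoidHom a y l
  simpa [h] using this.symm

variable {K : Subgroup G} {a : G} (hi : ∀ x ∈ K, a * x * a⁻¹ ∈ K)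
include hi

theorem hor_mem {y : G} (hy : y ∈ K) (l : List Bool) : hor a y l ∈ K := by
  induction l with
  | nil => exact one_mem _
  | cons b l ih => exact mul_mem (hi _ ih) (by cases b; exacts [one_mem _, hy])

theorem hor_mul (hc : ∀ x ∈ K, ∀ y ∈ K, x * y = y * x) {x y : G} (hx : x ∈ K) (hy : y ∈ K)
    (l : List Bool) : hor a (x * y) l = hor a x l * hor a y l := by
  induction l with
  | nil => exact (one_mul _).symm
  | cons b l ih =>
    have := hc _ hx _ (hi _ (hor_mem hi hy l))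
    cases b
    · simp [hor, ih]
    · simp only [hor, ih, cond_true]
      rw [mul_assoc _ x, ← mul_assoc x, this]; group

end

/-- The coefficients. -/
def hb : List Bool := [true, true, true, true, true, false, false, true, false, false, true, false, true]

/-- `hor` on codes. -/
noncomputable def horC (p : ℕ) (l : List Bool) : ℕ :=
  List.rec 0 (fun b _ r => frN r fun h => frN (tmul 1 tU h) fun h' => bif b then pmul h' p else h') l

/-- The action of `hor` on codes. -/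
noncomputable def actC (l : List Bool) : ℕ → ℕ :=
  List.rec (fun p => p) (fun b _ r p => frN (bif b then tmul 1 tY p else p) fun q =>
    frN (tmul 1 tV q) fun q' => frN (r q') (tmul 1 tU)) l

theorem hor_pq (p : ℕ) (l : List Bool) : hor (el rU0) (pq p) l = pq (horC p l) := by
  induction l with
  | nil => exact pq_zero.symm
  | cons b l ih =>
    rw [hor, ih, conj_pq, φU]
    cases b
    exacts [mul_one _, pq_mul _ _]

theorem φ_hor (l : List Bool) : ∀ p < 2 ^ 25, φ (hor (el rU0) (el rYb) l) p = actC l p := by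
  induction l with
  | nil => exact fun p => φ_one
  | cons b l ih =>
    intro p hp
    rw [hor, φ_mul, φ_mul, φ_mul, ih _ (φ_lt _ _), φU, φV]
    cases b
    · rw [cond_false, φ_one hp]; rfl
    · rw [cond_true, φY]; rfl

theorem pq_sq_diag {p : ℕ} (hp : p % 4096 = 0) : pq p * pq p = 1 := by
  rw [pq_mul, pmul_diag p hp, Nat.xor_self, pq_zero]

theorem pq_comm_diag {p q : ℕ} (hp : p % 4096 = 0) (hq : q % 4096 = 0) :
    pq p * pq q = pq q * pq p := by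
  rw [pq_mul, pq_mul, pmul_diag _ hp, pmul_diag _ hq, Nat.xor_comm]

/-- The diagonal Pauli elements. -/
def UH : Subgroup GH where
  carrier := {g | ∃ p, p % 4096 = 0 ∧ g = pq p}
  one_mem' := ⟨0, rfl, pq_zero.symm⟩
  mul_mem' := by
    rintro _ _ ⟨p, hp, rfl⟩ ⟨q, hq, rfl⟩
    exact ⟨_, xor_diag hp hq, by rw [pq_mul, pmul_diag _ hq]⟩
  inv_mem' := by
    rintro _ ⟨p, hp, rfl⟩
    exact ⟨p, hp, inv_eq_of_mul_eq_one_right (pq_sq_diag hp)⟩

theorem hor_diag {p : ℕ} (hp : p % 4096 = 0) : hor (el rU0) (pq p) hb = 1 := by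
  rw [← pq_mod]
  refine diag_induction (P := fun p => hor (el rU0) (pq p) hb = 1) (by
    rw [hor_pq, show horC 0 hb = 0 by decide +kernel, pq_zero]) (fun k hk x _ hx ih => ?_) _
    (Nat.mod_lt _ (by norm_num)) (by omega)
  rw [← pmul_diag _ (pow_diag k), ← pq_mul, hor_mul (K := UH) (by
    rintro _ ⟨q, hq, rfl⟩
    exact ⟨_, φ_diag U0_N hq, conj_pq _ _⟩) (by
    rintro _ ⟨q, hq, rfl⟩ _ ⟨r, hr, rfl⟩
    exact pq_comm_diag hq hr) ⟨_, hx, rfl⟩ ⟨_, pow_diag k, rfl⟩, ih, one_mul, hor_pq,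
    (by decide +kernel : ∀ k < 13, horC (2 ^ (12 + k)) hb = 0) k hk, pq_zero]

theorem hor_A0 {b : Co0} (h1 : b ∈ A0) (h : hor (pr (el rU0)) b hb ∈ center Co0) :
    b ∈ center Co0 := by
  have hi : ∀ x ∈ A0, pr (el rU0) * x * (pr (el rU0))⁻¹ ∈ A0 := fun _ => conj_mem_A0 U0_mono
  let K : Subgroup Co0 :=
    { carrier := {b | b ∈ A0 ∧ hor (pr (el rU0)) b hb ∈ center Co0}
      one_mem' := ⟨one_mem _, hor_mem (fun _ hx => Normal.conj_mem inferInstance _ hx _) (one_mem _) _⟩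
      mul_mem' := fun {x y} hx hy => ⟨mul_mem hx.1 hy.1, by
        rw [hor_mul hi (fun _ a _ b => A0_comm a b) hx.1 hy.1]; exact mul_mem hx.2 hy.2⟩
      inv_mem' := fun {x} hx => by rwa [inv_eq_of_mul_eq_one_right (A0_sq hx.1)] }
  by_contra hn
  have := (irrA (K := K) (fun _ h => h.1)
    ⟨neg_mem_A0, hor_mem (fun _ hx => Normal.conj_mem inferInstance _ hx _) neg_center _⟩
    (fun x hx => ⟨hi x hx.1, by
      rw [hor_conj rfl]; exact Normal.conj_mem inferInstance _ hx.2 _⟩)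
    (fun k => hn (k ⟨h1, h⟩))).ge Yb_A0
  have k := φ_center (g := hor (el rU0) (el rYb) hb) (hor_map pr _ _ _ ▸ this.2) (2 ^ 14)
  rw [φ_hor _ _ (by norm_num)] at k
  exact absurd k (by decide +kernel)

section
variable {K : Subgroup GH} (hu : ∀ k ∈ K, el rU0 * k * (el rU0)⁻¹ ∈ K) {y : GH}
  (hy : pr y = pr (el rYb)) (hy' : ∀ k ∈ K, y * k * y⁻¹ ∈ K)
include hu hy hy'

theorem subK : Sub fun p => ∃ q, q % 2 ^ 24 = p % 2 ^ 24 ∧ pq q ∈ K where
  cong := fun ⟨q, a, b⟩ e => ⟨q, a.trans e.symm, b⟩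
  xor := fun ⟨q, a, b⟩ ⟨r, c, d⟩ => ⟨pmul q r, by rw [pmul_mod, a, c, Nat.xor_mod_two_pow],
    pq_mul q r ▸ mul_mem b d⟩
  u := fun ⟨q, a, b⟩ => ⟨_, φ_congr _ a, conj_pq _ q ▸ hu _ b⟩
  y := fun ⟨q, a, b⟩ => ⟨_, (φ_of_pr hy q).trans (φ_congr _ a), conj_pq _ q ▸ hy' _ b⟩

theorem lemY {p : ℕ} (hp : p % 2 = 0) (h0 : p % 4096 ≠ 0) (h : pq p ∈ K) {q : ℕ} (hq : q % 2 = 0) :
    pq q ∈ K := by
  have k := fun q => (subK hu hy hy').even (q := q) hp h0 ⟨p, rfl, h⟩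
  obtain ⟨a, a1, a2⟩ := k 2 rfl
  obtain ⟨b, b1, b2⟩ := k (2 ^ 13) rfl
  obtain ⟨c, c1, c2⟩ := k q hq
  exact pq_mem_of_mod (pZ_mem_of_anti a2 (mul_mem (mul_mem b2 a2) (inv_mem b2))
    ((pcomm_congr b1 a1).trans (by decide))) c2 c1.symm

end

theorem odd_comm {y : GH} (hy : pr y = pr (el rYb)) {p : ℕ} (hp : p % 2 = 1) :
    ∃ q, y * pq p * y⁻¹ * (pq p)⁻¹ = pq q ∧ q % 4096 = 2 :=
  ⟨_, by rw [conj_pq, pq_inv, pq_mul], by
    rw [← Sub.odd_res hp]
    refine mod12_of ?_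
    rw [pmul_mod, pmul_mod, pmul_mod, Nat.xor_self, Nat.xor_zero, φ_of_pr hy, Nat.xor_comm,
      Nat.xor_mod_two_pow]⟩

theorem fixA0 {p : ℕ} (h : ∀ y, pr y ∈ A0 → φ y p % 2 ^ 24 = p % 2 ^ 24) :
    p % 2 ^ 24 = 0 ∨ p % 2 ^ 24 = 4096 := by
  have key : ∀ n ∈ FxS [pZ1], ∀ p, (∀ y, pr y ∈ A0 → φ y p % 2 ^ 24 = p % 2 ^ 24) →
      ∀ y, pr y ∈ A0 → φ y (φ n p) % 2 ^ 24 = φ n p % 2 ^ 24 := fun n hn p k y hy => by
    rw [← φ_mul, show y * n = n * (n⁻¹ * y * n⁻¹⁻¹) by group, φ_mul]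
    refine φ_congr n (k _ ?_)
    rw [map_mul, map_mul, map_inv pr n⁻¹]
    exact conj_mem_A0 (pr_of_mem_N (inv_mem hn)) hy
  refine Sub.cases (S := fun p => ∀ y, pr y ∈ A0 → φ y p % 2 ^ 24 = p % 2 ^ 24)
    ⟨fun a b y hy => (φ_congr y b).trans ((a y hy).trans b.symm), fun a b y hy => by
      rw [φ_xor, a y hy, b y hy, Nat.xor_mod_two_pow], key _ U0_N _, key _ Yb_N _⟩ (fun k => ?_) h
  exact absurd (k _ Yb_A0) (by rw [φY]; decide +kernel)

theorem cent_even {g : GH} (h : ∀ p < 2 ^ 25, p % 2 = 0 → φ g p = p) :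
    ∃ q, (q = 0 ∨ q = pZ ∨ q = pZ1 ∨ q = pZ2) ∧ (g = pq q ∨ g = cc * pq q) := by
  obtain ⟨q, h1, h2, e⟩ := of_fix_diag (g := g) fun p a b => h p a (by omega)
  refine ⟨q, diag_cases (P := fun q => (∀ k < 11, 2 ^ (k + 1) ^^^ pcomm q (2 ^ (k + 1)) <<< 24 =
    2 ^ (k + 1)) → q = 0 ∨ q = pZ ∨ q = pZ1 ∨ q = pZ2) (by decide +kernel) h1 h2 fun k hk => ?_, e⟩
  have k1 := pow_lt_25 (k := k + 1) (by omega)
  have k2 := h _ k1 (by rw [pow_succ]; omega)
  rw [← φ_pq q k1]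
  rcases e with rfl | rfl
  exacts [k2, (φ_cc_mul _ _).symm.trans k2]

theorem pq_mem_N {p : ℕ} : pq p ∈ FxS [pZ1] ↔ p % 2 = 0 := by
  rw [pq_mem_FxS, pcomm_comm, pcomm_congr (p := pZ1) (p' := 2 ^ 12) (q' := p) (by decide) rfl, pcomm_pow (by norm_num)]
  simp

/-- An element of `N` moving `w` to `w z1`. -/
noncomputable def xW : GH := el rU0 * (el rU0 * (el rU0 * el rYb * (el rU0)⁻¹) * (el rU0)⁻¹) * (el rU0)⁻¹

theorem xW_N : xW ∈ FxS [pZ1] :=
  mul_mem (mul_mem U0_N (mul_mem (mul_mem U0_N (mul_mem (mul_mem U0_N Yb_N) (inv_mem U0_N)))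
    (inv_mem U0_N))) (inv_mem U0_N)

theorem φ_xW : φ xW pW = pW ^^^ pZ1 := by
  simp only [xW, φ_mul, φU, φV, φY]
  decide +kernel

end Cfsg.Lib.Mon.Iv
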