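import Cfsg.Agent.Spor.M24Elts
import Cfsg.Agent.Spor.M24Simple
import Cfsg.Agent.Spor.LXSplit
import Cfsg.Agent.S0242
import Cfsg.Agent.Solv.CoprimeFixed
import Cfsg.Agent.Solv.CardModEq
import Cfsg.Agent.Solv.Cores
import Cfsg.Agent.Local.InvolCount

/-! The Ivanov amalgam: consequences of the shapes of the parabolics `N` and `L`. -/

set_option autoImplicit false

namespace Cfsg.Lib.Mon.Iv

open Cfsg Subgroup Equiv Function Cfsg.Lib.Spor

/-- The group `L₃(2)`. -/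
abbrev W := Matrix.SpecialLinearGroup (Fin 3) (ZMod 2)

theorem W_card : Nat.card W = 168 := by
  have := Agent.S0242.result (ZMod.card 2) 3 (by decide)
  simpa [Fin.prod_univ_succ] using this

theorem W_six (x : W) (h : x ^ 6 = 1) : x ^ 2 = 1 ∨ x ^ 3 = 1 := by
  have k : ∀ x : Matrix (Fin 3) (Fin 3) (ZMod 2), x * x * x * (x * x * x) = 1 →
      x * x = 1 ∨ x * x * x = 1 := by decide +kernel
  rw [show x ^ 6 = x * x * x * (x * x * x) by simp only [pow_succ, pow_zero, one_mul, mul_assoc]] at h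
  rw [sq, pow_three']
  exact (k x (congrArg Subtype.val h)).imp Subtype.ext Subtype.ext

theorem W_comm {w y : W} (h3 : w ^ 3 = 1) (h1 : w ≠ 1) {k : ℕ} (hy : y ^ 2 ^ k = 1)
    (e : Commute w y) : y = 1 := by
  induction k generalizing y with
  | zero => simpa using hy
  | succ k ih =>
    have h2 : y ^ 2 = 1 := ih (by rw [← pow_mul, ← pow_succ', hy]) (e.pow_right 2)
    rcases W_six (w * y) (by
      rw [e.mul_pow, show w ^ 6 = (w ^ 3) ^ 2 from pow_mul w 3 2, show y ^ 6 = (y ^ 2) ^ 3 from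
        pow_mul y 2 3, h3, h2]; simp) with k | k
    · rw [e.mul_pow, h2, mul_one] at k
      exact absurd (by rwa [pow_succ, k, one_mul] at h3) h1
    · rwa [e.mul_pow, h3, one_mul, pow_succ, h2, one_mul] at k

theorem exists_odd {R : Type*} [Group R] {x : R} {n k : ℕ} (hn : Odd n) (h : (x ^ n) ^ 2 ^ k = 1) :
    ∃ m, (x ^ m) ^ n = 1 ∧ m % n = 1 % n := by
  obtain ⟨j, hj⟩ := Nat.exists_eq_succ_of_ne_zero (Nat.totient_pos.2 hn.pos).ne'
  refine ⟨(2 ^ k) ^ n.totient, ?_, Nat.ModEq.pow_totient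
    (Nat.Coprime.pow_left k (Nat.coprime_two_left.2 hn))⟩
  rw [← pow_mul, mul_comm, pow_mul, hj, pow_succ', pow_mul, h, one_pow]

theorem pow_of_mod {H : Type*} [Monoid H] {y : H} {m n : ℕ} (h : y ^ n = 1) (hm : m % n = 1 % n) :
    y ^ m = y := by rw [pow_eq_pow_mod m h, hm, ← pow_eq_pow_mod 1 h, pow_one]

theorem ker_pow {R H : Type*} [Group R] [Group H] {f : R →* H} (hf : IsPGroup 2 f.ker) {x : R}
    (h : f x = 1) : ∃ k, x ^ 2 ^ k = 1 :=
  (hf ⟨x, h⟩).imp fun _ e => congrArg Subtype.val e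

theorem lift_odd {R H : Type*} [Group R] [Group H] {f : R →* H} (hf : IsPGroup 2 f.ker) {n : ℕ}
    (hn : Odd n) {x : R} (h : f x ^ n = 1) : ∃ y, f y = f x ∧ y ^ n = 1 := by
  obtain ⟨k, hk⟩ := ker_pow hf (x := x ^ n) (by rw [map_pow, h])
  obtain ⟨m, h1, h2⟩ := exists_odd hn hk
  exact ⟨x ^ m, by rw [map_pow, pow_of_mod h h2], h1⟩

theorem cent_three {g : M24} (h3 : g ^ 3 = 1) (h1 : g ≠ 1) :
    Nat.card (centralizer {g} : Subgroup M24) ≤ 1080 := by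
  obtain ⟨r, hr, k, hk, e⟩ := MP.isClassList_M24.all g g.2
  have h2 : r.2.1 = 3 := by
    rw [← MP.isClassList_M24.ord r hr, ← orderOf_eq_prime h3 h1, ← orderOf_coe, ← e]
    exact (orderOf_injective (MulAut.conj k).toMonoidHom (MulAut.conj k).injective _).symm
  rw [← card_map_of_injective M24.subtype_injective]
  refine (card_le_of_le (K := M24 ⊓ centralizer {(g : Perm GolayPt)}) ?_).trans
    ((MP.isClassList_M24.card_cent_conj hr hk e).trans_le
      ((by decide +kernel : ∀ r ∈ MP.reps24, r.2.1 = 3 → r.2.2 ≤ 1080) r hr h2))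
  rintro _ ⟨x, hx, rfl⟩
  exact ⟨x.2, mem_centralizer_singleton_iff.2 (congrArg Subtype.val (mem_centralizer_singleton_iff.1 hx))⟩

theorem key {R Lb : Type*} [Group R] [Finite R] [Group Lb] (μ : R →* M24) (ν : R →* Lb)
    (hν : IsPGroup 2 ν.ker) {A B : Subgroup Lb} (hAB : ∀ a ∈ A, ∀ b ∈ B, Commute a b)
    (hs : ∀ x, ∃ a ∈ A, ∃ b ∈ B, a * b = x) (hB : B ≤ ν.range)
    (hY : ∀ y, μ y = 1 → ν y ∈ B → ν y = 1) {t : Lb} (ht : t ∈ B) (h3 : t ^ 3 = 1) (h1 : t ≠ 1)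
    (hc : 1080 ≤ Nat.card (B ⊓ centralizer {t} : Subgroup Lb)) (r : R) :
    ∃ y, μ y = 1 ∧ (ν y)⁻¹ * ν r ∈ B := by
  obtain ⟨c0, rfl⟩ := hB ht
  obtain ⟨c, e, c3⟩ := lift_odd hν (by decide) h3
  rw [← e] at ht h1 hc
  have lift : ∀ w ∈ ν.range, Commute w (ν c) → ∃ z, Commute z c ∧ ν z = w := fun w hw k => by
    obtain ⟨n, hn⟩ := IsPGroup.iff_card.1 hν
    obtain ⟨z, hz, e⟩ := (Solv.Coprime.map_inf_centralizer' ν (A := zpowers c) (K := ⊤)
      le_normalizer_of_normal (by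
        rw [top_inf_eq, hn, Nat.card_zpowers, orderOf_eq_prime c3 fun e => h1 (by rw [e, map_one])]
        exact Nat.Coprime.pow_right _ (by norm_num)) (Or.inl inferInstance)).ge
      ⟨MonoidHom.range_eq_map ν ▸ hw, by
        rintro _ ⟨_, ⟨n, rfl⟩, rfl⟩
        rw [map_zpow]
        exact (k.zpow_right n).symm.eq⟩
    exact ⟨z, (hz.2 c (mem_zpowers c)).symm, e⟩
  let Z : Subgroup R := B.comap ν ⊓ centralizer {c}
  have : Finite (Z.map ν) := Finite.of_surjective _ (ν.subgroupMap_surjective Z)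
  have h4 : Z.map μ = centralizer {μ c} := eq_of_le_of_card_ge (by
    rintro _ ⟨z, hz, rfl⟩
    rw [mem_centralizer_singleton_iff, ← map_mul, mem_centralizer_singleton_iff.1 hz.2, map_mul])
    ((cent_three (by rw [← map_pow, c3, map_one]) fun k => h1 (hY c k ht)).trans (hc.trans
      ((card_le_of_le (K := Z.map ν) fun w hw => by
        obtain ⟨z, a, rfl⟩ := lift w (hB hw.1) (mem_centralizer_singleton_iff.1 hw.2)
        exact ⟨z, ⟨hw.1, mem_centralizer_singleton_iff.2 a⟩, rfl⟩).trans (by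
        rw [← relIndex_ker, ← relIndex_ker, ← inf_relIndex_right μ.ker]
        exact relIndex_le_of_le_left (fun y hy => hY y hy.1 hy.2.1) index_ne_zero_of_finite))))
  obtain ⟨a, ha, b, hb, e⟩ := hs (ν r)
  obtain ⟨z, h5, rfl⟩ := lift a ((mul_mem_cancel_right (hB hb)).1 (e ▸ ⟨r, rfl⟩)) (hAB a ha _ ht)
  obtain ⟨m, hm, h6⟩ := h4.ge (mem_centralizer_singleton_iff.2 (h5.map μ))
  refine ⟨z * m⁻¹, by rw [map_mul, map_inv, h6, mul_inv_cancel], ?_⟩
  rw [← e, map_mul, map_inv, mul_inv_rev, inv_inv, mul_assoc, inv_mul_cancel_left]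
  exact mul_mem hm.1 hb

theorem exists_s {N : Type*} [Group N] [Finite N] {μ : N →* Perm (Fin 3) × M24} (hs : Surjective μ)
    (hk : IsPGroup 2 μ.ker) {D : Subgroup N} (hD : D.index = 3) : ∃ s : Perm (Fin 3), s ≠ 1 ∧
    s * s = 1 ∧ ∀ x, x ∈ D ↔ (μ x).1 = 1 ∨ (μ x).1 = s := by
  have h1 : μ.ker ≤ D := Solv.le_of_normal_of_coprime_card_index (by
    obtain ⟨n, hn⟩ := IsPGroup.iff_card.1 hk
    rw [hn, hD]
    exact Nat.Coprime.pow_left _ (by norm_num))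
  have h2 := (index_map_eq D hs h1).trans hD
  have h3 : (MonoidHom.fst (Perm (Fin 3)) M24).ker ≤ D.map μ := by
    have := MP.isSimpleGroup_M24
    have k : (D.map μ).comap (MonoidHom.inr _ _) = ⊤ := by
      by_contra k
      have k1 := (Local.card_dvd_factorial_index k).trans (Nat.factorial_dvd_factorial (n := 3) (by
        rw [index_comap]
        exact (relIndex_le_of_le_right le_top index_ne_zero_of_finite).trans_eq
          ((relIndex_top_right _).trans h2)))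
      rw [MP.card_M24] at k1
      exact absurd k1 (by decide)
    rintro ⟨a, b⟩ (rfl : a = 1)
    exact k.ge (mem_top b)
  have h4 := (index_map_eq _ Prod.fst_surjective h3).trans h2
  have h5 := ((D.map μ).map (MonoidHom.fst _ _)).card_mul_index
  rw [h4, Nat.card_perm, Nat.card_eq_fintype_card (α := Fin 3), Fintype.card_fin] at h5
  obtain ⟨s, s1, s2⟩ := (Nat.card_eq_two_iff' (1 : (D.map μ).map (MonoidHom.fst _ _))).1
    (by change _ = 6 at h5; omega)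
  have h6 : ∀ x, x ∈ D ↔ (μ x).1 ∈ (D.map μ).map (MonoidHom.fst _ _) := fun x => by
    conv_lhs => rw [← comap_map_eq_self h1, ← comap_map_eq_self h3]
    rfl
  refine ⟨s, fun e => s1 (Subtype.ext e), ?_, fun x => (h6 x).trans ⟨fun h => ?_, ?_⟩⟩
  · by_contra e
    exact s1 (mul_left_cancel (a := s) ((s2 (s * s) fun k => e (congrArg Subtype.val k)).trans
      (mul_one s).symm))
  · exact or_iff_not_imp_left.2 fun e => congrArg Subtype.val (s2 ⟨_, h⟩ fun k =>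
      e (congrArg Subtype.val k))
  · rintro (e | e) <;> rw [e]
    exacts [one_mem _, s.2]

variable {G : Type*} [Group G] {C N L : Subgroup G} {μ : N →* Perm (Fin 3) × M24} {s : Perm (Fin 3)}

/-- The shape of `N` and the position of `N ∩ C`. -/
structure ND (C N : Subgroup G) (μ : N →* Perm (Fin 3) × M24) (s : Perm (Fin 3)) : Prop where
  surj : Surjective μ
  ker : IsPGroup 2 μ.ker
  s1 : s ≠ 1
  s2 : s * s = 1
  mem : ∀ x : N, (x : G) ∈ C ↔ (μ x).1 = 1 ∨ (μ x).1 = s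

theorem ND.two (T : ND C N μ s) {x : N} (h : (x : G) ∈ C) (e : (μ x).2 = 1) : ∃ k, x ^ 2 ^ k = 1 := by
  obtain ⟨k, hk⟩ := ker_pow T.ker (x := x ^ 2) (by
    rw [map_pow, sq]
    refine Prod.ext ?_ (by simp [e])
    rcases (T.mem x).1 h with a | a <;> simp [a, T.s2])
  exact ⟨k + 1, by rw [pow_succ', pow_mul, hk]⟩

/-- The quotient `L₃(2)` of `L`. -/
structure LD (C N L : Subgroup G) (μ : N →* Perm (Fin 3) × M24) (ψ : L →* W) : Prop where
  surj : Surjective ψ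
  kN : ψ.ker ≤ N.subgroupOf L
  kC : ψ.ker ≤ C.subgroupOf L
  key : ∀ r : L, (r : G) ∈ N → ∃ y : L, ∃ h : (y : G) ∈ N, (μ ⟨y, h⟩).2 = 1 ∧ ψ y = ψ r

theorem ND.exists_ψ [Finite L] (T : ND C N μ s) {A B : Subgroup (L ⧸ pCore 2 L)} [A.Normal] [B.Normal]
    (h1 : A ⊓ B = ⊥) (h2 : A ⊔ B = ⊤) (e : A ≃* W) (hB : Nat.card B = 2160) {K : Subgroup B}
    (h3 : Nat.card K = 3) (h4 : (centralizer (K : Set B)).index = 2) (hLN : N.relIndex L = 7)
    (hLC : C.relIndex L = 7) : ∃ ψ, LD C N L μ ψ := by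
  have hs : ∀ x, ∃ a ∈ A, ∃ b ∈ B, a * b = x := fun x => mem_sup_of_normal_right.1 (h2.ge (mem_top x))
  have hAB : ∀ a ∈ A, ∀ b ∈ B, Commute a b := fun a ha b hb =>
    commute_of_normal_of_disjoint A B ‹_› ‹_› (disjoint_iff.2 h1) a b ha hb
  let e0 : A ≃* (L ⧸ pCore 2 L) ⧸ B := MulEquiv.ofBijective ((QuotientGroup.mk' B).comp A.subtype)
    ⟨(injective_iff_map_eq_one _).2 fun a ha =>
      Subtype.ext (mem_bot.1 (h1.le ⟨a.2, (QuotientGroup.eq_one_iff _).1 ha⟩)), fun x => by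
      obtain ⟨x, rfl⟩ := QuotientGroup.mk_surjective x
      obtain ⟨a, ha, b, hb, rfl⟩ := hs x
      exact ⟨⟨a, ha⟩, QuotientGroup.eq.2 (by simpa using hb)⟩⟩
  let ν := QuotientGroup.mk' (pCore 2 L)
  have hν : IsPGroup 2 ν.ker := (QuotientGroup.ker_mk' (pCore 2 L)).symm ▸ Solv.pCore_isPGroup 2 L
  let ψ : L →* W := (e0.symm.trans e).toMonoidHom.comp ((QuotientGroup.mk' B).comp ν)
  have hψ : ψ.ker = B.comap ν := Subgroup.ext fun x =>
    (e0.symm.trans e).map_eq_one_iff.trans (QuotientGroup.eq_one_iff _)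
  have hle : ∀ H : Subgroup G, H.relIndex L = 7 → ψ.ker ≤ H.subgroupOf L := fun H hH =>
    Solv.le_of_normal_of_coprime_card_index (by
      obtain ⟨n, hn⟩ := IsPGroup.iff_card.1 hν
      have := Solv.card_comap_dvd ν B
      rw [hn, hB, ← hψ] at this
      rw [show (H.subgroupOf L).index = 7 from hH]
      exact Nat.Coprime.coprime_dvd_left this (Nat.Coprime.mul_left (by norm_num)
        (Nat.Coprime.pow_left _ (by norm_num))))
  refine ⟨ψ, (e0.symm.trans e).surjective.comp ((QuotientGroup.mk'_surjective B).comp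
    (QuotientGroup.mk'_surjective _)), hle N hLN, hle C hLC, fun r hr => ?_⟩
  let μ' : N.subgroupOf L →* M24 := (MonoidHom.snd _ _).comp (μ.comp (L.subtype.subgroupComap N))
  let ν' := ν.comp (N.subgroupOf L).subtype
  have hr' : B ≤ ν'.range := fun b hb => by
    obtain ⟨x, rfl⟩ := QuotientGroup.mk'_surjective _ b
    exact ⟨⟨x, hle N hLN (hψ.ge hb)⟩, rfl⟩
  obtain ⟨t, ht⟩ := exists_prime_orderOf_dvd_card' (G := K) 3 h3.symm.dvd
  rw [← orderOf_coe, ← orderOf_coe] at ht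
  obtain ⟨y, a, b⟩ := key μ' ν' (fun x => (ker_pow hν (x := x.1.1) x.2).imp fun _ e =>
    Subtype.ext (Subtype.ext e)) hAB hs hr' (fun y a b => by
      refine mem_bot.1 ((Solv.pCore_quotient_pCore 2 L).le (Solv.le_pCore
        (N := (μ'.ker ⊓ B.comap ν').map ν') ⟨?_⟩ (IsPGroup.map (fun x => ?_) _) ⟨y, ⟨a, b⟩, rfl⟩))
      · rintro _ ⟨y, hy, rfl⟩ g
        obtain ⟨a, ha, b, hb, rfl⟩ := hs g
        obtain ⟨x, rfl⟩ := hr' hb
        have k := (inferInstance : (μ'.ker ⊓ B.comap ν').Normal).conj_mem y hy x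
        refine ⟨_, k, ?_⟩
        rw [← mul_inv_cancel_right (ν' _) a, ← (hAB a ha _ k.2).eq, map_mul, map_mul, map_inv]
        group
      · exact (T.two (x := ⟨x.1.1, x.1.2⟩) (hle C hLC (hψ.ge x.2.2)) x.2.1).imp
          fun _ e => Subtype.ext (Subtype.ext (Subtype.ext (congrArg (fun x : N => (x : G)) e))))
    (t := t.1) t.1.2 (ht ▸ pow_orderOf_eq_one _) (fun e => by simp [e] at ht) (by
      have k := (centralizer (K : Set B)).card_mul_index
      rw [h4, hB, ← card_map_of_injective B.subtype_injective] at k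
      refine le_trans (by omega) (card_le_of_le (H := (centralizer (K : Set B)).map B.subtype) ?_)
      rintro _ ⟨x, hx, rfl⟩
      exact ⟨x.2, mem_centralizer_singleton_iff.2 (congrArg Subtype.val (hx t t.2)).symm⟩) ⟨r, hr⟩
  refine ⟨y, y.2, a, ?_⟩
  rw [← inv_mul_eq_one, ← map_inv, ← map_mul]
  exact hψ.ge b

namespace LD

variable {ψ : L →* W} (S : LD C N L μ ψ)
include S

theorem card {K : Subgroup G} (h : ψ.ker ≤ K.subgroupOf L) :
    Nat.card ((K.subgroupOf L).map ψ) * K.relIndex L = 168 := by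
  rw [← W_card, ← ((K.subgroupOf L).map ψ).card_mul_index, index_map_eq _ S.surj h]; rfl

theorem exists_three {K : Subgroup G} (h : ψ.ker ≤ K.subgroupOf L) (h7 : K.relIndex L = 7) :
    ∃ r : L, (r : G) ∈ K ∧ ψ r ^ 3 = 1 ∧ ψ r ≠ 1 := by
  have := S.card h
  obtain ⟨w, e⟩ := exists_prime_orderOf_dvd_card' (G := (K.subgroupOf L).map ψ) 3
    (by rw [h7] at this; omega)
  obtain ⟨r, hr, k⟩ := w.2
  rw [← orderOf_coe, ← k] at e
  exact ⟨r, hr, orderOf_dvd_iff_pow_eq_one.1 e.dvd, fun k => by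
    rw [k, orderOf_one] at e; omega⟩

theorem H1 (hLC : C.relIndex L = 7) (hLNC : (N ⊓ C).relIndex L = 21) {Q : Subgroup G}
    (hQ : IsPGroup 2 Q) (hn : ∀ c ∈ C, ∀ q ∈ Q, c * q * c⁻¹ ∈ Q) :
    ¬ ∀ x : N, (x : G) ∈ C → (μ x).2 = 1 → (x : G) ∈ Q := fun h => by
  have h1 : IsPGroup 2 ((Q.subgroupOf L).map ψ) := hQ.comap_subtype.map _
  have h2 := S.card (K := N ⊓ C) fun x hx => ⟨S.kN hx, S.kC hx⟩
  have h3 := card_dvd_of_le (show ((N ⊓ C).subgroupOf L).map ψ ≤ (Q.subgroupOf L).map ψ by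
    rintro _ ⟨r, hr, rfl⟩
    obtain ⟨y, a, b, c⟩ := S.key r hr.1
    refine ⟨y, h ⟨y, a⟩ ((mul_mem_cancel_left (inv_mem (mem_inf.1 hr).2)).1 (S.kC (x := r⁻¹ * y) ?_)) b, c⟩
    rw [MonoidHom.mem_ker, map_mul, map_inv, c, inv_mul_cancel])
  obtain ⟨r, a, b, c⟩ := S.exists_three S.kC hLC
  have h4 := Solv.card_modEq_card_inf_centralizer (q := 3) (Q := zpowers (ψ r))
    (L := (Q.subgroupOf L).map ψ) (IsPGroup.of_card (n := 1) (by
      rw [Nat.card_zpowers, orderOf_eq_prime b c, pow_one])) (zpowers_le.2 (mem_normalizer_fintype (by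
      rintro _ ⟨q, hq, rfl⟩
      exact ⟨r * q * r⁻¹, hn _ a _ hq, by simp⟩)))
  rw [show _ ⊓ centralizer (zpowers (ψ r) : Set W) = ⊥ from eq_bot_iff.2 fun y hy => by
    obtain ⟨k, hk⟩ := h1 ⟨y, hy.1⟩
    exact W_comm b c (congrArg Subtype.val hk) (hy.2 _ (mem_zpowers _)), card_bot] at h4
  have h5 := ((Q.subgroupOf L).map ψ).card_subgroup_dvd_card
  obtain ⟨n, e⟩ := IsPGroup.iff_card.1 h1
  rw [hLNC] at h2
  rw [show Nat.card (((N ⊓ C).subgroupOf L).map ψ) = 2 ^ 3 by omega] at h3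
  rw [e] at h3 h4 h5
  rw [W_card] at h5
  have h6 := (Nat.pow_dvd_pow_iff_le_right one_lt_two).1 h3
  obtain rfl : n = 3 := by
    by_contra k
    exact absurd ((pow_dvd_pow 2 (show 4 ≤ n by omega)).trans h5) (by norm_num)
  exact absurd h4 (by decide)

theorem H2 (T : ND C N μ s) (hLN : N.relIndex L = 7) {ρ : N} (h3 : ρ ^ 3 = 1) (h1 : (μ ρ).1 ≠ 1)
    (h2 : (μ ρ).2 = 1) : ¬ ∀ o, μ o = 1 → o * ρ = ρ * o := fun h => by
  have u1 : ∀ ε σ : N, (∀ o, μ o = 1 → Commute o ε) → ε ^ 3 = 1 → σ ^ 3 = 1 → μ σ = μ ε → σ = ε :=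
    fun ε σ a b c d => by
      have k : μ (σ * ε⁻¹) = 1 := by rw [map_mul, map_inv, d, mul_inv_cancel]
      obtain ⟨n, hn⟩ := ker_pow T.ker k
      rw [← inv_mul_cancel_right σ ε, (a _ k).mul_pow, b, mul_one] at c
      exact mul_inv_eq_one.1 ((pow_eq_one_iff_of_coprime (m := 3) (n := 2 ^ n)
        (Nat.Coprime.pow_right _ (by norm_num))).1 ⟨c, hn⟩)
  have u2 : ∀ σ : N, σ ^ 3 = 1 → (μ σ).2 = 1 → σ ≠ 1 → σ = ρ ∨ σ = ρ⁻¹ := fun σ a b c => by
    have k : ∀ x : N, x ^ 3 = 1 → (μ x).1 ^ 3 = 1 := fun x hx => by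
      rw [← Prod.pow_fst, ← map_pow, hx, map_one, Prod.fst_one]
    rcases (by decide : ∀ t u : Perm (Fin 3), t ^ 3 = 1 → t ≠ 1 → u ^ 3 = 1 → u = 1 ∨ u = t ∨ u = t⁻¹)
      _ _ (k ρ h3) h1 (k σ a) with e | e | e
    · exact absurd (u1 1 σ (fun o _ => Commute.one_right o) (one_pow 3) a
        (Prod.ext (by simpa using e) (by simpa using b))) c
    · exact Or.inl (u1 ρ σ h h3 a (Prod.ext e (b.trans h2.symm)))
    · exact Or.inr (u1 _ σ (fun o ho => Commute.inv_right (h o ho)) (by rw [inv_pow, h3, inv_one]) a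
        (Prod.ext (by simpa using e) (by simp [b, h2])))
  obtain ⟨r, a, b, c⟩ := S.exists_three S.kN hLN
  obtain ⟨y, hy, d, e⟩ := S.key r a
  obtain ⟨k, hk⟩ := T.two (x := ⟨y, hy⟩ ^ 3) (S.kC (x := y ^ 3) (by
    rw [MonoidHom.mem_ker, map_pow, e, b])) (by rw [map_pow, Prod.pow_snd, d, one_pow])
  obtain ⟨σ, v, m0, w1, m1, m3⟩ : ∃ (σ : N) (v : L), (v : G) = σ ∧ ψ v = ψ r ∧ σ ^ 3 = 1 ∧
      (μ σ).2 = 1 := by
    obtain ⟨m, m1, m2⟩ := exists_odd (by decide) hk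
    exact ⟨_, y ^ m, rfl, by rw [map_pow, e, pow_of_mod b m2], m1,
      by rw [map_pow, Prod.pow_snd, d, one_pow]⟩
  have m4 : σ ≠ 1 := fun k => c (by
    rw [← w1, show v = 1 from Subtype.ext (by rw [m0, k]; rfl), map_one])
  have u3 : ∀ x ∈ (N.subgroupOf L).map ψ, x * ψ r * x⁻¹ = ψ r ∨ x * ψ r * x⁻¹ = (ψ r)⁻¹ := by
    rintro _ ⟨x, hx, rfl⟩
    have k1 := u2 (⟨x, hx⟩ * σ * (⟨x, hx⟩ : N)⁻¹) (by rw [conj_pow, m1]; simp)
      (by simp [-MulMemClass.mk_mul_mk, m3]) (by simpa using m4)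
    have k2 : (⟨x, hx⟩ * σ * (⟨x, hx⟩ : N)⁻¹ : N) = σ ∨ (⟨x, hx⟩ * σ * (⟨x, hx⟩ : N)⁻¹ : N) = σ⁻¹ := by
      rcases u2 _ m1 m3 m4 with k | k
      · rwa [k] at k1 ⊢
      · rw [k] at k1 ⊢; rw [inv_inv]; exact k1.symm
    rw [← w1, ← map_inv, ← map_inv, ← map_mul, ← map_mul]
    exact k2.imp (fun k => congrArg ψ (Subtype.ext (by
      simpa [m0] using congrArg Subtype.val k))) fun k => congrArg ψ (Subtype.ext (by
      simpa [m0] using congrArg Subtype.val k))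
  have h4 := S.card S.kN
  obtain ⟨K, hK⟩ := Sylow.exists_subgroup_card_pow_prime (G := (N.subgroupOf L).map ψ) 2 (n := 2)
    (by rw [hLN] at h4; omega)
  have u4 : ∀ x y : K, x ≠ y → (x : W) * ψ r * (x : W)⁻¹ ≠ y * ψ r * (y : W)⁻¹ := fun x y k e => by
    refine k (inv_mul_eq_one.1 (Subtype.ext (Subtype.ext (W_comm b c (k := 2) ?_ ?_))))
    · exact congrArg (fun x : K => (x : W)) (hK ▸ pow_card_eq_one' (x := x⁻¹ * y))
    · calc ψ r * ((x : W)⁻¹ * y) = (x : W)⁻¹ * (x * ψ r * (x : W)⁻¹) * y := by group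
        _ = (x : W)⁻¹ * y * ψ r := by rw [e]; group
  have := Fintype.ofFinite K
  obtain ⟨x, y, z, a1, a2, a3⟩ := (Fintype.two_lt_card_iff (α := K)).1 (by
    rw [← Nat.card_eq_fintype_card, hK]; norm_num)
  have b1 := u4 _ _ a1
  have b2 := u4 _ _ a2
  have b3 := u4 _ _ a3
  rcases u3 _ x.1.2 with c1 | c1 <;> rcases u3 _ y.1.2 with c2 | c2 <;>
    rcases u3 _ z.1.2 with c3 | c3 <;> simp_all only [ne_eq, not_true_eq_false]

theorem rel_ker : (ψ.ker.map L.subtype).relIndex L = 168 := by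
  rw [relIndex, subgroupOf, comap_map_eq_self_of_injective L.subtype_injective, index_ker,
    MonoidHom.range_eq_top.2 S.surj, card_top, W_card]

theorem simple {K : Subgroup G} (hK : K ≤ L) (hn : ∀ g ∈ L, ∀ k ∈ K, g * k * g⁻¹ ∈ K) :
    K ≤ ψ.ker.map L.subtype ∨ ∀ g ∈ L, ∃ k ∈ K, k⁻¹ * g ∈ ψ.ker.map L.subtype := by
  have := Local.isSimpleGroup_SL_two (ι := Fin 3) (by simp)
  refine (Normal.map (H := K.subgroupOf L) ⟨fun k hk g => hn _ g.2 _ hk⟩ ψ S.surj).eq_bot_or_eq_top.imp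
    (fun e k hk => ⟨⟨k, hK hk⟩, e.le ⟨_, hk, rfl⟩, rfl⟩) fun e g hg => ?_
  obtain ⟨k, hk, e⟩ := e.ge (mem_top (ψ ⟨g, hg⟩))
  exact ⟨k, hk, k⁻¹ * ⟨g, hg⟩, by rw [SetLike.mem_coe, MonoidHom.mem_ker, map_mul, map_inv, e,
    inv_mul_cancel], rfl⟩

end LD

end Cfsg.Lib.Mon.Iv
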