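import Cfsg.Agent.Mon.IvTri

/-! The Ivanov amalgam: the structure of `O₂(N)`. -/

set_option autoImplicit false

namespace Cfsg.Lib.Mon.Iv

open Cfsg Subgroup Cfsg.Lib.Spor Cfsg.Lib.Spor.CK Cfsg.Lib.SporChar Cfsg.Lib.SporChar.Co
open scoped commutatorElement

variable {X : Type*} [Group X] {ι : GH →* X} {N N1 O : Subgroup X} {ρ : X}

theorem finite_of_le {K : Subgroup X} (h : K ≤ ι.range) : Finite K :=
  (Set.finite_range ι).subset h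

theorem exists_even {p q : ℕ} (h : p % 2 = q % 2) : ∃ r, r % 2 = 0 ∧ pq p = pq q * pq r :=
  ⟨pmul (pmul q (pmul q q)) p, by
    have k := pmul_mod (pmul q (pmul q q)) p
    rw [pmul_mod q, pmul_mod q, Nat.xor_self, Nat.xor_zero, ← Nat.xor_mod_two_pow] at k
    have k1 : (q ^^^ p) % 2 = 0 := by
      rw [show (q ^^^ p) % 2 = _ from Nat.xor_mod_two_pow (n := 1), pow_one, h, Nat.xor_self]
    omega, by rw [← pq_mul (pmul _ _), ← pq_inv, mul_inv_cancel_left]⟩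

namespace Base

variable (T : Base ι)
include T

theorem exists_neg : ∃ k, ι k = 1 ∧ pr k = co0Neg := by
  rcases T.hc with e | e
  · exact ⟨cc, e, pr_cc⟩
  · exact ⟨pq pZ * cc, by rw [map_mul, e, ← map_mul, pZ_mul_pZ, map_one],
      by rw [map_mul, pr_pq, pr_cc, one_mul]⟩

theorem exists_pq {g : GH} (h : pr g ∈ center Co0) : ∃ p < 2 ^ 25, ι g = ι (pq p) := by
  rcases mem_center_Co0.1 h with e | e
  · obtain ⟨p, hp, rfl⟩ := mem_QH.1 e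
    exact ⟨p, hp, rfl⟩
  · obtain ⟨k, h1, h2⟩ := T.exists_neg
    obtain ⟨p, hp, e⟩ := mem_QH.1 (show g * k ∈ QH by rw [mem_QH', map_mul, e, h2, co0Neg_mul_self])
    exact ⟨p, hp, by rw [← e, map_mul, h1, mul_one]⟩

theorem center_of_one {g : GH} (h : ι g = 1) : pr g ∈ center Co0 :=
  center_of_φ fun p => by
    rw [← φ_mod, T.φ_fix (Nat.mod_lt _ (by norm_num)) (by rw [h, one_mul, mul_one])]; omega

theorem comap_Q : (QH.map ι).comap ι = (center Co0).comap pr := by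
  ext g
  refine ⟨fun ⟨q, hq, e⟩ => ?_, fun h => ?_⟩
  · have := T.center_of_one (g := q⁻¹ * g) (by rw [map_mul, map_inv, e, inv_mul_cancel])
    rwa [map_mul, map_inv, mem_QH'.1 hq, inv_one, one_mul] at this
  · obtain ⟨p, -, e⟩ := T.exists_pq h
    exact ⟨_, pq_mem_QH p, e.symm⟩

end Base

/-- The data of the parabolic `N` after the identification of `N ∩ C`. -/
structure St (ι : GH →* X) (N N1 O : Subgroup X) (ρ : X) : Prop extends Base ι where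
  O_le : O ≤ N1
  N1_le : N1 ≤ N
  N1_rg : N1 ≤ ι.range
  nO : ∀ x ∈ N, ∀ o ∈ O, x * o * x⁻¹ ∈ O
  nN1 : ∀ x ∈ N, ∀ o ∈ N1, x * o * x⁻¹ ∈ N1
  two : ∀ g h, ι g ∈ N → ι h ∈ N → ι g ∉ N1 → ι h ∉ N1 → ι g * ι h ∈ N1
  mono : (N.comap ι).map pr = monoSub
  hO : ∀ g, ι g ∈ O ↔ ι g ∈ N1 ∧ pr g ∈ A0
  ex : ∃ g, ι g ∈ N ∧ pr g ∈ A0 ∧ ι g ∉ N1
  ρN : ρ ∈ N
  ρ3 : ρ ^ 3 = 1
  aN : ι (el rU0) ∈ N1
  ha : ρ * ι (el rU0) = ι (el rU0) * ρ
  inv : ∀ g, ι g ∈ N → pr g ∈ A0 → ι g ∉ N1 → ι g * ρ * (ι g)⁻¹ * ρ ∈ O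
  H2 : ¬ ∀ o ∈ O, o * ρ = ρ * o
  cov : ∀ x ∈ N, x ∈ ι.range ∨ ρ * x ∈ ι.range ∨ ρ⁻¹ * x ∈ ι.range

namespace St

variable (T : St ι N N1 O ρ)
include T

theorem symm : St ι N N1 O ρ⁻¹ :=
  { T with
    ρN := inv_mem T.ρN
    ρ3 := by rw [inv_pow, T.ρ3, inv_one]
    ha := (Commute.inv_left T.ha).eq
    inv := fun g a b c => by
      have := T.nO _ T.ρN _ (inv_mem (T.inv g a b c))
      convert this using 1; group
    H2 := fun h => T.H2 fun o ho => (Commute.inv_right_iff.1 (h o ho)).eq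
    cov := fun x hx => by rw [inv_inv]; exact (T.cov x hx).imp id Or.symm }

theorem O_N : O ≤ N := T.O_le.trans T.N1_le

theorem O_rg : O ≤ ι.range := T.O_le.trans T.N1_rg

theorem aN' : ι (el rU0) ∈ N := T.N1_le T.aN

theorem not_mem {x y : X} (hx : x ∈ N) (hy : y ∉ N1) : x * y * x⁻¹ ∉ N1 := fun h => hy (by
  simpa [mul_assoc] using T.nN1 _ (inv_mem hx) _ h)

theorem comm_mem {g h : GH} (hg : ι g ∈ N) (hh : ι h ∈ N) : ι ⁅g, h⁆ ∈ N1 := by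
  rw [map_commutatorElement, commutatorElement_def]
  by_cases a : ι h ∈ N1
  · exact mul_mem (T.nN1 _ hg _ a) (inv_mem a)
  · have := T.two (g * h * g⁻¹) h⁻¹
    simp only [map_mul, map_inv] at this
    exact this (mul_mem (mul_mem hg hh) (inv_mem hg)) (inv_mem hh) (T.not_mem hg a)
      fun k => a (inv_mem_iff.1 k)

theorem pq_O {p : ℕ} (h : ι (pq p) ∈ N1) : ι (pq p) ∈ O := (T.hO _).2 ⟨h, pr_pq p ▸ one_mem _⟩

theorem irr {K : Subgroup X} (hK : K ≤ O) (hi : ∀ x ∈ K, ι (el rU0) * x * (ι (el rU0))⁻¹ ∈ K)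
    {g : GH} (hg : ι g ∈ K) (hc : pr g ∉ center Co0) {b : Co0} (hb : b ∈ A0) :
    ∃ g, ι g ∈ K ∧ pr g = b := by
  obtain ⟨k, h1, h2⟩ := T.exists_neg
  exact (irrA (K := (K.comap ι).map pr) (by rintro _ ⟨g, hg, rfl⟩; exact ((T.hO g).1 (hK hg)).2)
    ⟨k, mem_comap.2 (h1 ▸ one_mem _), h2⟩ (by
      rintro _ ⟨g, hg, rfl⟩
      exact ⟨el rU0 * g * (el rU0)⁻¹, by simpa using hi _ hg, by simp⟩)
    fun e => hc (e ⟨g, hg, rfl⟩)).ge hb

theorem cover {b : Co0} (hb : b ∈ A0) : ∃ g, ι g ∈ O ∧ pr g = b := by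
  obtain ⟨g, h1, h2⟩ := T.mono.ge (A0_le Yb_A0)
  by_cases e : ι g ∈ N1
  · exact T.irr le_rfl (T.nO _ T.aN') ((T.hO g).2 ⟨e, h2 ▸ Yb_A0⟩) (h2 ▸ Yb_center) hb
  refine T.irr le_rfl (T.nO _ T.aN') (g := ⁅el rU0, g⁆) ((T.hO _).2 ⟨T.comm_mem T.aN' h1, ?_⟩)
    (fun k => Yb_center ?_) hb
  · rw [map_commutatorElement, h2]
    exact mul_mem (conj_mem_A0 U0_mono Yb_A0) (inv_mem Yb_A0)
  · rw [map_commutatorElement, h2] at k
    exact C23' u_pow u_ne (k := 1) (by rw [pow_one, sq, A0_sq Yb_A0]) k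

theorem exists_e : ∃ e, ι (pq e) ∈ N ∧ ι (pq e) ∉ N1 := by
  obtain ⟨g, h1, h2, h3⟩ := T.ex
  obtain ⟨f, h4, h5⟩ := T.cover h2
  obtain ⟨e, -, he⟩ := mem_QH.1 (show f⁻¹ * g ∈ QH by rw [mem_QH', map_mul, map_inv, h5, inv_mul_cancel])
  refine ⟨e, ?_, fun k => h3 ?_⟩ <;> rw [← he, map_mul, map_inv] at *
  exacts [mul_mem (inv_mem (T.O_N h4)) h1, (mul_mem_cancel_left (inv_mem (T.O_le h4))).1 k]

theorem horU {p : ℕ} (hp : p % 4096 = 0) (h : ι (pq p) ∈ O) :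
    ∃ q < 2 ^ 25, ρ * ι (pq p) * ρ⁻¹ = ι (pq q) := by
  have h1 := T.nO _ T.ρN _ h
  obtain ⟨y, hy⟩ := T.O_rg h1
  rw [← hy] at h1 ⊢
  refine T.exists_pq (hor_A0 ((T.hO y).1 h1).2 (hor_map pr _ _ _ ▸ T.center_of_one ?_))
  rw [hor_map, hy, hor_conj T.ha, ← hor_map, hor_diag hp, map_one, mul_one, mul_inv_cancel]

theorem exists_fix (h : ∀ p, ι (pq p) ∈ O → ∃ q < 2 ^ 25, ρ * ι (pq p) * ρ⁻¹ = ι (pq q)) :
    ∃ g, ι g ∈ O ⊓ centralizer {ρ} ∧ pr g ∉ center Co0 := by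
  by_contra! hn
  have := finite_of_le T.O_rg
  have := finite_of_le (inf_le_left.trans T.O_rg : O ⊓ QH.map ι ≤ _)
  have h3 : IsPGroup 3 (zpowers ρ) := fun ⟨_, k, e⟩ => ⟨1, Subtype.ext (by
    subst e
    change (ρ ^ k) ^ 3 ^ 1 = 1
    rw [pow_one, ← zpow_natCast, ← zpow_mul, mul_comm, zpow_mul, zpow_natCast, T.ρ3, one_zpow])⟩
  have k1 := Solv.card_modEq_card_inf_centralizer (L := O) h3
    (zpowers_le_of_mem (mem_normalizer_fintype (T.nO _ T.ρN)))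
  have k2 := Solv.card_modEq_card_inf_centralizer (L := O ⊓ QH.map ι) h3
    (zpowers_le_of_mem (mem_normalizer_fintype (by
      rintro _ ⟨a, g, hg, rfl⟩
      obtain ⟨p, -, rfl⟩ := mem_QH.1 hg
      obtain ⟨q, -, e⟩ := h p a
      exact ⟨T.nO _ T.ρN _ a, _, pq_mem_QH q, e.symm⟩)))
  rw [show O ⊓ QH.map ι ⊓ centralizer (zpowers ρ : Set X) = O ⊓ centralizer (zpowers ρ : Set X) from
    le_antisymm (inf_le_inf_right _ inf_le_left) fun x hx => ⟨⟨hx.1, by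
      obtain ⟨g, rfl⟩ := T.O_rg hx.1
      exact T.comap_Q.ge (hn g ⟨hx.1, mem_centralizer_singleton_iff.2
        (hx.2 ρ (mem_zpowers ρ)).symm⟩)⟩, hx.2⟩] at k2
  have k3 : (QH.map ι).relIndex O = 2048 := by
    have := card_mul_rel (center_le neg_mem_A0)
    rw [card_center, card_A0] at this
    rw [← map_comap_eq_self T.O_rg, ← relIndex_comap, T.comap_Q, relIndex_comap,
      show (O.comap ι).map pr = A0 from le_antisymm
        (by rintro _ ⟨g, hg, rfl⟩; exact ((T.hO g).1 hg).2) fun _ => T.cover]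
    omega
  have k4 := card_inf_mul (QH.map ι) O
  obtain ⟨n, e⟩ := IsPGroup.iff_card.1
    (((IsPGroup.of_card card_QH).map ι).to_le (inf_le_right : O ⊓ QH.map ι ≤ _))
  have k5 := k1.trans k2.symm
  rw [← k4, k3, e] at k5
  have k6 : ¬ 3 ∣ 2 ^ n := fun k => absurd (Nat.prime_three.dvd_of_dvd_pow k) (by norm_num)
  unfold Nat.ModEq at k5
  omega

theorem inv_K : ∀ x ∈ O ⊓ centralizer {ρ}, ι (el rU0) * x * (ι (el rU0))⁻¹ ∈ O ⊓ centralizer {ρ} :=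
  fun x hx => mem_inf.2 ⟨T.nO _ T.aN' _ hx.1, by
    have := mem_centralizer_singleton_iff.2 T.ha.symm
    exact mul_mem (mul_mem this (mem_inf.1 hx).2) (inv_mem this)⟩

theorem final {g : GH} (hg : ι g ∈ O ⊓ centralizer {ρ}) (hc : pr g ∉ center Co0)
    (h : ∀ p, ι (pq p) ∈ O → ι (pq p) ∈ centralizer {ρ}) : False := by
  refine T.H2 fun o ho => mem_centralizer_singleton_iff.1 ?_
  obtain ⟨g, rfl⟩ := T.O_rg ho
  obtain ⟨f, h4, h5⟩ := T.irr inf_le_left T.inv_K hg hc ((T.hO g).1 ho).2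
  obtain ⟨e, -, he⟩ := mem_QH.1 (show f⁻¹ * g ∈ QH by rw [mem_QH', map_mul, map_inv, h5, inv_mul_cancel])
  have := h e
  rw [← he, map_mul, map_inv] at this
  exact (mul_mem_cancel_left (inv_mem (mem_inf.1 h4).2)).1
    (this (mul_mem (inv_mem (mem_inf.1 h4).1) ho))

theorem even_of {p : ℕ} (hp : p % 2 = 0) (h0 : p % 4096 ≠ 0) (h : ι (pq p) ∈ N) {q : ℕ}
    (hq : q % 2 = 0) : ι (pq q) ∈ O := by
  obtain ⟨y, h1, h2⟩ := T.cover Yb_A0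
  have h3 := T.O_N h1
  have k := lemY (K := N.comap ι) (fun k hk => by
    simpa using mul_mem (mul_mem T.aN' hk) (inv_mem T.aN')) h2
    (fun k hk => by simpa using mul_mem (mul_mem h3 hk) (inv_mem h3)) hp h0 h (q := 2) rfl
  have k1 := T.comm_mem T.aN' k
  rw [commutatorElement_def, conj_pq, pq_inv, pq_mul, φU] at k1
  exact lemY (K := O.comap ι) (fun k hk => by simpa using T.nO _ T.aN' _ hk) h2
    (fun k hk => by simpa using T.nO _ h3 _ hk) (by decide +kernel) (by decide +kernel)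
    (T.pq_O k1) hq

theorem exists_odd : ∃ p, p % 2 = 1 ∧ ι (pq p) ∈ N := by
  by_contra! hn
  obtain ⟨e, h1, h2⟩ := T.exists_e
  have hev : ∀ p, ι (pq p) ∈ N → p % 2 = 0 := fun p hp => by
    by_contra k
    exact hn p (by omega) hp
  have hd : ∀ p, ι (pq p) ∈ N → p % 4096 = 0 := fun p hp => by
    by_contra k
    exact h2 (T.O_le (T.even_of (hev p hp) k hp (hev e h1)))
  have hc : ∀ p, ι (pq p) ∈ O → ∃ q < 2 ^ 25, ρ * ι (pq p) * ρ⁻¹ = ι (pq q) := fun p hp =>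
    T.horU (hd p (T.O_N hp)) hp
  obtain ⟨g, h3, h4⟩ := T.exists_fix hc
  refine T.final h3 h4 fun p hp => mem_centralizer_singleton_iff.2 ?_
  have h5 := T.inv _ h1 (pr_pq e ▸ one_mem _) h2
  have cm : ∀ p q, ι (pq p) ∈ N → ι (pq q) ∈ N → ι (pq p) * ι (pq q) = ι (pq q) * ι (pq p) :=
    fun p q a b => by rw [← map_mul, pq_comm_diag (hd p a) (hd q b), map_mul]
  set o := ι (pq e) * ρ * (ι (pq e))⁻¹ * ρ with ho
  have k1 : ∀ p, ι (pq p) ∈ O → ∃ q, ι (pq q) ∈ O ∧ o * ι (pq p) * o⁻¹ = ι (pq q) ∧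
      ρ * (ρ * ι (pq p) * ρ⁻¹) * ρ⁻¹ = ι (pq q) := fun p hp => by
    obtain ⟨q, -, a⟩ := hc p hp
    have a' := a ▸ T.nO _ T.ρN _ hp
    obtain ⟨r, -, b⟩ := hc q a'
    have b' := b ▸ T.nO _ T.ρN _ a'
    refine ⟨r, b', ?_, by rw [a, b]⟩
    calc _ = ι (pq e) * ρ * (ι (pq e))⁻¹ * ((ρ * ι (pq p) * ρ⁻¹) * ι (pq e)) * ρ⁻¹ *
        (ι (pq e))⁻¹ := by rw [ho]; group
      _ = ι (pq e) * (ρ * ι (pq q) * ρ⁻¹) * (ι (pq e))⁻¹ := by
        rw [a, cm q e (T.O_N a') h1]; group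
      _ = _ := by rw [b, cm e r h1 (T.O_N b'), mul_inv_cancel_right]
  obtain ⟨q, a1, a2, a3⟩ := k1 p hp
  obtain ⟨r, -, b2, b3⟩ := k1 q a1
  obtain ⟨f, hf⟩ := T.O_rg h5
  obtain ⟨t, -, ht⟩ := mem_QH.1 (show f * f ∈ QH by
    rw [mem_QH', map_mul, A0_sq ((T.hO f).1 (hf ▸ h5)).2])
  have k2 : o * o = ι (pq t) := by rw [← ht, map_mul, hf]
  have k3 := cm t p (k2 ▸ T.O_N (mul_mem h5 h5)) (T.O_N hp)
  have k4 := T.ρ3
  simp only [pow_succ, pow_zero, one_mul] at k4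
  calc ι (pq p) * ρ = o * o * ι (pq p) * (o * o)⁻¹ * ρ := by rw [k2, k3, mul_inv_cancel_right]
    _ = o * (o * ι (pq p) * o⁻¹) * o⁻¹ * ρ := by group
    _ = ρ * ρ * ρ * (ρ * ι (pq p)) * (ρ * ρ * ρ)⁻¹ := by rw [a2, b2, ← b3, ← a3]; group
    _ = _ := by rw [k4]; group

theorem even {q : ℕ} (hq : q % 2 = 0) : ι (pq q) ∈ O := by
  obtain ⟨p, h1, h2⟩ := T.exists_odd
  obtain ⟨y, h3, h4⟩ := T.cover Yb_A0
  obtain ⟨r, h5, h6⟩ := odd_comm h4 h1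
  exact T.even_of (p := r) (by omega) (by omega) (h5 ▸ T.N1_le (T.comm_mem (T.O_N h3) h2)) hq

theorem odd {q : ℕ} (hq : q % 2 = 1) : ι (pq q) ∈ N ∧ ι (pq q) ∉ N1 := by
  obtain ⟨e, h1, h2⟩ := T.exists_e
  obtain ⟨r, h3, h4⟩ := exists_even (p := q) (q := e) (by
    by_contra k
    exact h2 (T.O_le (T.even (by omega))))
  have h5 := T.O_le (T.even h3)
  rw [h4, map_mul]
  exact ⟨mul_mem h1 (T.N1_le h5), fun k => h2 ((mul_mem_cancel_right h5).1 k)⟩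

theorem mem_N {g : GH} : ι g ∈ N ↔ pr g ∈ monoSub := by
  refine ⟨fun h => T.mono.le ⟨g, h, rfl⟩, fun h => ?_⟩
  obtain ⟨f, h4, h5⟩ := T.mono.ge h
  obtain ⟨e, -, he⟩ := mem_QH.1 (show f⁻¹ * g ∈ QH by rw [mem_QH', map_mul, map_inv, h5, inv_mul_cancel])
  rw [inv_mul_eq_iff_eq_mul.1 he, map_mul]
  refine mul_mem h4 ?_
  by_cases k : e % 2 = 0
  exacts [T.O_N (T.even k), (T.odd (by omega)).1]

theorem mem_N1 {g : GH} : ι g ∈ N1 ↔ g ∈ FxS [pZ1] := by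
  have hN : ∀ g ∈ FxS [pZ1], ι g ∈ N := fun g hg => T.mem_N.2 (pr_of_mem_N hg)
  have h1 : FxS [pZ1] ≤ N1.comap ι ⊓ FxS [pZ1] := N_le (fun e he => ⟨by
      obtain ⟨g, hg, k⟩ := commutator_EstS.ge ⟨e, he, rfl⟩
      obtain ⟨p, hp, k1⟩ := exists_pq_of_snd (g := g⁻¹ * e) (by
        rw [← pr_apply, map_mul, map_inv, k, inv_mul_cancel])
      have k2 := (pq_mem_Est hp).1 (k1 ▸ EstS.mul_mem (EstS.inv_mem
        (commutator_le_self _ hg)) he)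
      rw [inv_mul_eq_iff_eq_mul.1 k1]
      exact mul_mem ((commutator_le (H₃ := N1.comap ι)).2 (fun a ha b hb =>
        T.comm_mem (hN _ (Est.mem_N ha)) (hN _ (Est.mem_N hb))) hg)
        (T.O_le (T.even (by have := k2.2; omega))), Est.mem_N he⟩) (y := el rYb) ⟨by
      by_contra k
      have a1 := hN _ (Est.mem_N U1_est)
      have a2 := hN _ (Est.mem_N U2_est)
      have a3 := hN _ Yb_N
      have a4 := T.O_le (T.even (q := 1720320) rfl)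
      have a5 := T.two _ (el rU1 * el rYb * (el rU1)⁻¹) a3
      rw [← rel_U12] at a4
      simp only [map_mul, map_inv] at a4 a5
      exact T.not_mem a2 k ((mul_mem_cancel_left (a5 (mul_mem (mul_mem a1 a3) (inv_mem a1)) k
        (T.not_mem a1 k))).1 a4), Yb_N⟩ Yb_snd ⟨T.O_le (T.even rfl), pq_mem_N.2 rfl⟩
    ⟨T.O_le (T.even rfl), pq_mem_N.2 rfl⟩ ⟨T.O_le (T.even rfl), pq_mem_N.2 rfl⟩ inf_le_right
  refine ⟨fun h => (mem_FxS_one pZ1_lt).2 ((pr_mem_monoSub.1 (T.mem_N.1 (T.N1_le h))).resolve_right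
    fun k => (T.odd (q := pD) rfl).2 ?_), fun h => (h1 h).1⟩
  have := (mem_inf.1 (h1 ((mem_FxS_one pZ1_lt).2 (show φ (pq pD * g) pZ1 = pZ1 by
    rw [φ_mul, k, φ_pq _ (by decide)]; rfl)))).1
  rw [mem_comap, map_mul] at this
  exact (mul_mem_cancel_right h).1 this

end St

end Cfsg.Lib.Mon.Iv
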