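import Cfsg.Agent.Mon.IvO

/-! The Ivanov amalgam: construction of the triality element in `N`. -/

set_option autoImplicit false

namespace Cfsg.Lib.Mon.Iv

open Cfsg Subgroup Cfsg.Lib.Spor Cfsg.Lib.Spor.CK Cfsg.Lib.SporChar Cfsg.Lib.SporChar.Co
open scoped commutatorElement

variable {X : Type*} [Group X] {ι : GH →* X} {N N1 O : Subgroup X} {ρ : X}

/-- The codes of the four-group. -/
def V4 (q : ℕ) : Prop := q = 0 ∨ q = pZ ∨ q = pZ1 ∨ q = pZ2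

theorem V4.of_mod {q : ℕ} (hq : q < 2 ^ 25) (h : q % 2 ^ 24 = 0 ∨ q % 2 ^ 24 = 4096) : V4 q := by
  unfold V4 pZ pZ1 pZ2; omega

theorem V4.comm {v : ℕ} (h : V4 v) {g : GH} (hg : g ∈ FxS [pZ1]) : g * pq v = pq v * g := by
  rcases h with rfl | rfl | rfl | rfl
  exacts [by simp [pq_zero], pZ_comm g, mem_FxS_iff_comm.1 hg,
    mem_FxS_iff_comm.1 (mem_FxS_Z2.2 hg)]

theorem Z_Z1 (ι : GH →* X) : ι (pq pZ2) = ι (pq pZ) * ι (pq pZ1) := by rw [← map_mul, pq_mul]; rfl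

theorem tr_of {d : X} (T : Base ι) (h2 : d * ι (pq pZ) * d⁻¹ = ι (pq pZ2))
    (h3 : ι (el rU0) * d = d * ι (el rU0)) (h4 : d * d = 1) (hs : d * ι (pq pZ1) = ι (pq pZ1) * d)
    (ho : ∀ q, Ev q → d * ι (pq q) * d⁻¹ = ι (pq q) ∨ d * ι (pq q) * d⁻¹ = ι (pq pZ1) * ι (pq q))
    (hn : ∀ n ∈ FxS [pZ1], (ι (pq pD) * d)⁻¹ * ι n * (ι (pq pD) * d) ∈ ι.range)
    (hr : (ι (pq pD) * d) ^ 3 ∈ ι.range) : Tr ι (ι (pq pD) * d) := by
  have has : ι (el rU0) * ι (pq pZ1) = ι (pq pZ1) * ι (el rU0) := by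
    rw [← map_mul, mem_FxS_iff_comm.1 U0_N, map_mul]
  have hd : d⁻¹ = d := inv_eq_of_mul_eq_one_right h4
  have hE : ∀ p, Ev p → ι (pq p) * d = d * ι (pq p) := fun p hp' =>
    mem_centralizer_singleton_iff.1 (Ev.mem (T := (centralizer {d}).comap ι) (fun k hk => by
      obtain ⟨q, hq, k1⟩ := U0_pre k hk
      have k3 := (map_conj ι (el rU0) q).symm
      rw [mem_comap, mem_centralizer_singleton_iff, ← k1, ← pq_mul, map_mul, k3, eq_comm,
        ← mul_inv_eq_iff_eq_mul]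
      have k4 : d * (ι (el rU0) * ι (pq q) * (ι (el rU0))⁻¹ * ι (pq q)) * d⁻¹ =
          ι (el rU0) * (d * ι (pq q) * d⁻¹) * (ι (el rU0))⁻¹ * (d * ι (pq q) * d⁻¹) := by
        calc _ = d * ι (el rU0) * ι (pq q) * (d * ι (el rU0))⁻¹ * (d * ι (pq q) * d⁻¹) := by group
          _ = _ := by rw [← h3]; group
      rw [k4]
      rcases ho q hq with k | k
      · rw [k]
      · rw [k, ← mul_assoc (ι (el rU0)) (ι (pq pZ1)), has]
        have k5 : ι (pq (φ (el rU0) q)) * ι (pq pZ1) = ι (pq pZ1) * ι (pq (φ (el rU0) q)) := by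
          rw [← map_mul, pq_comm_diag (hq.φ U0_est).diag rfl, map_mul]
        calc _ = ι (pq pZ1) * (ι (el rU0) * ι (pq q) * (ι (el rU0))⁻¹ * ι (pq pZ1)) * ι (pq q) := by
              group
          _ = _ := by
            rw [← k3, k5, ← mul_assoc, ← map_mul, pq_sq_diag rfl, map_one, one_mul]) hp')
  refine ⟨T, hn, hr,
    diag_induction (by simp [pq_zero, show alp 0 = 0 from rfl]) fun k hk x _ _ ih => ?_, ?_, ?_⟩
  · rw [alp_xor, ← pmul_diag _ (pow_diag k), ← pmul_diag _ ((alp_mod _).trans (pow_diag k)),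
      ← pq_mul, ← pq_mul, map_mul, map_mul, ← ih]
    suffices k1 : (ι (pq pD) * d)⁻¹ * ι (pq (2 ^ (12 + k))) * (ι (pq pD) * d) =
        ι (pq (alp (2 ^ (12 + k)))) by rw [← k1]; group
    have k1 : (ι (pq pD) * d)⁻¹ * ι (pq (2 ^ (12 + k))) * (ι (pq pD) * d) =
        d * ι (pq (φ (pq pD) (2 ^ (12 + k)))) * d⁻¹ := by
      rw [← map_conj, mul_inv_rev, D_inv, hd]; group
    rw [k1, φ_pq _ (Nat.pow_lt_pow_right (by norm_num) (by omega))]
    by_cases h0 : k = 0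
    · rw [h0]; exact mul_inv_eq_iff_eq_mul.2 hs
    by_cases h12 : k = 12
    · rw [h12]; exact h2
    obtain ⟨k2, k3⟩ := (by decide : ∀ k < 13, k ≠ 0 → k ≠ 12 → Ev (2 ^ (12 + k)) ∧
      pcomm pD (2 ^ (12 + k)) = 0) k hk h0 h12
    rw [k2.alp, k3, Nat.zero_shiftLeft, Nat.xor_zero, ← hE _ k2, mul_inv_cancel_right]
  · calc _ = ι (pq pD) * d * (ι (pq pD) * ι (pq pD)) * d * ι (pq pD) := by rw [sq]; group
      _ = _ := by rw [D_sq, mul_one, mul_assoc _ d d, h4, mul_one, D_sq]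
  · rw [← mul_assoc, ← map_mul, mul_pq, φ_U0_D, map_mul, mul_assoc, h3, mul_assoc]

theorem conj_pq_or (ι : GH →* X) (r : ℕ) {q : ℕ} (hq : q < 2 ^ 25) :
    ι (pq r) * ι (pq q) * (ι (pq r))⁻¹ = ι (pq q) ∨
      ι (pq r) * ι (pq q) * (ι (pq r))⁻¹ = ι (pq pZ) * ι (pq q) := by
  rw [map_conj, φ_pq _ hq]
  rcases shl_cases r q with e | e <;> rw [e]
  · exact Or.inl (by rw [Nat.xor_zero])
  · exact Or.inr (by rw [pq_neg, map_mul])

theorem comm_of_sq3 {r x : X} (h : r ^ 3 = 1) (e : r * (r * x * r⁻¹) * r⁻¹ = x) : r * x = x * r := by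
  simp only [pow_succ, pow_zero, one_mul] at h
  calc r * x = r * (r * (r * x * r⁻¹) * r⁻¹) := by rw [e]
    _ = r * r * r * x * (r * r * r)⁻¹ * r := by group
    _ = _ := by rw [h]; group

namespace St

variable (T : St ι N N1 O ρ)
include T

theorem cent_V {o : X} (ho : o ∈ N1) {v : ℕ} (hv : V4 v) : o * ι (pq v) = ι (pq v) * o := by
  obtain ⟨g, rfl⟩ := T.N1_rg ho
  rw [← map_mul, hv.comm (T.mem_N1.1 ho), map_mul]

theorem conj_V {x : X} (hx : x ∈ N) {v : ℕ} (hv : v = pZ ∨ v = pZ1 ∨ v = pZ2) :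
    x * ι (pq v) * x⁻¹ = ι (pq pZ) ∨ x * ι (pq v) * x⁻¹ = ι (pq pZ1) ∨
      x * ι (pq v) * x⁻¹ = ι (pq pZ2) := by
  obtain ⟨y, hy⟩ := T.O_rg (T.nO _ hx _ (T.even (q := v) (by rcases hv with rfl | rfl | rfl <;> rfl)))
  obtain ⟨q, h1, h2⟩ := cent_even (g := y) fun p hp k => T.φ_fix hp (by
    have := T.cent_V (T.O_le (T.nO _ (inv_mem hx) _ (T.even k))) (Or.inr hv)
    rw [hy]
    calc _ = x * (ι (pq v) * (x⁻¹ * ι (pq p) * x⁻¹⁻¹)) * x⁻¹ := by group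
      _ = _ := by rw [← this]; group)
  obtain ⟨q', h3, h4⟩ : ∃ q', V4 q' ∧ ι y = ι (pq q') := by
    rcases h2 with rfl | rfl
    · exact ⟨q, h1, rfl⟩
    · rcases T.cc_mul q with e | e
      · exact ⟨q, h1, e⟩
      · exact ⟨_, by rcases h1 with rfl | rfl | rfl | rfl <;> unfold V4 <;> decide, e⟩
  rw [← hy, h4]
  rcases h3 with rfl | rfl | rfl | rfl
  · rw [h4, pq_zero, map_one, eq_comm, conj_eq_one_iff, ← map_one ι, ← pq_zero] at hy
    exact absurd (T.inj (by rcases hv with rfl | rfl | rfl <;> decide) (by decide) hy)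
      (by rcases hv with rfl | rfl | rfl <;> decide)
  all_goals simp

theorem moves : ρ * ι (pq pZ) ≠ ι (pq pZ) * ρ := fun hz => by
  have hz' := mul_inv_eq_iff_eq_mul.2 hz
  have h1 : ρ * ι (pq pZ1) = ι (pq pZ1) * ρ := by
    rcases T.conj_V T.ρN (v := pZ1) (by simp) with e | e | e
    · rw [← hz', mul_left_inj, mul_right_inj] at e
      exact absurd (T.inj (by decide) (by decide) e) (by decide)
    · exact mul_inv_eq_iff_eq_mul.1 e
    · refine comm_of_sq3 T.ρ3 ?_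
      rw [e, Z_Z1, ← conj_mul, hz', e, ← map_mul, pq_mul]; rfl
  have hV : ∀ v, V4 v → ρ * ι (pq v) = ι (pq v) * ρ := by
    rintro _ (rfl | rfl | rfl | rfl)
    exacts [by simp [pq_zero], hz, h1, Z_Z1 ι ▸ (Commute.mul_right hz h1).eq]
  obtain ⟨d1, d2⟩ := T.odd (q := pD) rfl
  have h2 : ι (pq pD) * ρ * (ι (pq pD))⁻¹ = ρ⁻¹ := by
    have k := T.inv _ d1 (pr_pq pD ▸ one_mem _) d2
    obtain ⟨f, hf⟩ := T.O_rg k
    have c1 : Commute (ι (el rU0)) (ι (pq pD)) := by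
      rw [Commute, SemiconjBy, ← map_mul, mul_pq, φ_U0_D, map_mul]
    have c2 : Commute (ι (el rU0)) (ι f) :=
      hf ▸ ((c1.mul_right T.ha.symm).mul_right c1.inv_right).mul_right T.ha.symm
    obtain ⟨q, hq, e⟩ := T.exists_pq (g := f) (C23' u_pow u_ne (k := 1)
      (by rw [pow_one, sq, A0_sq ((T.hO f).1 (hf ▸ k)).2]) (by
        have := T.center_of_one (g := ⁅el rU0, f⁆) (by rw [map_commutatorElement, c2.commutator_eq])
        rwa [map_commutatorElement] at this))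
    have c3 := T.φ_fix hq (e ▸ c2.eq)
    have c4 : q % 2 = 0 := by
      by_contra k1
      exact (T.odd (q := q) (by omega)).2 (e ▸ hf ▸ T.O_le k)
    have c5 : V4 q := V4.of_mod hq (by
      have := fixU (p := q) (by rw [c3])
      rw [show pD ^^^ 4096 = 0x8eb001 from rfl, pD] at this
      omega)
    have c6 : ι (pq q) * ι (pq q) = 1 := by
      rw [← map_mul, pq_sq_diag (by rcases c5 with rfl | rfl | rfl | rfl <;> rfl), map_one]
    have c7 : ι (pq pD) * ρ * (ι (pq pD))⁻¹ = ι (pq q) * ρ⁻¹ := by rw [← e, hf, mul_inv_cancel_right]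
    have c8 := congrArg (· ^ 3) c7
    simp only [conj_pow, T.ρ3] at c8
    rw [(Commute.inv_right (hV q c5).symm).mul_pow, inv_pow, T.ρ3, pow_succ, sq, c6] at c8
    rw [c7, show ι (pq q) = 1 by simpa using c8.symm, one_mul]
  by_cases hc : ∀ p, ι (pq p) ∈ O → ∃ q < 2 ^ 25, ρ * ι (pq p) * ρ⁻¹ = ι (pq q)
  · obtain ⟨g, h3, h4⟩ := T.exists_fix hc
    obtain ⟨y, h5, h6⟩ := T.irr inf_le_left T.inv_K h3 h4 Yb_A0
    obtain ⟨r, h7, h8⟩ := odd_comm h6 (p := pD) rfl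
    refine T.final h3 h4 fun p hp => (mem_inf.1 (lemY (K := (O ⊓ centralizer {ρ}).comap ι)
      (fun k hk => by simpa using T.inv_K _ hk) h6
      (fun k hk => by simpa using mul_mem (mul_mem h5 hk) (inv_mem h5)) (p := r) (by omega) (by omega)
      ?_ (by
        by_contra k
        exact (T.odd (q := p) (by omega)).2 (T.O_le hp)))).2
    rw [mem_comap, ← h7, mul_assoc y, mul_assoc y, map_mul]
    refine mul_mem h5 (mem_inf.2 ⟨by simpa using T.nO _ d1 _ (inv_mem h5.1), ?_⟩)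
    have k := mem_centralizer_singleton_iff.1 (inv_mem (mem_inf.1 h5).2)
    have k' : (ι (pq pD))⁻¹ * ρ * ι (pq pD) = ρ⁻¹ := by rw [← h2, D_inv]
    rw [mem_centralizer_singleton_iff, map_mul, map_mul, map_inv, map_inv]
    calc _ = ι (pq pD) * ((ι y)⁻¹ * ((ι (pq pD))⁻¹ * ρ * ι (pq pD))) * (ι (pq pD))⁻¹ := by group
      _ = ι (pq pD) * ((ι (pq pD))⁻¹ * ρ * ι (pq pD) * (ι y)⁻¹) * (ι (pq pD))⁻¹ := by
        rw [k', (Commute.inv_right k).eq]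
      _ = _ := by group
  · push Not at hc
    obtain ⟨p, h3, h4⟩ := hc
    obtain ⟨y, hy⟩ := T.O_rg (T.nO _ T.ρN _ h3)
    obtain ⟨q, hq, e⟩ := T.horU (p := 2 ^ 13) rfl (T.even rfl)
    have h5 := V4.of_mod hq (fixA0 fun b hb => by
      obtain ⟨g, ⟨_, ⟨a, f, hf, rfl⟩, k⟩, k'⟩ := T.irr
        (K := (O ⊓ QH.map ι).map (MulAut.conj ρ).toMonoidHom)
        (by rintro _ ⟨x, hx, rfl⟩; exact T.nO _ T.ρN _ hx.1) (by
          rintro _ ⟨_, ⟨a, f, hf, rfl⟩, rfl⟩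
          refine ⟨_, ⟨T.nO _ T.aN' _ a, _, QH_normal.conj_mem _ hf (el rU0), by simp⟩, ?_⟩
          change ρ * _ * ρ⁻¹ = _ * (ρ * _ * ρ⁻¹) * _
          calc _ = ρ * ι (el rU0) * ι f * (ρ * ι (el rU0))⁻¹ := by group
            _ = _ := by rw [T.ha]; group) (g := y) ⟨_, ⟨h3, _, pq_mem_QH p, rfl⟩, hy.symm⟩
        (fun k => by
          obtain ⟨r, hr, k⟩ := T.exists_pq k
          exact h4 r hr (hy.symm.trans k)) hb
      obtain ⟨r, -, rfl⟩ := mem_QH.1 hf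
      have k1 : ι g * ι (pq q) * (ι g)⁻¹ =
          ρ * (ι (pq r) * ι (pq (2 ^ 13)) * (ι (pq r))⁻¹) * ρ⁻¹ := by
        rw [← k, ← e]
        change ρ * _ * ρ⁻¹ * _ * (ρ * _ * ρ⁻¹)⁻¹ = _
        group
      rw [← φ_of_pr k']
      rcases conj_pq_or ι r (q := 2 ^ 13) (by norm_num) with k2 | k2 <;> rw [k2] at k1
      · rw [T.φ_eq hq (k1.trans e)]
      · rw [← conj_mul, hz', e, ← map_mul ι (pq pZ), ← pq_neg] at k1
        rw [T.φ_eq (xor_neg_lt hq) k1, xor_neg_mod])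
    rw [← mul_inv_eq_iff_eq_mul.2 (hV q h5), mul_left_inj, mul_right_inj] at e
    have := T.inj (by norm_num) hq e
    rcases h5 with rfl | rfl | rfl | rfl <;> exact absurd this (by decide)

theorem tr (h : ρ * ι (pq pZ) * ρ⁻¹ = ι (pq pZ1)) :
    ∃ o ∈ O, Tr ι (o * ρ) := by
  have h1 : ρ * ι (pq pZ1) * ρ⁻¹ = ι (pq pZ2) := by
    rcases T.conj_V T.ρN (v := pZ1) (by simp) with e | e | e
    · exact absurd (comm_of_sq3 T.ρ3 (by rw [h, e])) T.moves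
    · rw [← h, mul_left_inj, mul_right_inj, h] at e
      exact absurd (T.inj (by decide) (by decide) e) (by decide)
    · exact e
  have h2 : ρ * ι (pq pZ2) * ρ⁻¹ = ι (pq pZ) := by
    rw [Z_Z1, ← conj_mul, h, h1, ← map_mul, pq_mul]; rfl
  obtain ⟨d1, d2⟩ := T.odd (q := pD) rfl
  have k := T.inv _ d1 (pr_pq pD ▸ one_mem _) d2
  have h3 := T.ρ3
  simp only [pow_succ, pow_zero, one_mul] at h3
  have e : ι (pq pD) * (ρ * ι (pq pD) * ρ⁻¹) = ι (pq pD) * ρ * (ι (pq pD))⁻¹ * ρ * ρ := by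
    rw [D_inv]
    calc _ = ι (pq pD) * ρ * ι (pq pD) * ρ⁻¹ * 1 := by group
      _ = _ := by rw [← h3]; group
  have hτ := mul_mem (T.O_N k) T.ρN
  refine ⟨_, k, e ▸ tr_of T.toBase ?_ ?_ ?_ ?_ (fun q hq => ?_) (fun n hn => ?_) ?_⟩
  · calc _ = ρ * (ι (pq pD) * ι (pq pZ2) * (ι (pq pD))⁻¹) * ρ⁻¹ := by rw [← h2]; group
      _ = _ := by rw [map_conj, φ_pq _ (by decide), ← h1]; rfl
  · calc _ = ι (el rU0) * ρ * ι (pq pD) * ρ⁻¹ := by group
      _ = ρ * (ι (el rU0) * ι (pq pD)) * ρ⁻¹ := by rw [← T.ha]; group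
      _ = ρ * ι (pq pD) * ρ⁻¹ * (ρ * ι (el rU0)) * ρ⁻¹ := by
        rw [← map_mul, mul_pq, φ_U0_D, map_mul]; group
      _ = _ := by rw [T.ha]; group
  · rw [conj_mul, D_sq]; simp
  · rw [← h, conj_mul, conj_mul, ← map_mul, pZ_comm, map_mul]
  · obtain ⟨r, hr, k1⟩ := T.symm.horU hq.diag (T.even (by have := hq.2; omega))
    have k2 : ι (pq q) = ρ * ι (pq r) * ρ⁻¹ := by rw [← k1]; group
    have k3 : ρ * ι (pq pD) * ρ⁻¹ * ι (pq q) * (ρ * ι (pq pD) * ρ⁻¹)⁻¹ =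
        ρ * (ι (pq pD) * ι (pq r) * (ι (pq pD))⁻¹) * ρ⁻¹ := by rw [k2]; group
    rw [k3]
    refine (conj_pq_or ι pD hr).imp (fun k4 => ?_) fun k4 => ?_ <;> rw [k4, k2]
    rw [← conj_mul, h]
  · have := T.nN1 _ (inv_mem hτ) _ (T.mem_N1.2 hn)
    rw [inv_inv, ← e] at this
    exact T.N1_rg this
  · rw [e]
    generalize ι (pq pD) * ρ * (ι (pq pD))⁻¹ * ρ = o at k
    have := mul_mem (mul_mem k (T.nO _ T.ρN _ k)) (T.nO _ T.ρN _ (T.nO _ T.ρN _ k))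
    refine T.O_rg (by
      convert this using 1
      calc _ = o * (ρ * o * ρ⁻¹) * (ρ * (ρ * o * ρ⁻¹) * ρ⁻¹) * (ρ * ρ * ρ) := by
            simp only [pow_succ, pow_zero, one_mul]; group
        _ = _ := by rw [h3, mul_one])

theorem exists_pa : ∃ τ ∈ N, PA ι τ ∧
    ∀ x ∈ N, x ∈ ι.range ∨ τ * x ∈ ι.range ∨ τ⁻¹ * x ∈ ι.range := by
  have key : ∀ {ρ}, St ι N N1 O ρ → ρ * ι (pq pZ) * ρ⁻¹ = ι (pq pZ1) → ∃ τ ∈ N, PA ι τ ∧
      ∀ x ∈ N, x ∈ ι.range ∨ τ * x ∈ ι.range ∨ τ⁻¹ * x ∈ ι.range := fun {ρ} T h => by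
    obtain ⟨o, ho, k⟩ := T.tr h
    refine ⟨_, mul_mem (T.O_N ho) T.ρN, k.pa, fun x hx => (T.cov x hx).imp id (Or.imp (fun e => ?_)
      fun e => ?_)⟩
    · rw [mul_assoc]; exact mul_mem (T.O_rg ho) e
    · have := mul_mem (T.O_rg (T.nO _ (inv_mem T.ρN) _ (inv_mem ho))) e
      convert this using 1; group
  rcases T.conj_V T.ρN (v := pZ) (by simp) with e | e | e
  · exact absurd (mul_inv_eq_iff_eq_mul.1 e) T.moves
  · exact key T e
  rcases T.conj_V T.symm.ρN (v := pZ) (by simp) with e' | e' | e'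
  · exact absurd (mul_inv_eq_iff_eq_mul.1 e') T.symm.moves
  · exact key T.symm e'
  · refine absurd (comm_of_sq3 T.ρ3 ?_) T.moves
    have h3 := T.ρ3
    simp only [pow_succ, pow_zero, one_mul] at h3
    calc _ = ρ * (ρ⁻¹ * ι (pq pZ) * ρ⁻¹⁻¹) * ρ⁻¹ := by rw [e, e']
      _ = _ := by group

end St

end Cfsg.Lib.Mon.Iv
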