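import Cfsg.Agent.Mon.IvHor

/-! The Ivanov amalgam: the triality element. -/

set_option autoImplicit false

namespace Cfsg.Lib.Mon.Iv

open Cfsg Subgroup Cfsg.Lib.Spor Cfsg.Lib.Spor.CK Cfsg.Lib.SporChar
open scoped commutatorElement

variable {X : Type*} [Group X] {ι : GH →* X} {τ : X}

/-- `ι` is faithful on `Q` and kills an element over `-1`. -/
structure Base (ι : GH →* X) : Prop where
  inj : ∀ {p q}, p < 2 ^ 25 → q < 2 ^ 25 → ι (pq p) = ι (pq q) → p = q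
  hc : ι cc = 1 ∨ ι cc = ι (pq pZ)

theorem map_conj (ι : GH →* X) (g : GH) (p : ℕ) : ι g * ι (pq p) * (ι g)⁻¹ = ι (pq (φ g p)) := by
  rw [← conj_pq, map_mul, map_mul, map_inv]

/-- Twisting by an inner automorphism. -/
noncomputable def tw (ι : GH →* X) (e : GH) : GH →* X := ι.comp (MulAut.conj e).toMonoidHom

theorem tw_apply' (ι : GH →* X) (e g : GH) : tw ι e g = ι (e * g * e⁻¹) := rfl

theorem tw_apply (ι : GH →* X) (e g : GH) : tw ι e g = ι e * ι g * (ι e)⁻¹ := by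
  rw [tw_apply', map_mul, map_mul, map_inv]

theorem tw_pq (ι : GH →* X) (e : GH) (p : ℕ) : tw ι e (pq p) = ι (pq (φ e p)) := by
  rw [tw_apply, map_conj]

theorem tw_range (ι : GH →* X) (e : GH) : (tw ι e).range = ι.range :=
  le_antisymm (fun _ ⟨_, h⟩ => ⟨_, h⟩) fun _ ⟨g, h⟩ => ⟨e⁻¹ * g * e, by
    rw [tw_apply', ← h]; congr 1; group⟩

namespace Base

variable (T : Base ι)
include T

theorem twist (e : GH) : Base (tw ι e) :=
  ⟨fun hp hq h => φ_inj e hp hq (T.inj (φ_lt _ _) (φ_lt _ _) (by rwa [tw_pq, tw_pq] at h)), by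
    rw [tw_pq, φ_pZ, tw_apply', cc_comm, mul_inv_cancel_right]; exact T.hc⟩

theorem φ_eq {g : GH} {p q : ℕ} (hq : q < 2 ^ 25) (h : ι g * ι (pq p) * (ι g)⁻¹ = ι (pq q)) :
    φ g p = q := T.inj (φ_lt _ _) hq (by rw [← map_conj, h])

theorem φ_fix {g : GH} {p : ℕ} (hp : p < 2 ^ 25) (h : ι g * ι (pq p) = ι (pq p) * ι g) :
    φ g p = p := T.φ_eq hp (by rw [h, mul_inv_cancel_right])

theorem cc_mul (q : ℕ) : ι (cc * pq q) = ι (pq q) ∨ ι (cc * pq q) = ι (pq (q ^^^ 2 ^ 24)) :=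
  T.hc.imp (fun k => by rw [map_mul, k, one_mul]) fun k => by rw [pq_neg, map_mul, map_mul, k]

theorem of_comm {x : X} (hx : x ∈ ι.range)
    (h : ∀ p < 2 ^ 25, p % 4096 = 0 → x * ι (pq p) = ι (pq p) * x) :
    ∃ q < 2 ^ 25, q % 4096 = 0 ∧ x = ι (pq q) := by
  obtain ⟨g, rfl⟩ := hx
  obtain ⟨q, h1, h2, e | e⟩ := of_fix_diag (g := g) fun p hp k => T.φ_fix hp (h p hp k)
  · exact ⟨q, h1, h2, by rw [e]⟩
  · rcases T.cc_mul q with k | k
    · exact ⟨q, h1, h2, by rw [e, k]⟩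
    · exact ⟨_, xor_neg_lt h1, xor_diag h2 rfl, by rw [e, k]⟩

theorem z_ne : ι (pq pZ) ≠ 1 := fun k =>
  absurd (T.inj (q := 0) (by decide) (by decide) (k.trans (by rw [pq_zero, map_one]))) (by decide)

end Base

/-- The Monster amalgam without the triangle relation. -/
structure PA (ι : GH →* X) (τ : X) : Prop where
  ker : ι.ker = zpowers cc
  hN : ∀ p ∈ NP, τ⁻¹ * ι p.1 * τ = ι p.2
  h2 : (τ * ι (pq pD)) ^ 2 = 1
  h3 : τ ^ 3 = 1

/-- The properties of the triality element. -/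
structure Tr (ι : GH →* X) (τ : X) : Prop extends Base ι where
  hn : ∀ n ∈ FxS [pZ1], τ⁻¹ * ι n * τ ∈ ι.range
  h3r : τ ^ 3 ∈ ι.range
  diag : ∀ p < 2 ^ 25, p % 4096 = 0 → τ⁻¹ * ι (pq p) * τ = ι (pq (alp p))
  h2 : (τ * ι (pq pD)) ^ 2 = 1
  ha : ι (el rU0) * τ = τ * ι (el rU0)

namespace Tr

variable (T : Tr ι τ)
include T

theorem conj_NP {n m : GH} (h : (n, m) ∈ NP) :
    ∃ q < 2 ^ 25, q % 4096 = 0 ∧ τ⁻¹ * ι n * τ = ι (pq q) * ι m := by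
  obtain ⟨q, h1, h2, e⟩ := T.of_comm (x := τ⁻¹ * ι n⁻¹ * τ * ι m)
    (mul_mem (T.hn _ (inv_mem (NP_fst h))) ⟨m, rfl⟩) fun p hp k => by
    have k1 := alp_lt (alp_lt hp)
    have k2 : alp (alp p) % 4096 = 0 := by rw [alp_mod, alp_mod, k]
    obtain ⟨k3, k4⟩ := NP_φ h k1 k2
    have k5 := T.diag _ (φ_lt _ _) k3
    rw [← k4, ← conj_pq, ← conj_pq, alp_alp_alp p hp k] at k5
    have k6 := T.diag _ k1 k2
    rw [alp_alp_alp p hp k] at k6
    simp only [map_mul, map_inv] at k5 ⊢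
    calc _ = τ⁻¹ * (ι n)⁻¹ * τ * (ι m * ι (pq p) * (ι m)⁻¹) * ι m := by group
      _ = _ := by rw [← k5, ← k6]; group
  have k : φ m q % 4096 = 0 := φ_diag (NP_snd h) h2
  refine ⟨_, φ_lt m q, k, ?_⟩
  have k1 : ι (pq q) = (ι (pq q))⁻¹ := by
    rw [← map_inv, inv_eq_of_mul_eq_one_right (pq_sq_diag h2)]
  rw [← map_mul, ← mul_pq, map_mul, k1, ← e, map_inv]; group

theorem h3 : τ ^ 3 = 1 := by
  obtain ⟨q, h1, h2, e⟩ := T.of_comm T.h3r fun p hp k => by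
    have k1 := T.diag _ hp k
    have k2 := T.diag _ (alp_lt hp) ((alp_mod _).trans k)
    have k3 := T.diag _ (alp_lt (alp_lt hp)) (by rw [alp_mod, alp_mod, k])
    rw [alp_alp_alp p hp k, ← k2, ← k1] at k3
    calc _ = τ ^ 3 * (τ⁻¹ * (τ⁻¹ * (τ⁻¹ * ι (pq p) * τ) * τ) * τ) := by rw [k3]
      _ = _ := by simp only [pow_succ, pow_zero]; group
  have k1 : alp q = q := T.inj (alp_lt h1) h1 (by rw [← T.diag q h1 h2, ← e]; group)
  have k2 : φ (el rU0) q = q := T.φ_fix h1 (by rw [← e, (Commute.pow_right T.ha 3).eq])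
  rw [e, U0_fpf (diag_cases (P := fun q => alp q = q → Ev q) (by decide +kernel) h1 h2 k1) k2,
    pq_zero, map_one]

theorem comm_Est {e : GH} (he : e ∈ Est) : τ⁻¹ * ι e * τ = ι e := by
  have key : ∀ e ∈ EstS, ∃ q, q % 4096 = 0 ∧ (∀ e' ∈ EstS, Commute (ι (pq q)) (ι e')) ∧
      τ⁻¹ * ι e * τ = ι (pq q) * ι e := by
    intro e he
    obtain ⟨q, h1, h2, k⟩ := T.conj_NP (NP_Est he)
    refine ⟨q, h2, fun e' he' => Commute.map (mem_FxS_iff_comm.1 ?_).symm ι, k⟩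
    have k1 := T.diag _ h1 h2
    have k3 : τ⁻¹ * (τ⁻¹ * (τ⁻¹ * ι e * τ) * τ) * τ = 1 * ι e := by
      calc _ = (τ ^ 3)⁻¹ * ι e * τ ^ 3 := by simp only [pow_succ, pow_zero]; group
        _ = _ := by rw [T.h3]; group
    rw [k, conj_mul' τ (ι (pq q)), k1, k, conj_mul' τ (ι (pq (alp q))), conj_mul' τ (ι (pq q)),
      T.diag _ (alp_lt h1) ((alp_mod _).trans h2), k1, k, ← mul_assoc, ← mul_assoc, mul_left_inj,
      ← map_mul, ← map_mul, pq_mul, pq_mul, ← map_one ι, ← pq_zero] at k3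
    rcases diag_cases (P := fun q => pmul (pmul (alp (alp q)) (alp q)) q = 0 →
      q = 0 ∨ q = pZ ∨ q = pZ1 ∨ q = pZ2) (by decide +kernel) h1 h2
      (T.inj (pmul_lt (pmul_lt (alp_lt (alp_lt h1)) (alp_lt h1)) h1) (by decide) k3) with
      rfl | rfl | rfl | rfl
    exacts [(mem_FxS_one h1).2 (φ_zero _), mem_FxS_pZ _, Est.mem_N he',
      mem_FxS_Z2.2 (Est.mem_N he')]
  have h1 : ∀ g ∈ (⁅EstS, EstS⁆ : Subgroup GH), ι g * τ = τ * ι g := fun g hg =>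
    mem_centralizer_singleton_iff.1 ((commutator_le (H₃ := (centralizer {τ}).comap ι)).2
      (fun a ha b hb => by
        obtain ⟨p, a1, a2, a3⟩ := key a ha
        obtain ⟨q, b1, b2, b3⟩ := key b hb
        have := comm_central (a2 a ha) (a2 b hb) (Commute.map (pq_comm_diag a1 b1) ι) (b2 a ha)
          (b2 b hb)
        rw [mem_comap, mem_centralizer_singleton_iff, map_commutatorElement, ← inv_mul_eq_iff_eq_mul,
          ← mul_assoc]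
        refine Eq.trans ?_ this
        rw [← a3, ← b3, commutatorElement_def, commutatorElement_def]; group) hg)
  obtain ⟨g, hg, k⟩ := commutator_EstS.ge ⟨e, he, rfl⟩
  obtain ⟨p, hp, k1⟩ := exists_pq_of_snd (g := g⁻¹ * e) (by
    rw [← pr_apply, map_mul, map_inv, k, inv_mul_cancel])
  have k2 := (pq_mem_Est hp).1 (k1 ▸ EstS.mul_mem (EstS.inv_mem
    (commutator_le_self _ hg)) he)
  have k3 := T.diag p hp k2.diag
  rw [inv_mul_eq_iff_eq_mul] at k1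
  rw [k1, map_mul, conj_mul', k3, k2.alp, mul_assoc _ (ι g), h1 g hg, inv_mul_cancel_left]

theorem conj_y : τ⁻¹ * ι (el rYb) * τ = ι (pq pXb) := by
  obtain ⟨c, h1, h2, k⟩ := T.conj_NP NP_yb
  rw [← map_mul, pq_mul] at k
  have h3 : ∀ e ∈ Est, τ⁻¹ * ι (e * el rYb * e⁻¹) * τ = ι (pq (pmul (φ e c) (φ e pXb))) :=
    fun e he => by
      rw [map_mul, map_mul, conj_mul', conj_mul', k, T.comm_Est he, T.comm_Est (EstS.inv_mem he),
        ← map_mul, ← map_mul, conj_pq, φ_pmul]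
  have h4 := T.diag 1720320 (by decide) rfl
  rw [← rel_U12, map_mul, map_mul, conj_mul', conj_mul', h3 _ U1_est, h3 _ U2_est, k, ← map_mul,
    ← map_mul, pq_mul, pq_mul, φ_U1_b, φ_U2_b] at h4
  rw [k, uniq_U12 h1 h2 (T.inj (pmul_lt (pmul_lt (pmul_lt h1 (by decide))
    (pmul_lt (φ_lt _ _) (by decide))) (pmul_lt (φ_lt _ _) (by decide))) (by decide) h4)]
  rfl

theorem map_cc : ι cc = 1 := by
  have h3 : ∀ e ∈ Est, τ⁻¹ * ι (e * el rYb * e⁻¹) * τ = ι (pq (φ e pXb)) := fun e he => by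
    rw [map_mul, map_mul, conj_mul', conj_mul', T.conj_y, T.comm_Est he,
      T.comm_Est (EstS.inv_mem he), ← map_mul, ← map_mul, conj_pq]
  have h4 := congrArg (τ⁻¹ * ι · * τ) rel_U34
  rw [map_mul, map_mul, map_mul ι cc, conj_mul', conj_mul', conj_mul', h3 _ U3_est, h3 _ U4_est,
    T.conj_y, T.diag _ (by decide) rfl, ← map_mul, ← map_mul, pq_mul, pq_mul, φ_U3_b, φ_U4_b] at h4
  have := mul_eq_right.1 (show τ⁻¹ * ι cc * τ * ι (pq pZ2) = ι (pq pZ2) from h4.symm)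
  calc _ = τ * (τ⁻¹ * ι cc * τ) * τ⁻¹ := by group
    _ = _ := by rw [this]; group

theorem ker : ι.ker = zpowers cc := by
  refine le_antisymm (fun g hg => mem_zpowers_cc.2 ?_) (zpowers_le_of_mem T.map_cc)
  rw [MonoidHom.mem_ker] at hg
  rcases of_φ_trivial (g := g) fun k hk => T.φ_fix (pow_lt_25 hk) (by rw [hg]; group) with
    rfl | rfl | rfl | rfl
  exacts [Or.inl rfl, absurd hg T.z_ne, Or.inr rfl,
    absurd (by rwa [map_mul, T.map_cc, mul_one] at hg) T.z_ne]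

end Tr

theorem D_sq (ι : GH →* X) : ι (pq pD) * ι (pq pD) = 1 := by
  rw [← map_mul, pq_mul, show pmul pD pD = 0 from rfl, pq_zero, map_one]

theorem D_inv (ι : GH →* X) : (ι (pq pD))⁻¹ = ι (pq pD) := inv_eq_of_mul_eq_one_right (D_sq ι)

theorem conj_D (h : (τ * ι (pq pD)) ^ 2 = 1) : ι (pq pD) * τ * (ι (pq pD))⁻¹ = τ⁻¹ := by
  rw [D_inv, eq_comm, inv_eq_iff_mul_eq_one, ← h, sq]; group

namespace Tr

variable (T : Tr ι τ)
include T

theorem conj_x : τ⁻¹ * ι (pq pXb) * τ = ι (el rZb) := by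
  have h1 : ι ((pq pZ2)⁻¹ * (pq pD * el rYb * (pq pD)⁻¹)) = ι (el rZb) := by
    rcases rel_Zb with k | k <;> rw [k]
    rw [map_mul, T.map_cc, one_mul]
  have h2 : ι (pq pD) * ι (pq pXb) * (ι (pq pD))⁻¹ = ι (pq pZ) * ι (pq pXb) := by
    rw [map_conj, φ_pq _ (by decide), ← map_mul, pq_mul]; rfl
  rw [← h1, map_mul, map_mul, map_mul, map_inv, map_inv, eq_inv_mul_iff_mul_eq,
    ← show _ = ι (pq pZ2) from T.diag pZ (by decide) rfl, ← conj_mul', ← h2, ← T.conj_y]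
  calc _ = τ⁻¹ * ι (pq pD) * (τ⁻¹ * ι (el rYb) * τ) * (τ⁻¹ * ι (pq pD))⁻¹ := by group
    _ = _ := by rw [← mul_inv_eq_iff_eq_mul.1 (conj_D T.h2)]; group

theorem pa : PA ι τ := ⟨T.ker, fun _ hp =>
  NP_induction (T := ((MulAut.conj τ⁻¹).toMonoidHom.comp (ι.comp (MonoidHom.fst _ _))).eqLocus
    (ι.comp (MonoidHom.snd _ _))) (by simpa [MonoidHom.eqLocus] using T.comm_Est S1_mem.1)
    (by simpa [MonoidHom.eqLocus] using T.comm_Est S2_mem.1)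
    (by simpa [MonoidHom.eqLocus] using T.comm_Est pT_mem_Est)
    (by simpa [MonoidHom.eqLocus] using T.conj_y) (by simpa [MonoidHom.eqLocus] using T.conj_x)
    (by simp [MonoidHom.eqLocus, T.map_cc]) (by simp [MonoidHom.eqLocus, T.map_cc]) hp |>
    fun h => by simpa [MonoidHom.eqLocus] using h, T.h2, T.h3⟩

end Tr

namespace PA

variable (T : PA ι τ)
include T

theorem map_cc : ι cc = 1 := T.ker.ge (mem_zpowers cc)

theorem base : Base ι := ⟨map_pq_inj T.ker, Or.inl T.map_cc⟩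

theorem diag {p : ℕ} (hp : p < 2 ^ 25) (h : p % 4096 = 0) : τ⁻¹ * ι (pq p) * τ = ι (pq (alp p)) :=
  T.hN _ (NP_diag p hp h)

theorem twist {e : GH} (he : e ∈ Est) : PA (tw ι e) τ := by
  have k : τ * ι e = ι e * τ := by
    have := T.hN _ (NP_Est he)
    rwa [mul_assoc, inv_mul_eq_iff_eq_mul, eq_comm] at this
  refine ⟨?_, fun p hp => T.hN (e * p.1 * e⁻¹, e * p.2 * e⁻¹)
    (NP_mul (NP_mul (NP_Est he) hp) (NP_inv (NP_Est he))), ?_, T.h3⟩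
  · ext g
    rw [← T.ker, MonoidHom.mem_ker, MonoidHom.mem_ker, tw_apply, conj_eq_one_iff]
  · rw [tw_apply, ← mul_assoc, ← mul_assoc, k, mul_assoc (ι e), conj_pow, T.h2]
    simp

theorem three {Y : Type*} [Group Y] (B : Am Y) (hB : B.ι.ker = zpowers cc)
    (hf : (ι (el rN1) * τ * ι (pq pD)) ^ 3 ∈ ι.range) : (ι (el rN1) * τ * ι (pq pD)) ^ 3 = 1 ∨
      (ι (el rN1) * τ * ι (pq pD)) ^ 3 = ι (pq 0x685000) := by
  set ρ := ι (el rN1) * τ * ι (pq pD) with hρ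
  have h1 : ∀ k ∈ FxS [pZ1, pW], ρ ^ 3 * ι k = ι k * ρ ^ 3 := fun k hk => by
    obtain ⟨k1, a1, b1⟩ := exists_step hk
    obtain ⟨k2, a2, b2⟩ := exists_step a1
    obtain ⟨k3, -, b3⟩ := exists_step a2
    have e := conj_three (conj_step B.hN b1) (conj_step B.hN b2) (conj_step B.hN b3)
    rw [B.tri, mul_one, one_mul, map_eq_iff hB, ← map_eq_iff T.ker] at e
    rw [conj_three (conj_step T.hN b1) (conj_step T.hN b2) (conj_step T.hN b3), e]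
  have h2 : ∀ p, pcomm p pZ1 = 0 → pcomm p pW = 0 → pq p ∈ FxS [pZ1, pW] := fun p a b =>
    FxS_cons _ _ ▸ ⟨pq_mem_FxS.2 a, pq_mem_FxS.2 b⟩
  obtain ⟨q, h3, h4, e⟩ := T.base.of_comm hf fun p _ k => h1 _ (h2 p
    (pq_comm_iff.1 (pq_comm_diag k rfl)) (pq_comm_iff.1 (pq_comm_diag k rfl)))
  have h5 : ∀ p < 2 ^ 25, p % 4096 = 0 → τ * ι (pq p) * τ⁻¹ = ι (pq (alp (alp p))) := fun p a b => by
    have := T.diag (alp_lt (alp_lt a)) (by rw [alp_mod, alp_mod, b])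
    rw [alp_alp_alp p a b] at this
    rw [← this]; group
  have h6 := φ_pq pD h3
  have h7 : φ (el rN1) (alp (alp (φ (pq pD) q))) = q := T.base.φ_eq h3 (by
    rw [← h5 _ (φ_lt _ _) (by
      rw [h6]; exact xor_diag h4 (by rw [Nat.shiftLeft_eq]; omega)), ← map_conj, ← e]
    calc _ = ρ * ρ ^ 3 * ρ⁻¹ := by rw [hρ]; group
      _ = _ := by group)
  rw [h6, ← R_N1.cap_eq'] at h7
  rcases diag_cases (P := fun q => (∀ x ∈ [2, 8, 16, 32, 64, 256, 2048, 132, 516, 1028],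
    pcomm q x = 0) → Kit.cap (Kit.ld rN1) (alp (alp (q ^^^ pcomm pD q <<< 24))) = q →
    q = 0 ∨ q = 0x685000) (by decide +kernel) h3 h4 (fun x hx => by
      obtain ⟨a, b, c⟩ := (by decide : ∀ x ∈ [2, 8, 16, 32, 64, 256, 2048, 132, 516, 1028],
        pcomm x pZ1 = 0 ∧ pcomm x pW = 0 ∧ x < 2 ^ 25) x hx
      have := h1 _ (h2 x a b)
      rw [e, ← map_mul, ← map_mul, pq_mul, pq_mul] at this
      exact pq_comm_iff.1 (by
        rw [pq_mul, pq_mul, T.base.inj (pmul_lt h3 c) (pmul_lt c h3) this])) h7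
    with rfl | rfl
  · exact Or.inl (by rw [e, pq_zero, map_one])
  · exact Or.inr e

theorem s_inv : (τ * ι (pq pD))⁻¹ = τ * ι (pq pD) := inv_eq_of_mul_eq_one_right (sq (τ * _) ▸ T.h2)

theorem n_inv : (ι (el rN1))⁻¹ = ι (el rN1) := inv_eq_of_mul_eq_one_right (by
  rw [← map_mul]; rcases N1_sq with k | k <;> simp [k, T.map_cc])

theorem conj_s {m h : GH} (e : (m, pq pD * h * (pq pD)⁻¹) ∈ NP) :
    τ * ι (pq pD) * ι h * (τ * ι (pq pD))⁻¹ = ι m := by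
  have := T.hN _ e
  simp only [map_mul, map_inv] at this
  calc _ = τ * (ι (pq pD) * ι h * (ι (pq pD))⁻¹) * τ⁻¹ := by group
    _ = _ := by rw [← this]; group

theorem conj_s_pq {p q : ℕ} (hp : p < 2 ^ 25) (hq : q < 2 ^ 25) (h : q % 4096 = 0)
    (e : alp q = p ^^^ pcomm pD p <<< 24) :
    τ * ι (pq pD) * ι (pq p) * (τ * ι (pq pD))⁻¹ = ι (pq q) :=
  T.conj_s (by rw [conj_pq, φ_pq _ hp, ← e]; exact NP_diag q hq h)

theorem rel_iff {y k m1 m2 : GH} (h1 : (m1, y) ∈ NP) (h2 : (y * k, m2) ∈ NP) :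
    ι (pq pD * y) * (τ * ι (pq pD)) * ι (pq pD * y) * ι k =
      τ * ι (pq pD) * ι (pq pD * y) * (τ * ι (pq pD))⁻¹ ↔ ι (pq pD * m1 * m2) = ι (y * pq pD) := by
  have a1 := T.hN _ h1
  have a2 := T.hN _ h2
  have a3 := conj_D T.h2
  have a4 := T.h3
  have a5 := D_sq ι
  have a6 := D_inv ι
  simp only [map_mul, pow_succ, pow_zero, one_mul] at a1 a2 a4 ⊢
  generalize ι (pq pD) = d at *
  have e1 : d * ι y * (τ * d) * (d * ι y) * ι k = τ * (d * ι m1 * ι m2) * τ⁻¹ := by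
    calc _ = τ * (τ⁻¹ * d * τ⁻¹) * (τ * ι y * τ⁻¹) * (τ * τ * τ) * τ⁻¹ * (d * d) * (ι y * ι k) := by
          group
      _ = τ * (d * τ * d⁻¹ * d * τ⁻¹) * ι m1 * (τ⁻¹ * (ι y * ι k) * τ) * τ⁻¹ := by
          rw [a3, a4, a5, ← a1]; group
      _ = _ := by rw [a2]; group
  have e2 : τ * d * (d * ι y) * (τ * d)⁻¹ = τ * (ι y * d) * τ⁻¹ := by
    rw [mul_inv_rev, a6, mul_assoc τ d, ← mul_assoc d, a5]; group
  rw [e1, e2, mul_left_inj, mul_right_inj]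

theorem theta {x k x' k' : GH} (hk : x * el rN1 * x * k = el rN1 * x * (el rN1)⁻¹)
    (hx : (x', pq pD * x * (pq pD)⁻¹) ∈ NP) (hk' : (k', pq pD * k * (pq pD)⁻¹) ∈ NP) {f s : X}
    (hf : (ι (el rN1) * τ * ι (pq pD)) ^ 3 = f) (hs : s = τ * ι (pq pD)) :
    ι (el rN1 * x' * (el rN1)⁻¹) * (f * s) * ι (el rN1 * x' * (el rN1)⁻¹) *
      ι (el rN1 * k' * (el rN1)⁻¹) = f * s * ι (el rN1 * x' * (el rN1)⁻¹) * (f * s)⁻¹ := by
  have a1 := T.conj_s hx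
  have a2 := T.conj_s hk'
  have a3 := T.s_inv
  have a4 := congrArg ι hk
  rw [mul_assoc] at hf
  rw [← hs] at a1 a2 a3 hf
  have a5 : f * s = ι (el rN1) * s * ι (el rN1) * (ι (el rN1) * s)⁻¹ := by
    rw [mul_inv_rev, T.n_inv, ← hf, ← eq_mul_inv_iff_mul_eq, a3]
    simp only [pow_succ, pow_zero, one_mul, mul_assoc]
  simp only [map_mul, map_inv] at a4 ⊢
  rw [a5, ← a1, ← a2]
  calc _ = ι (el rN1) * s * (ι x * ι (el rN1) * ι x * ι k) * (ι (el rN1) * s)⁻¹ := by group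
    _ = _ := by rw [a4]; group

theorem tri {Y : Type*} [Group Y] (B : Am Y) (hB : B.ι.ker = zpowers cc)
    (hf : (ι (el rN1) * τ * ι (pq pD)) ^ 3 ∈ ι.range) : (ι (el rN1) * τ * ι (pq pD)) ^ 3 = 1 := by
  refine (T.three B hB hf).resolve_right fun e => ?_
  have TB : PA B.ι B.τ := ⟨hB, B.hN, B.h2, B.h3⟩
  have hD : φ (pq pD) pZ1 = pZ2 := φ_pq _ (by decide)
  have hD' : φ (pq pD)⁻¹ pZ2 = pZ1 := by rw [← hD, φ_inv_φ _ pZ1_lt]
  have hδ : ∀ h ∈ FxS [pZ1], pq pD * h * (pq pD)⁻¹ ∈ FxS [pZ1] := fun h hh =>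
    mem_FxS_Z2.1 ((mem_FxS_one (by decide)).2 (by
      rw [φ_mul, φ_mul, hD', (mem_FxS_one pZ1_lt).1 hh, hD]))
  have x1 := (mem_FxS_one pZ1_lt).1 xW_N
  have n1 : φ (el rN1) (pW ^^^ pZ1) = pW ^^^ pZ1 := by
    rw [← pmul_diag pW (q := pZ1) rfl, φ_pmul, φ_N1_Z1, φ_N1_W]; rfl
  have n2 : φ xW (pW ^^^ pZ1) = pW := by
    rw [← pmul_diag pW (q := pZ1) rfl, φ_pmul, φ_xW, x1]; rfl
  have n3 : φ (el rN1)⁻¹ pZ1 = pW := by rw [← φ_N1_W, φ_inv_φ _ (by decide)]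
  have n4 : φ (el rN1)⁻¹ pW = pZ1 := by rw [← φ_N1_Z1, φ_inv_φ _ pZ1_lt]
  obtain ⟨k, hk⟩ : ∃ k, xW * el rN1 * xW * k = el rN1 * xW * (el rN1)⁻¹ := ⟨_, mul_inv_cancel_left _ _⟩
  have k1 : φ k pZ1 = pZ1 := φ_inj (xW * el rN1 * xW) (φ_lt _ _) pZ1_lt (by
    rw [← φ_mul, hk]; simp only [φ_mul, n3, φ_xW, n1, x1, φ_N1_Z1])
  have k2 : φ k pW = pW := φ_inj (xW * el rN1 * xW) (φ_lt _ _) (by decide) (by
    rw [← φ_mul, hk]; simp only [φ_mul, n4, φ_xW, n1, x1, φ_N1_Z1, n2])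
  obtain ⟨x', hx'⟩ := exists_NP' (hδ _ xW_N)
  obtain ⟨k', hk'⟩ := exists_NP' (hδ _ ((mem_FxS_one pZ1_lt).2 k1))
  have hW : φ (pq pD) pW = pW := φ_pq _ (by decide)
  have hW' : φ (pq pD)⁻¹ pW = pW := by rw [← hW, φ_inv_φ _ (by decide), hW]
  have y1 : φ x' pW = pW ^^^ pZ := by
    obtain ⟨a, b⟩ := NP_φ hx' (p := pW) (by decide) rfl
    rw [show alp pW = pW from rfl, φ_mul, φ_mul, hW', φ_xW, φ_pq _ (by decide)] at b
    exact alp_inj (φ_lt _ _) a (by decide) rfl b.symm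
  have y2 : φ (el rN1 * x' * (el rN1)⁻¹) pZ1 = pZ2 := by
    rw [φ_mul, φ_mul, n3, y1, pZ_eq, φ_neg, φ_N1_W]; rfl
  have y3 : φ (el rN1 * x' * (el rN1)⁻¹) pW = pW := by
    rw [φ_mul, φ_mul, n4, (mem_FxS_one pZ1_lt).1 (NP_fst hx'), φ_N1_Z1]
  have y4 : el rN1 * k' * (el rN1)⁻¹ ∈ FxS [pZ1] := (mem_FxS_one pZ1_lt).2 (by
    rw [φ_mul, φ_mul, n3, (mem_FxS_one (by decide)).1 ((NP_fix hk' (p := pW) (by decide)).2
      ((mem_FxS_one (by decide)).2 (by rw [φ_mul, φ_mul, hW', k2, hW]))), φ_N1_W])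
  have a := T.theta hk hx' hk' e rfl
  have b := TB.theta hk hx' hk' B.tri rfl
  obtain ⟨y, hy⟩ : ∃ y, pq pD * y = el rN1 * x' * (el rN1)⁻¹ := ⟨_, mul_inv_cancel_left _ _⟩
  have y5 : y ∈ FxS [pZ1] := (mem_FxS_one pZ1_lt).2 (φ_inj (pq pD) (φ_lt _ _) pZ1_lt (by
    rw [← φ_mul, hy, y2, hD]))
  obtain ⟨m1, b1⟩ := exists_NP' y5
  obtain ⟨m2, b2⟩ := exists_NP (mul_mem y5 y4)
  rw [one_mul, ← hy, TB.rel_iff b1 b2, map_eq_iff hB, ← map_eq_iff T.ker, ← T.rel_iff b1 b2, hy] at b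
  have c1 : φ (el rN1 * x' * (el rN1)⁻¹) 0x685000 = pW ^^^ pZ1 := by
    rw [show 0x685000 = pmul pW pZ1 ^^^ 2 ^ 24 from rfl, φ_neg, φ_pmul, y2, y3]; rfl
  have c2 := map_conj ι (el rN1 * x' * (el rN1)⁻¹) 0x685000
  have c3 := T.conj_s_pq (p := 0x685000) (q := 0x685000) (by decide) (by decide) rfl rfl
  have c4 := T.conj_s_pq (p := pW ^^^ pZ1) (q := pW ^^^ pZ) (by decide) (by decide) rfl rfl
  rw [c1] at c2
  generalize ι (el rN1 * x' * (el rN1)⁻¹) = u at *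
  generalize τ * ι (pq pD) = s at *
  have c5 : ι (pq (pW ^^^ pZ1)) * ι (pq (pW ^^^ pZ)) = ι (pq 0x685000) := by
    calc _ = u * ι (pq 0x685000) * u⁻¹ * (s * u * s⁻¹) * (s * ι (pq 0x685000) * s⁻¹) *
          (s * u * s⁻¹)⁻¹ := by rw [← c4, ← c2]; group
      _ = u * (ι (pq 0x685000) * s) * u * ι (el rN1 * k' * (el rN1)⁻¹) * ι (pq 0x685000) *
          (s * u * s⁻¹)⁻¹ := by rw [c3]; nth_rewrite 1 [← b]; group
      _ = _ := by rw [a]; group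
  rw [← map_mul, pq_mul] at c5
  exact absurd (T.base.inj (by decide) (by decide) c5) (by decide)

end PA

end Cfsg.Lib.Mon.Iv
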