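import Cfsg.Agent.Mon.LLoc
import Cfsg.Agent.Local.ProdCard
import Cfsg.Agent.S0012
import Cfsg.Agent.S0013

/-! A centraliser that is the product of its intersections with two extraspecial groups. -/

set_option autoImplicit false

namespace Cfsg.Lib.Mon.Loc

open Cfsg Subgroup Function Cfsg.Lib.Spor Cfsg.Lib.Spor.PK
open scoped Pointwise

variable {X : Type*} [Group X]

theorem card_conj (H : Subgroup X) (x : X) : {y | ∃ n ∈ H, n * x * n⁻¹ = y}.ncard *
    Nat.card ↥(H ⊓ centralizer {x}) = Nat.card H := by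
  let _ : MulAction H X := MulAction.compHom _ (MulAut.conj.comp H.subtype)
  have h2 : MulAction.stabilizer H x = (H ⊓ centralizer {x}).subgroupOf H := by
    ext a
    rw [MulAction.mem_stabilizer_iff, mem_subgroupOf, mem_inf, mem_centralizer_singleton_iff,
      and_iff_right a.2, ← mul_inv_eq_iff_eq_mul]
    rfl
  rw [← (MulAction.stabilizer H x).index_mul_card, MulAction.index_stabilizer, h2,
    Nat.card_congr (subgroupOfEquivOfLe inf_le_left).toEquiv]
  congr 2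
  exact Set.ext fun y => ⟨fun ⟨a, ha, h⟩ => ⟨⟨a, ha⟩, h⟩, fun ⟨a, h⟩ => ⟨a, a.2, h⟩⟩

theorem card_le_conj (H : Subgroup X) (x : X) (S : Finset ℕ) (F : ℕ → X)
    (h : ∀ n ∈ H, ∃ a ∈ S, F a = n * x * n⁻¹) :
    Nat.card H ≤ S.card * Nat.card ↥(H ⊓ centralizer {x}) := by
  rw [← card_conj H x, ← Set.ncard_coe_finset]
  refine Nat.mul_le_mul_right _ ((Set.ncard_le_ncard (t := F '' S) ?_).trans
    (Set.ncard_image_le S.finite_toSet))
  rintro _ ⟨n, hn, rfl⟩
  exact h n hn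

/-- `reach` with evaluation of the intermediate sets. -/
noncomputable def reach2 (n : ℕ) (cs : List (List ℕ)) (S r : ℕ) : ℕ :=
  Nat.rec S (fun _ T => List.rec T (fun c _ U => force U (sweep n c)) cs) r

theorem reach2_eq (n : ℕ) (cs : List (List ℕ)) (S r : ℕ) : reach2 n cs S r = reach n cs S r := by
  simp only [reach2, force_eq]; rfl

/-- The image of a vector under a word. -/
noncomputable def evC (cs : List (List ℕ)) (w : List ℕ) (a : ℕ) : ℕ :=
  List.rec a (fun j _ ih => force ih fun x => (cs[j]?).elim x (xorComb · x)) w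

/-- Evaluation of a list of lists. -/
noncomputable def forceLL (l : List (List ℕ)) : (List (List ℕ) → ℕ) → ℕ :=
  List.rec (fun k => k []) (fun a _ ih k => forceL a fun a' => ih fun l' => k (a' :: l')) l

theorem forceLL_eq (l : List (List ℕ)) (k : List (List ℕ) → ℕ) : forceLL l k = k l := by
  induction l generalizing k with
  | nil => rfl
  | cons a l ih => exact (forceL_eq ..).trans (ih _)

/-- The product of the orbit lengths along a stabiliser chain of matrices. -/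
noncomputable def lowM (d : ℕ) (L : List (ℕ × ℕ × List (List ℕ))) : List (List ℕ) → ℕ :=
  List.rec (fun _ => 1) (fun x _ ih cs => forceLL (x.2.2.map fun w => (List.range d).map fun k =>
    evC cs w (2 ^ k)) fun ns => if x.1 < 2 ^ d ∧ ∀ c ∈ ns, xorComb c x.1 = x.1 then
      force (reach2 (2 ^ d) cs (2 ^ x.1) x.2.1) fun S =>
        ((Finset.range (2 ^ d)).filter fun a => S.testBit a).card * ih ns else 0) L

section

variable {F : ℕ → X} {d : ℕ} (h : Fr F d) {H : Subgroup X} {cs : List (List ℕ)}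
  (hH : ∀ c ∈ cs, ∃ n ∈ H, Act F d n c)
include h hH

theorem Fr.of_reach2 {s r a : ℕ} (e : (reach2 (2 ^ d) cs (2 ^ s) r).testBit a) :
    ∃ n ∈ H, n * F s * n⁻¹ = F a :=
  of_reach (P := fun a => ∃ n ∈ H, n * F s * n⁻¹ = F a) (fun c hc a ha ⟨n, hn, e⟩ =>
    let ⟨m, hm, k⟩ := hH c hc
    ⟨m * n, mul_mem hm hn, by rw [← (h.conj k a ha).2, ← e]; group⟩) ⟨1, one_mem H, by simp⟩ r a
    (reach2_eq .. ▸ e)

theorem Fr.evC (w : List ℕ) :
    ∃ n ∈ H, ∀ a < 2 ^ d, evC cs w a < 2 ^ d ∧ n * F a * n⁻¹ = F (evC cs w a) := by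
  induction w with
  | nil => exact ⟨1, one_mem H, fun a ha => ⟨ha, by rw [one_mul, inv_one, mul_one]; rfl⟩⟩
  | cons j w ih =>
    obtain ⟨n, hn, k⟩ := ih
    have e : ∀ a, Loc.evC cs (j :: w) a = (cs[j]?).elim (Loc.evC cs w a)
      (xorComb · (Loc.evC cs w a)) := fun a =>
        force_eq _ fun x => (cs[j]?).elim x (xorComb · x)
    simp only [e]
    cases hj : cs[j]? with
    | none => exact ⟨n, hn, k⟩
    | some c =>
      obtain ⟨m, hm, l⟩ := hH c (List.mem_of_getElem? hj)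
      exact ⟨m * n, mul_mem hm hn, fun a ha => ⟨(h.conj l _ (k a ha).1).1, by
        rw [Option.elim_some, ← (h.conj l _ (k a ha).1).2, ← (k a ha).2]; group⟩⟩

theorem Fr.lowM_le [Finite X] (L : List (ℕ × ℕ × List (List ℕ)))
    (hC : centralizer (spn F d : Set X) ≤ H) :
    lowM d L cs * Nat.card (centralizer (spn F d : Set X)) ≤ Nat.card H := by
  induction L generalizing H cs with
  | nil => exact (one_mul _).le.trans (card_le_of_le hC)
  | cons x L ih =>
    refine (congrArg (· * _) (forceLL_eq ..)).le.trans ?_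
    split_ifs with k
    swap
    · simp
    rw [force_eq, mul_assoc, ← card_conj H (F x.1), ← Set.ncard_coe_finset,
      ← Set.InjOn.ncard_image (f := F) fun a ha b hb => h.inj' (by simp_all) (by simp_all)]
    refine Nat.mul_le_mul (Set.ncard_le_ncard ?_) (ih (fun c hc => ?_)
      (le_inf hC fun y hy => mem_centralizer_singleton_iff.2 (hy _ (mem_spn k.1)).symm))
    · rintro _ ⟨a, ha, rfl⟩
      exact h.of_reach2 hH (Finset.mem_filter.1 ha).2
    have e := k.2 c hc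
    obtain ⟨w, -, rfl⟩ := List.mem_map.1 hc
    obtain ⟨n, hn, l⟩ := h.evC hH w
    have a : Act F d n ((List.range d).map fun k => Loc.evC cs w (2 ^ k)) := fun j hj => by
      rw [List.getD_eq_getElem _ _ (by simpa using hj), List.getElem_map, List.getElem_range]
      exact l _ (Nat.pow_lt_pow_right one_lt_two hj)
    exact ⟨n, ⟨hn, mem_centralizer_singleton_iff.2 (mul_inv_eq_iff_eq_mul.1
      ((h.conj a _ k.1).2.trans (congrArg F e)))⟩, a⟩

end

theorem two_mul_le [Finite X] {A B : Subgroup X} (h : A ≤ B) {x : X} (h1 : x ∈ B) (h2 : x ∉ A) :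
    2 * Nat.card A ≤ Nat.card B := by
  obtain ⟨k, e⟩ := card_dvd_of_le h
  have := Nat.card_pos (α := B)
  obtain _ | _ | k := k
  · omega
  · exact absurd ((eq_of_le_of_card_ge h (by omega)).ge h1) h2
  · nlinarith

theorem conj_mem_cent {E : Subgroup X} {m x : X} (hm : m ∈ normalizer (E : Set X))
    (hx : x ∈ centralizer (E : Set X)) : m * x * m⁻¹ ∈ centralizer (E : Set X) := fun y hy => by
  rw [show y * (m * x * m⁻¹) = m * (m⁻¹ * y * m⁻¹⁻¹ * x) * m⁻¹ by group, hx _ ((inv_mem hm y).1 hy)]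
  group

theorem spin [Finite X] {E Q : Subgroup X} {z m u : X} (hm : m ∈ normalizer (E : Set X))
    (hz : z ∈ E) (hzQ : z ∈ Q) (nQ : ∀ c, z * c = c * z → ∀ q ∈ Q, c * q * c⁻¹ ∈ Q)
    (sQ : ∀ a ∈ Q, ∀ b ∈ Q, a * b * a⁻¹ * b⁻¹ = 1 ∨ a * b * a⁻¹ * b⁻¹ = z) (qQ : ∀ a ∈ Q, a * a ∈ E)
    (h1 : m * z * m⁻¹ ∉ Q) (h2 : m⁻¹ * z * m ∉ Q)
    (zA : ∀ a ∈ Q, (∀ b ∈ centralizer (E : Set X) ⊓ Q, b * a = a * b) → a ∈ E) (hu : u ∈ Q)
    (h3 : z * (m * u * m⁻¹) = m * u * m⁻¹ * z)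
    (h4 : ∀ a ∈ Q, a * (m * u * m⁻¹) = m * u * m⁻¹ * a → a ∈ E) (cE : Nat.card E = 2 ^ 10)
    (cA : 2 ^ 17 ≤ Nat.card ↥(centralizer (E : Set X) ⊓ Q)) :
    2 ^ 26 ≤ Nat.card (centralizer (E : Set X)) ∧ (Nat.card (centralizer (E : Set X)) = 2 ^ 26 →
      ∀ x ∈ centralizer (E : Set X), x * x ∈ E ∧
        ((∀ y ∈ centralizer (E : Set X), y * x = x * y) → x ∈ E)) := by
  have mE : ∀ x, m * x * m⁻¹ ∈ E ↔ x ∈ E := fun x => (hm x).symm
  have mC : ∀ x ∈ centralizer (E : Set X), m * x * m⁻¹ ∈ centralizer (E : Set X) ∧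
      m⁻¹ * x * m ∈ centralizer (E : Set X) := fun x hx =>
    ⟨conj_mem_cent hm hx, by simpa using conj_mem_cent (inv_mem hm) hx⟩
  generalize hC : centralizer (E : Set X) = C at *
  have cz : ∀ c ∈ C, z * c = c * z := fun c hc => (hC.ge hc) z hz
  obtain ⟨B, hB, cB⟩ : ∃ B : Subgroup X, (∀ x, x ∈ B ↔ m⁻¹ * x * m ∈ C ⊓ Q) ∧
      Nat.card B = Nat.card ↥(C ⊓ Q) := ⟨(C ⊓ Q).map (MulAut.conj m).toMonoidHom, fun x => by
    rw [mem_map_equiv]; simp, card_map_of_injective (MulAut.conj m).injective⟩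
  have BC : B ≤ C := fun x hx => by simpa [mul_assoc] using (mC _ ((hB x).1 hx).1).1
  have nB : ∀ c ∈ C, ∀ b ∈ B, c * b * c⁻¹ ∈ B := fun c hc b hb => (hB _).2
    ⟨(mC _ (mul_mem (mul_mem hc (BC hb)) (inv_mem hc))).2, by
      simpa [mul_assoc] using nQ _ (cz _ (mC c hc).2) _ ((hB b).1 hb).2⟩
  have zB : z ∉ B := fun h => h2 ((hB _).1 h).2
  have AB : C ⊓ Q ⊓ B ≤ E := fun a ⟨ha, hb⟩ => h4 a ha.2 <| by
    rcases sQ _ ((hB a).1 hb).2 u hu with e | e
    · rw [← mul_inv_eq_iff_eq_mul, ← mul_inv_eq_one, ← conj_eq_one_iff (a := m⁻¹), ← e]; group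
    · refine absurd ?_ h1
      convert Q.mul_mem ha.2 (nQ _ h3 _ (Q.inv_mem ha.2)) using 1
      rw [← e]; group
  have c1 := two_mul_le (inf_le_left (b := Q)) ((mE z).2 hz) fun h => h1 h.2
  have c2 := two_mul_le (le_inf AB (inf_le_left.trans inf_le_right)) ⟨hz, hzQ⟩ fun h => zB h.2
  have c3 := Local.CD.card_setMul_mul_card_inf (C ⊓ Q) B
  have s : ((C ⊓ Q : Subgroup X) : Set X) * B ⊆ C := fun _ ⟨a, ha, b, hb, e⟩ =>
    e ▸ mul_mem ha.1 (BC hb)
  have c4 : 2 ^ 26 ≤ Nat.card ↥(((C ⊓ Q : Subgroup X) : Set X) * B) := by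
    by_contra h
    have := Nat.mul_lt_mul_of_lt_of_le (not_le.1 h) (show Nat.card ↥(C ⊓ Q ⊓ B) ≤ 2 ^ 8 by omega)
      (by norm_num)
    have := Nat.mul_le_mul cA cA
    rw [cB] at c3
    omega
  refine ⟨c4.trans (Nat.card_mono (Set.toFinite _) s), fun c5 x hx => ?_⟩
  obtain ⟨a, ha, b, hb, rfl⟩ := (Set.eq_of_subset_of_ncard_le s (c5.le.trans c4)).ge hx
  have k : ∀ a ∈ C ⊓ Q, a⁻¹ * b * a * b⁻¹ ∈ C ⊓ Q ⊓ B := fun a ha =>
    ⟨⟨C.mul_mem (C.mul_mem (C.mul_mem (C.inv_mem ha.1) (BC hb)) ha.1) (C.inv_mem (BC hb)), show _ ∈ Q by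
      simpa only [mul_assoc] using Q.mul_mem (Q.inv_mem ha.2) (nQ _ (cz _ (BC hb)) _ ha.2)⟩,
      B.mul_mem (by simpa using nB _ (C.inv_mem ha.1) _ hb) (B.inv_mem hb)⟩
  refine ⟨?_, fun H => ?_⟩
  · have := (mE _).2 (qQ _ ((hB b).1 hb).2)
    convert mul_mem (mul_mem (qQ a ha.2) (AB (k a ha))) this using 1
    group
  have aE : a ∈ E := zA a ha.2 fun a' h' => by
    have e : a'⁻¹ * b * a' * b⁻¹ = a'⁻¹ * a⁻¹ * a'⁻¹⁻¹ * a⁻¹⁻¹ := by
      rw [show a'⁻¹ * b * a' * b⁻¹ = a'⁻¹ * a⁻¹ * (a * b * a') * b⁻¹ by group, ← H a' h'.1]; group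
    rcases sQ _ (Q.inv_mem h'.2) _ (Q.inv_mem ha.2) with e' | e'
    · rw [← mul_inv_eq_one, ← conj_eq_one_iff (a := (a * a')⁻¹), ← e']; group
    · exact absurd (e' ▸ e ▸ (k a' h').2) zB
  refine mul_mem aE ?_
  have := (mE _).2 (zA _ ((hB b).1 hb).2 fun c hc => by
    have e := H _ (mC c hc.1).1
    rw [← mul_assoc, ← hC.ge (mC c hc.1).1 a aE, mul_assoc, mul_assoc a, mul_right_inj] at e
    rw [show c * (m⁻¹ * b * m) = m⁻¹ * (m * c * m⁻¹ * b) * m by group, e]; group)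
  simpa [mul_assoc] using this

theorem special_of [Finite X] {E K C : Subgroup X} {O : Subgroup K} (h : O.map K.subtype = C)
    (hp : IsPGroup 2 O) (hZ : (center O).map O.subtype = E.subgroupOf K) (sq : ∀ x ∈ C, x * x ∈ E)
    (hc : E ≤ ⁅C, C⁆) : IsSpecial 2 O := by
  have i : Injective (K.subtype.comp O.subtype) := K.subtype_injective.comp O.subtype_injective
  have z : ∀ x : O, x ∈ center O ↔ x.1.1 ∈ E := fun x =>
    (mem_map_iff_mem O.subtype_injective).symm.trans (by rw [hZ]; rfl)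
  have s : ∀ x : O, x * x ∈ center O := fun x => (z _).2 (sq _ (h ▸ ⟨x, x.2, rfl⟩))
  have c1 : commutator O ≤ center O := commutator_le.2 fun a _ b _ => by
    convert mul_mem (mul_mem (s (a * b)) (Normal.conj_mem inferInstance _ (s a⁻¹) b⁻¹)) (s b⁻¹) using 1
    rw [commutatorElement_def]; group
  have c2 : center O ≤ commutator O := fun x hx => (mem_map_iff_mem i).1 (by
    rw [commutator_def, map_commutator, ← map_map, ← MonoidHom.range_eq_map, range_subtype, h]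
    exact hc ((z x).1 hx))
  exact ⟨hp, le_antisymm (Agent.S0013.result 2 hp _ c1 fun x => pow_two x ▸ s x)
    (c2.trans (Agent.S0012.result 2 hp).1), le_antisymm c1 c2⟩

end Cfsg.Lib.Mon.Loc
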