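import Cfsg.Agent.Mon.PairFin

/-!
The Monster programme: pairs of conjugates of an involution `a = ι (pq a)`.  `Pr i p` says
that the pair of `ι (pq p)` and the axis of type `i` has the property `G2`.
-/

set_option autoImplicit false

namespace Cfsg.Lib.Mon.Cert

open Subgroup Cfsg.Lib.Spor.Bulk Cfsg.Lib.Mon.Kit Cfsg.Lib.Mon.Bmp

/-- The data of a pair computation, with a property of pairs. -/
structure Px2 (P : Par) (X : Type*) [Group X] extends Px P X where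
  G2 : X → X → Prop
  hG2 : ∀ y ∈ C.S.M, ∀ a c, G2 a c → G2 (y * a * y⁻¹) (y * c * y⁻¹)

namespace Px2

variable {P : Par} {X : Type*} [Group X] (D : Px2 P X)

/-- the pair with the axis of type `i` is good -/
def Pr (i p : ℕ) : Prop := p < 2 ^ 25 ∧ D.G2 (D.A.ι (pq p)) (D.ax i)

/-- a sound test on the product -/
def Gk (k : ℕ → Bool) : Prop :=
  ∀ c g x y, R c g → k c = true → x * y = D.A.ι g → D.G2 x y

variable {D}

theorem ax_zero : D.ax 0 = D.A.ι (pq D.a) := by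
  rw [Px.ax, Cx.U_zero, inv_one, one_mul, mul_one]

theorem Pr.act {i p : ℕ} (h : D.Pr i p) {s : GH} (hs : s ∈ D.C.S.stab D.C.K (D.C.U i)) :
    D.Pr i (φ s p) := by
  refine ⟨φ_lt _ _, ?_⟩
  convert D.hG2 _ (Sys.ι_mem_M hs.1) _ _ h.2 using 1
  · rw [← conj_pq, map_mul, map_mul, map_inv, D.hι]
  · rw [Px.ax]
    nth_rw 2 [← Px.conj_eq hs.2]
    group

theorem Pr.of_fact {i j p : ℕ} {g h m : GH} (F : D.C.S.Fact D.C.K (D.C.U i) g (D.C.U j) h)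
    (e : (pq p, m) ∈ NP) (k : D.G2 (D.A.ι (h * m * h⁻¹)) (D.ax j)) : D.Pr i (φ g p) := by
  refine ⟨φ_lt _ _, ?_⟩
  convert D.hG2 _ (mul_mem (mul_mem (Sys.ι_mem_M F.1) Sys.τ_mem_M) (inv_mem (Sys.ι_mem_M F.2.1)))
    _ _ k using 1
  · rw [← conj_pq, map_mul, map_mul, map_mul, map_mul, map_inv, map_inv,
      ← show _ = D.A.ι m from D.A.hN _ e, D.hι, D.hι, D.hτ]
    group
  · rw [Px.ax_eq F, D.hι, D.hι, D.hτ]
    group

theorem Pr.link {i g j h y q p : ℕ} {T : List ℕ} (F : D.C.Fa i g j h) (k : D.Pr j y)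
    (hT : D.C.StL j T) (w : List ℕ) (e : band (band (Nat.blt q 33554432) (Nat.beq (q % 4096) 0))
      (band (Nat.beq (wap T w y) (cap h (alp q))) (Nat.beq (cap g q) p)) = true) : D.Pr i p := by
  simp only [band_eq, Bool.and_eq_true, Nat.blt_eq, Nat.beq_eq] at e
  obtain ⟨g', h', h1, h2, h3⟩ := F
  obtain ⟨s, s1, s2⟩ := wap_spec hT w k.1
  rw [← e.2.2, h1.cap_eq']
  refine Pr.of_fact h3 (NP_diag q e.1.1 e.1.2) ?_
  rw [conj_pq, ← h2.cap_eq', ← e.2.1, s2]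
  exact (k.act s1).2

theorem Pr.root {j c p : ℕ} {k : ℕ → Bool} (hk : D.Gk k) (a : D.Ax j c)
    (e : band (Nat.blt p 33554432) (k (cPmul p c)) = true) : D.Pr j p := by
  simp only [band_eq, Bool.and_eq_true, Nat.blt_eq] at e
  obtain ⟨x, h1, h2⟩ := a
  exact ⟨e.1, hk _ _ _ _ (h1.Pmul' p) e.2 (by rw [h2, ← map_mul])⟩

theorem Pr.root' {i g j h c q p : ℕ} {k : ℕ → Bool} (hk : D.Gk k) (F : D.C.Fa i g j h)
    (a : D.Ax j c) (e : band (Nat.beq (cap g q) p)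
      (thK (cp q) fun m => k (cmul (cmul (cmul h m) (cinv h)) c)) = true) : D.Pr i p := by
  simp only [band_eq, Bool.and_eq_true, Nat.beq_eq] at e
  obtain ⟨g', h', h1, h2, h3⟩ := F
  obtain ⟨x, a1, a2⟩ := a
  obtain ⟨d, m, m1, m2, m3⟩ := (R_cp' q).thK e.2
  rw [← e.1, h1.cap_eq']
  exact Pr.of_fact h3 m2 (hk _ _ _ _ (((h2.mul m1).mul h2.inv).mul a1) m3 (by rw [a2, ← map_mul]))

variable (D) in
/-- all pairs with the axis of type `i` are good -/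
def All (i : ℕ) : Prop := ∀ p ∈ Orb D.C.S.L D.a, D.Pr i p

theorem All.cl {i n : ℕ} {G Y Y' T : List ℕ}
    (hn : (Orb D.C.S.L D.a).ncard = n + 1) (hT : D.C.StL i T) (h : Bmp.Cl G Y' (n + 1))
    (h1 : ∀ y ∈ Y, D.Pr i y) (h2 : ∀ y ∈ Y, y ∈ Orb D.C.S.L D.a) (e : chkG T G = true)
    (e' : Y' = Y) : D.All i := by
  subst e'
  obtain ⟨E, e1, e2⟩ := h _ (chkG_spec hT e)
  have : (E : Set ℕ) = Orb D.C.S.L D.a := Set.eq_of_subset_of_ncard_le (fun p hp => by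
    obtain ⟨-, s, hs, y, hy, rfl⟩ := e2 p hp
    obtain ⟨g, g1, rfl⟩ := h2 y hy
    exact ⟨s * g, mul_mem hs.1 g1, φ_mul _ _ _⟩) (by rw [hn, Set.ncard_coe_finset, e1])
    (Set.finite_of_ncard_ne_zero (hn ▸ n.succ_ne_zero))
  intro p hp
  obtain ⟨-, s, hs, y, hy, rfl⟩ := e2 p (this.ge hp)
  exact (h1 y hy).act hs

theorem good {r : ℕ} {n : ℕ → ℕ} (hr : D.C.S.Res D.C.K D.C.U r n) (h : ∀ i < r, D.All i) {x : X}
    (hx : x ∈ D.C.S.M) : D.G2 (D.A.ι (pq D.a)) (x⁻¹ * D.A.ι (pq D.a) * x) := by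
  obtain ⟨i, hi, g, g1, g2⟩ := hr.cover x hx
  convert D.hG2 _ (inv_mem (Sys.ι_mem_M g1)) _ _ (h i hi _ ⟨g, g1, rfl⟩).2 using 1
  · rw [← conj_pq, map_mul, map_mul, map_inv, D.hι]
    group
  · rw [Px.conj_eq g2, Px.ax]
    group

end Px2

variable {X : Type*} [Group X] (A : Am X)

/-- the `k`-th power moves the code `p` -/
noncomputable def mv (k p c : ℕ) : Bool := (Nat.beq (cap (cpow c k) p) p).not

theorem mv_spec {A : Am X} (hk : A.ι.ker = zpowers cc) {k p c : ℕ} (hp : p < 2 ^ 25) {g : GH}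
    (h : R c g) (e : mv k p c = true) : A.ι g ^ k ≠ 1 := fun h1 => by
  rw [← map_pow, ← MonoidHom.mem_ker, hk, mem_zpowers_cc] at h1
  rw [mv, (R_cpow h k).cap_eq', Bool.not_eq_true'] at e
  rcases h1 with h1 | h1 <;> rw [h1] at e
  exacts [Nat.ne_of_beq_eq_false e (φ_one hp), Nat.ne_of_beq_eq_false e (φ_cc hp)]

/-- The types of pairs of involutions of class 2A. -/
def GM (s a c : X) : Prop := a = c ∨
  (∃ y, y * a * y⁻¹ = A.ι (pq pZ) * A.ι (pq pT) ∧ y * c * y⁻¹ = A.ι (pq pT)) ∨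
  (∃ y, y * a * y⁻¹ = A.ι (pq pT2) ∧ y * c * y⁻¹ = A.ι (pq pT)) ∨
  IsConj ((a * c) ^ 2) (A.ι (pq pZ)) ∨ IsConj (a * c) s ∨ (a * c) ^ 4 ≠ 1

theorem GM.conj {s a c : X} (y : X) (h : GM A s a c) : GM A s (y * a * y⁻¹) (y * c * y⁻¹) := by
  have k : ∀ {a c u v : X}, (∃ y, y * a * y⁻¹ = u ∧ y * c * y⁻¹ = v) →
      ∃ x, x * (y * a * y⁻¹) * x⁻¹ = u ∧ x * (y * c * y⁻¹) * x⁻¹ = v := fun ⟨x, h1, h2⟩ =>
    ⟨x * y⁻¹, by rw [← h1]; group, by rw [← h2]; group⟩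
  have k' : ∀ u : X, IsConj (y * u * y⁻¹) u := fun u => (isConj_iff.2 ⟨y, rfl⟩).symm
  rw [GM, conj_mul, conj_pow, conj_pow, Ne, conj_eq_one_iff]
  exact h.imp (fun e => by rw [e]) (Or.imp k (Or.imp k (Or.imp (k' _).trans
    (Or.imp_left (k' _).trans))))

/-- level M -/
noncomputable def p2M : Px2 PM X where
  toPx := pxM A
  G2 := GM A (A.ι (pq 9347073) * (pxM A).ax 1)
  hG2 y _ _ _ := GM.conj A y

/-- The types of commuting pairs of transpositions of the Baby Monster. -/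
def GE (a c : X) : Prop := a * c = 1 ∨ a * c = A.ι (pq pT) ∨ IsConj (a * c) (A.ι (pq pZ)) ∨
  IsConj (a * c * A.ι (pq pT)) (A.ι (pq pZ)) ∨ (a * c) ^ 2 ≠ 1

theorem GE.conj {a c y : X} (hy : y ∈ centralizer {A.ι (pq pT)}) (h : GE A a c) :
    GE A (y * a * y⁻¹) (y * c * y⁻¹) := by
  have k' : ∀ u : X, IsConj (y * u * y⁻¹) u := fun u => (isConj_iff.2 ⟨y, rfl⟩).symm
  have e : y * A.ι (pq pT) * y⁻¹ = A.ι (pq pT) := by
    rw [mem_centralizer_singleton_iff.1 hy, mul_inv_cancel_right]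
  rw [GE, conj_mul, conj_pow, Ne, conj_eq_one_iff, conj_eq_one_iff]
  refine h.imp_right (Or.imp (fun h => by rw [h, e]) (Or.imp (k' _).trans
    (Or.imp_left fun h => ?_)))
  rw [← e, conj_mul]
  exact (k' _).trans (e.symm ▸ h)

/-- level E -/
noncomputable def p2E : Px2 PE X where
  toPx := pxE A
  G2 := GE A
  hG2 _ hy _ _ := GE.conj A (Am.H1_le_cent ((A.sys_M_H coe_H).le hy))

variable {A}

theorem gk2M (hk : A.ι.ker = zpowers cc) (p : Fin (2 ^ 25)) : (p2M A).Gk (mv 4 p) :=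
  fun _ _ _ _ h e e' => .inr (.inr (.inr (.inr (.inr (e' ▸ mv_spec hk p.2 h e)))))

theorem gk2E (hk : A.ι.ker = zpowers cc) (p : Fin (2 ^ 25)) : (p2E A).Gk (mv 2 p) :=
  fun _ _ _ _ h e e' => .inr (.inr (.inr (.inr (e' ▸ mv_spec hk p.2 h e))))

end Cfsg.Lib.Mon.Cert
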