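import Cfsg.Agent.Mon.VStab
import Cfsg.Agent.Mon.VSepA
import Cfsg.Agent.Mon.FrozenOK

/-! The Monster programme: invariant subspaces of the model `V`. -/

set_option autoImplicit false

namespace Cfsg.Lib.Mon.Rp

open Cfsg Cfsg.Lib.Spor Cfsg.Lib.Spor.CK Finset

/-- All entries of the matrix of `el rM5` are non-zero. -/
theorem bm_dense (i j : GolayPt) : bm (el rM5) i j ≠ 0 := by
  have h : ∀ k < 24, ∀ l < 24, Sp.rb rM5 k l ≠ 0 := by decide +kernel
  have := h _ (ptIdx_lt i) _ (ptIdx_lt j)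
  rw [Sp.rb_eq raw_M5 (ptIdx_lt i) (ptIdx_lt j), idxPt_ptIdx, idxPt_ptIdx] at this
  exact div_ne_zero (by exact_mod_cast this) (by norm_num)

/-- A traceless diagonal matrix whose transform by `el rM5` is diagonal vanishes. -/
theorem diag_eq_zero {L L' : GolayPt → GolayPt → ℝ} (h : ∀ i j, i ≠ j → L i j = 0)
    (h' : ∀ i j, i ≠ j → L' i j = 0) (ht : ∑ i, L i i = 0)
    (e : ∀ i j, L' i j = ∑ k, ∑ l, bm (el rM5) i k * bm (el rM5) j l * L k l) (i j : GolayPt) :
    L i j = 0 := by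
  have h1 : ∀ i l, L l l = L' i i := fun i l => by
    have h2 : ∑ j, bm (el rM5) j l * L' i j = bm (el rM5) i l * L' i i :=
      sum_eq_single i (fun j _ hj => by rw [h' i j hj.symm, mul_zero]) (by simp)
    have h3 : ∑ j, bm (el rM5) j l * L' i j = ∑ k, bm (el rM5) i k * L k k *
        ∑ j, bm (el rM5) j k * bm (el rM5) j l := by
      simp only [e, mul_sum]
      rw [sum_comm]
      refine sum_congr rfl fun k _ => sum_congr rfl fun j _ => ?_
      rw [sum_eq_single k (fun m _ hm => by rw [h k m hm.symm]; simp) (by simp)]; ring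
    simp only [bm_orth, mul_ite, mul_one, mul_zero, sum_ite_eq', mem_univ, if_true] at h3
    exact mul_left_cancel₀ (bm_dense i l) (h3.symm.trans h2)
  by_cases hij : i = j
  · subst hij
    rw [sum_congr rfl fun l _ => (h1 i l).trans (h1 i i).symm, sum_const, nsmul_eq_mul] at ht
    exact (mul_eq_zero.1 ht).resolve_left (by exact_mod_cast card_ne_zero.2 univ_nonempty)
  · exact h i j hij

theorem cW_pZ (x : Fin 4096) (i : GolayPt) : cW x i ∘ₗ ρL (pq pZ) = (-1 : ℝ) • cW x i := by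
  rw [cW_ρL_pq, xorF_of_mod (by decide), par_and_left (by decide)]
  exact congrArg (· • _) sg_one

theorem cS_pZ (p : ℕ) : cS p ∘ₗ ρL (pq pZ) = cS p := by
  rw [cS_ρL_pq, pcomm_congr (p' := 0) (q' := p) (by decide) rfl]
  simp [pcomm, par_zero, sg_zero]

theorem exists_φ_short {p q : ℕ} (hp : IsSh p) (hq : IsSh q) : ∃ g, cS (φ g p) = cS q := by
  have h : ∀ {p}, IsSh p → p % 2 ^ 25 ∈ Sh25 := fun {p} h =>
    ⟨Nat.mod_lt _ (by norm_num), h.congr (by omega)⟩
  obtain ⟨g, -, e⟩ := (orb_short (h hp)).ge (h hq)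
  exact ⟨g, by rw [← φ_mod, e, cS_mod]⟩

/-- Invariant subspaces. -/
structure Inv (U : Submodule ℝ V) : Prop where
  ρ : ∀ g, ∀ v ∈ U, ρL g v ∈ U
  τ : ∀ v ∈ U, τL v ∈ U
  tr : ∀ v ∈ U, trV v = 0

variable {U U' : Submodule ℝ V}

theorem Inv.eq_bot (h : Inv U) {p : ℕ} (hp : IsSh p) (h0 : ∀ v ∈ U, cS p v = 0) : U = ⊥ := by
  have hS : ∀ q, ∀ v ∈ U, cS q v = 0 := fun q v hv => by
    by_cases hq : IsSh q
    · obtain ⟨g, e⟩ := exists_φ_short hq hp
      rw [← cS_φ_ρL g q, e]; exact h0 _ (h.ρ g v hv)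
    · rw [cS_of_not hq]; rfl
  have hA : ∀ v ∈ U, ∀ i j, i ≠ j → cA i j v = 0 := fun v hv i j hij => by
    have := labOK.τ_B hij v
    rw [hS _ _ (h.τ v hv), hS _ v hv, hS _ v hv] at this
    linarith
  have hW : ∀ v ∈ U, ∀ x : Fin 4096, x.1 % 2 = 0 → ∀ i, cW x i v = 0 := fun v hv x hx i => by
    rw [← labOK.τ_X hx, hS _ _ (h.τ v hv)]
  refine (Submodule.eq_bot_iff _).2 fun v hv => V_ext (fun i j => ?_)
    (fun p => (hS _ v hv).trans (map_zero _).symm) fun x i => ?_
  · rw [map_zero]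
    exact diag_eq_zero (L := fun i j => cA i j v) (hA v hv) (hA _ (h.ρ (el rM5) v hv))
      ((trV_apply v).symm.trans (h.tr v hv)) (fun i j => by
        simp only [cA_ρL_apply, mul_assoc]) i j
  · rw [map_zero]
    by_cases hx : x.1 % 2 = 0
    · exact hW v hv x hx i
    · have hx' : (xorF x 1).1 % 2 = 0 := by rw [xorF_one, xor_one_mod]; omega
      have := τ_W0 hx' i v
      rw [hW _ (h.τ v hv) _ hx', xorF_xorF] at this
      exact (mul_eq_zero.1 this.symm).resolve_left (sg_ne_zero _)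

theorem sg_mul_of_ne {a b : ℕ} (ha : a < 2) (hb : b < 2) (h : a ≠ b) : sg a * sg b = -1 := by
  interval_cases a <;> interval_cases b <;> simp_all [sg_zero, sg_one]

theorem exists_pcomm_ne {p q : ℕ} (h : p % 2 ^ 24 ≠ q % 2 ^ 24) :
    ∃ k < 24, pcomm (2 ^ k) p ≠ pcomm (2 ^ k) q := by
  obtain ⟨k, hk, e⟩ := exists_pcomm (p := p ^^^ q) (by
    rwa [Nat.xor_mod_two_pow, Ne, Nat.xor_eq_zero_iff])
  refine ⟨k, hk, fun e' => ?_⟩
  rw [pcomm_xor_right, e', Nat.xor_self] at e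
  exact absurd e (by decide)

theorem IsSh.ne_zero {p : ℕ} (h : IsSh p) : p % 2 ^ 24 ≠ 0 := by
  obtain ⟨x, hx, e⟩ := h
  have : nm x = 32 := hx
  rw [e]; exact cls_ne_zero (by omega) (by omega)

/-- A non-zero invariant subspace contains the basis vector of the short class `p`. -/
theorem Inv.exists_basis (h : Inv U) (hU : U ≠ ⊥) {p : ℕ} (hp : IsSh p) :
    ∃ w ∈ U, cS p w ≠ 0 ∧ (∀ x i, cW x i w = 0) ∧ (∀ i j, cA i j w = 0) ∧
      ∀ q, q % 2 ^ 24 ≠ p % 2 ^ 24 → cS q w = 0 := by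
  have key : ∀ n, ∃ w ∈ U, cS p w ≠ 0 ∧ (∀ x i, cW x i w = 0) ∧
      (∀ k < n, pcomm (2 ^ k) p = 1 → ∀ i j, cA i j w = 0) ∧
      ∀ k < n, ∀ q, pcomm (2 ^ k) q ≠ pcomm (2 ^ k) p → cS q w = 0 := fun n => by
    induction n with
    | zero =>
      obtain ⟨v, hv, h1⟩ : ∃ v ∈ U, cS p v ≠ 0 := by
        by_contra hc
        push Not at hc
        exact hU (h.eq_bot hp hc)
      refine ⟨v + ρL (pq pZ) v, U.add_mem hv (h.ρ _ v hv), ?_, fun x i => ?_, by simp, by simp⟩
      · have := LinearMap.congr_fun (cS_pZ p) v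
        rw [map_add, show cS p (ρL _ v) = _ from this]
        exact fun e => h1 (by linarith)
      · have := LinearMap.congr_fun (cW_pZ x i) v
        rw [map_add, show cW x i (ρL _ v) = _ from this]
        simp
    | succ n ih =>
      obtain ⟨w, hw, h1, h2, h3, h4⟩ := ih
      have eS : ∀ q, cS q (w + sg (pcomm (2 ^ n) p) • ρL (pq (2 ^ n)) w) =
          (1 + sg (pcomm (2 ^ n) p) * sg (pcomm (2 ^ n) q)) * cS q w := fun q => by
        have := LinearMap.congr_fun (cS_ρL_pq (2 ^ n) q) w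
        rw [map_add, map_smul, show cS q (ρL _ w) = _ from this]
        simp only [LinearMap.smul_apply, smul_eq_mul]; ring
      have eA : ∀ i j, cA i j (w + sg (pcomm (2 ^ n) p) • ρL (pq (2 ^ n)) w) =
          (1 + sg (pcomm (2 ^ n) p)) * cA i j w := fun i j => by
        have := LinearMap.congr_fun (cA_ρL_pq (2 ^ n) i j) w
        rw [map_add, map_smul, show cA i j (ρL _ w) = _ from this]
        simp only [smul_eq_mul]; ring
      refine ⟨_, U.add_mem hw (U.smul_mem (sg (pcomm (2 ^ n) p)) (h.ρ (pq (2 ^ n)) w hw)), ?_,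
        fun x i => ?_, fun k hk e i j => ?_, fun k hk q e => ?_⟩
      · rw [eS, sg_mul_self]
        exact mul_ne_zero (by norm_num) h1
      · have := LinearMap.congr_fun (cW_ρL_pq (2 ^ n) x i) w
        rw [map_add, map_smul, show cW x i (ρL _ w) = _ from this]
        simp [h2]
      · rw [eA]
        rcases Nat.lt_succ_iff_lt_or_eq.1 hk with hk | rfl
        · rw [h3 k hk e, mul_zero]
        · rw [e, sg_one]; simp
      · rw [eS]
        rcases Nat.lt_succ_iff_lt_or_eq.1 hk with hk | rfl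
        · rw [h4 k hk q e, mul_zero]
        · rw [sg_mul_of_ne (pcomm_lt _ _) (pcomm_lt _ _) e.symm]; simp
  obtain ⟨w, hw, h1, h2, h3, h4⟩ := key 24
  obtain ⟨k, hk, e⟩ := exists_pcomm (IsSh.ne_zero hp)
  refine ⟨w, hw, h1, h2, h3 k hk e, fun q hq => ?_⟩
  obtain ⟨k, hk, e⟩ := exists_pcomm_ne hq
  exact h4 k hk q e

theorem isSh_pT : IsSh pT := pT_mem_Sh25.2

/-- Two non-zero invariant subspaces meet. -/
theorem Inv.inf_ne_bot (h : Inv U) (h' : Inv U') (hU : U ≠ ⊥) (hU' : U' ≠ ⊥) : U ⊓ U' ≠ ⊥ := by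
  obtain ⟨w, hw, h1, h2, h3, h4⟩ := h.exists_basis hU isSh_pT
  obtain ⟨w', hw', h1', h2', h3', h4'⟩ := h'.exists_basis hU' isSh_pT
  have e : cS pT w' • w = cS pT w • w' := V_ext (fun i j => by simp [h3, h3'])
    (fun q => by
      by_cases hq : q.1 % 2 ^ 24 = pT % 2 ^ 24
      · have : q.1 = pT := by rwa [Nat.mod_eq_of_lt q.2.1, Nat.mod_eq_of_lt (by decide)] at hq
        rw [this, map_smul, map_smul, smul_eq_mul, smul_eq_mul, mul_comm]
      · simp [h4 _ hq, h4' _ hq]) fun x i => by simp [h2, h2']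
  intro hb
  have : cS pT w' • w ∈ U ⊓ U' := ⟨U.smul_mem _ hw, e ▸ U'.smul_mem _ hw'⟩
  rw [hb, Submodule.mem_bot] at this
  have h5 := congrArg (cS pT) this
  rw [map_smul, map_zero] at h5
  exact mul_ne_zero h1' h1 h5

/-- A linear map on the dual space is determined by its values at the coordinates. -/
theorem VD_ext {E : Type*} [AddCommGroup E] [Module ℝ E] {F : VD →ₗ[ℝ] E}
    (hA : ∀ i j, F (cA i j) = 0) (hS : ∀ p, IsSh p → F (cS p) = 0) (hW : ∀ x i, F (cW x i) = 0) :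
    F = 0 := by
  have : FiniteDimensional ℝ V := Module.finite_of_finrank_pos (by rw [finrank_V]; norm_num)
  have h : (LinearMap.ker F).dualCoannihilator = ⊥ := (Submodule.eq_bot_iff _).2 fun v hv => by
    rw [Submodule.mem_dualCoannihilator] at hv
    exact V_ext (fun i j => (hv _ (hA i j)).trans (map_zero _).symm)
      (fun p => (hv _ (hS _ p.2.2)).trans (map_zero _).symm)
      fun x i => (hv _ (hW x i)).trans (map_zero _).symm
  rw [← LinearMap.ker_eq_top, ← Subspace.dualCoannihilator_dualAnnihilator_eq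
    (W := LinearMap.ker F), h, Submodule.dualAnnihilator_bot]

end Cfsg.Lib.Mon.Rp
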