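import Cfsg.Agent.Mon.RIrr

/-! The Monster programme: invariant trilinear forms on the dual of the model `V`. -/

set_option autoImplicit false

namespace Cfsg.Lib.Mon.Rp

open Cfsg Cfsg.Lib.Spor Cfsg.Lib.Spor.CK Finset

/-- Trilinear forms on the dual space. -/
abbrev T3 : Type := VD →ₗ[ℝ] VD →ₗ[ℝ] VD →ₗ[ℝ] ℝ

/-- Invariant forms which kill the trace in the first two arguments. -/
structure InvT (T : T3) : Prop where
  ρ : ∀ g f f' f'', T (f ∘ₗ ρL g) (f' ∘ₗ ρL g) (f'' ∘ₗ ρL g) = T f f' f''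
  τ : ∀ f f' f'', T (f ∘ₗ τL) (f' ∘ₗ τL) (f'' ∘ₗ τL) = T f f' f''
  tr1 : ∀ f f', T trV f f' = 0
  tr2 : ∀ f f', T f trV f' = 0

variable {T : T3}

theorem InvT.flip (h : InvT T) : InvT T.flip :=
  ⟨fun g f f' f'' => h.ρ g f' f f'', fun f f' f'' => h.τ f' f f'', h.tr2, h.tr1⟩

theorem InvT.sign (h : InvT T) (g : GH) {f f' f'' : VD} {a b c : ℝ} (e : f ∘ₗ ρL g = a • f)
    (e' : f' ∘ₗ ρL g = b • f') (e'' : f'' ∘ₗ ρL g = c • f'') (hs : a * b * c = -1) :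
    T f f' f'' = 0 := by
  have := h.ρ g f f' f''
  rw [e, e', e''] at this
  simp only [map_smul, LinearMap.smul_apply, smul_eq_mul] at this
  linear_combination (-1 / 2 : ℝ) * this + (T f f' f'' / 2) * hs

theorem exists_pair {p q r : ℕ} (hp : IsSh p) (hq : IsSh q) (hr : IsSh r)
    (h : (p ^^^ q ^^^ r) % 2 ^ 24 = 0) : ∃ g, φ g pT = p % 2 ^ 25 ∧ φ g pT2 = q % 2 ^ 25 := by
  obtain ⟨g, -, e⟩ := orb_pT.ge (⟨Nat.mod_lt p (by norm_num), hp.congr (by omega)⟩ : p % 2 ^ 25 ∈ Sh25)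
  obtain ⟨x, hx, ex⟩ := hq.φ g⁻¹
  obtain ⟨y, hy, ey⟩ := hr.φ g⁻¹
  have hx : nm x = 32 := hx
  have hy : nm y = 32 := hy
  have h1 : cls y = cls uT ^^^ cls x := by
    rw [← ey, ← ex, ← pT_mod, ← φ_inv_φ g pT_lt, e, φ_mod, ← pmul_mod, ← φ_pmul]
    obtain ⟨w, hw⟩ := cls_surj (Nat.mod_lt r (Nat.two_pow_pos 24))
    rw [φ_cls _ hw.symm, φ_cls (x := w)]
    rw [pmul_mod, hw, ← Nat.xor_mod_two_pow]
    rw [Nat.xor_mod_two_pow, Nat.xor_eq_zero_iff] at h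
    exact h
  have h2 : ∃ x' ∈ C1 uT 16, cls x = cls x' := by
    rcases le_total 0 (dt uT x) with hs | hs
    · have h3 : nm (uT - x) = 64 - 2 * dt uT x := by rw [nm_sub, nm_uT, hx]; ring
      refine ⟨x, ⟨hx, ?_⟩, rfl⟩
      rcases (cls_eq_iff.1 (h1.trans (cls_sub _ _).symm)).eq_of_Min hy (by omega) with a | a <;>
        rw [a] at h3 <;> have := nm_neg y <;> omega
    · have h3 : nm (uT + x) = 64 + 2 * dt uT x := by rw [nm_add, nm_uT, hx]; ring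
      refine ⟨-x, ⟨(nm_neg x).trans hx, ?_⟩, (cls_neg x).symm⟩
      rw [dt_neg_right]
      rcases (cls_eq_iff.1 (h1.trans (cls_add _ _).symm)).eq_of_Min hy (by omega) with a | a <;>
        rw [a] at h3 <;> have := nm_neg y <;> omega
  obtain ⟨x', hx', e'⟩ := h2
  obtain ⟨k, hk, ek⟩ := orb_H_pT2.ge ⟨φ_lt g⁻¹ q, x', hx', ex.trans e'⟩
  exact ⟨g * k, by rw [φ_mul, (mem_FxS_one pT_lt).1 hk, e],
    by rw [φ_mul, ek, ← φ_mul, mul_inv_cancel, φ_one']⟩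

theorem InvT.sss (h : InvT T) (h0 : T (cS pT) (cS pT2) (cS (pmul pT pT2)) = 0) (p q r : ℕ) :
    T (cS p) (cS q) (cS r) = 0 := by
  by_cases hp : IsSh p
  swap; · simp [cS_of_not hp]
  by_cases hq : IsSh q
  swap; · simp [cS_of_not hq]
  by_cases hr : IsSh r
  swap; · simp [cS_of_not hr]
  by_cases e : (p ^^^ q ^^^ r) % 2 ^ 24 = 0
  · obtain ⟨g, e1, e2⟩ := exists_pair hp hq hr e
    have e3 : r % 2 ^ 24 = φ g (pmul pT pT2) % 2 ^ 24 := by
      rw [φ_pmul, pmul_mod, e1, e2, Nat.mod_mod_of_dvd _ (by norm_num),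
        Nat.mod_mod_of_dvd _ (by norm_num), ← Nat.xor_mod_two_pow]
      rw [Nat.xor_mod_two_pow, Nat.xor_eq_zero_iff] at e
      exact e.symm
    rw [← cS_mod p, ← cS_mod q, ← e1, ← e2, cS_eq_smul e3, map_smul, ← h.ρ g, cS_φ_ρL, cS_φ_ρL,
      cS_φ_ρL, h0, smul_zero]
  · obtain ⟨k, -, e⟩ := exists_pcomm e
    refine h.sign _ (cS_ρL_pq (2 ^ k) p) (cS_ρL_pq _ q) (cS_ρL_pq _ r) ?_
    rw [← sg_xor, ← sg_xor, ← pcomm_xor_right, ← pcomm_xor_right, e, sg_one]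

/-- The span of the short coordinates. -/
noncomputable def SS : Submodule ℝ VD := Submodule.span ℝ (Set.range cS)

theorem cS_mem (p : ℕ) : cS p ∈ SS := Submodule.subset_span ⟨p, rfl⟩

theorem sss_span (hs : ∀ p q r, T (cS p) (cS q) (cS r) = 0) {f f' f'' : VD} (a : f ∈ SS)
    (b : f' ∈ SS) (c : f'' ∈ SS) : T f f' f'' = 0 := by
  induction a using Submodule.span_induction with
  | mem _ h =>
    obtain ⟨p, rfl⟩ := h
    induction b using Submodule.span_induction with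
    | mem _ h =>
      obtain ⟨q, rfl⟩ := h
      induction c using Submodule.span_induction with
      | mem _ h => obtain ⟨r, rfl⟩ := h; exact hs p q r
      | zero => simp
      | add _ _ _ _ h h' => simp [h, h']
      | smul _ _ _ h => simp [h]
    | zero => simp
    | add _ _ _ _ h h' => simp [h, h']
    | smul _ _ _ h => simp [h]
  | zero => simp
  | add _ _ _ _ h h' => simp [h, h']
  | smul _ _ _ h => simp [h]

/-- The translate of a subspace by `τ`. -/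
def Tr (S : Submodule ℝ VD) (f : VD) : Prop := ∃ f' ∈ S, f = f' ∘ₗ τL

/-- The span of the `T`-coordinates. -/
noncomputable def ST : Submodule ℝ VD := Submodule.span ℝ {f | ∃ d k, Oc d ∧ k < 64 ∧ f = cS (Tp d k)}

theorem ST_le : ST ≤ SS := Submodule.span_mono (by rintro _ ⟨d, k, -, -, rfl⟩; exact ⟨_, rfl⟩)

theorem tr_T {d k : ℕ} (hd : Oc d) (hk : k < 64) : Tr ST (cS (Tp d k)) :=
  ⟨(1 / 8 : ℝ) • ∑ j ∈ range 64, (sg (Bf k j) * sg (hm j)) • cS (Tp d j),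
    ST.smul_mem _ (ST.sum_mem fun j hj => ST.smul_mem _
      (Submodule.subset_span ⟨d, j, hd, mem_range.1 hj, rfl⟩)), by
    ext v
    conv_lhs => rw [← labOK.τL_cube v, labOK.τ2_T hd hk]
    simp only [LinearMap.comp_apply, LinearMap.smul_apply, LinearMap.sum_apply, smul_eq_mul]⟩

theorem tr_A {i j : GolayPt} (h : i ≠ j) : Tr SS (cA i j) :=
  ⟨(1 / 2 : ℝ) • (cS (pB i j) - cS (pCc i j)), SS.smul_mem _ (SS.sub_mem (cS_mem _) (cS_mem _)), by
    ext v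
    simp only [LinearMap.comp_apply, LinearMap.smul_apply, LinearMap.sub_apply, smul_eq_mul,
      labOK.τ_B h, labOK.τ_C h]
    ring⟩

theorem Tr.zero (h : InvT T) (hs : ∀ p q r, T (cS p) (cS q) (cS r) = 0) {f f' f'' : VD}
    (a : Tr SS f) (b : Tr SS f') (c : Tr SS f'') : T f f' f'' = 0 := by
  obtain ⟨_, a, rfl⟩ := a
  obtain ⟨_, b, rfl⟩ := b
  obtain ⟨_, c, rfl⟩ := c
  rw [h.τ, sss_span hs a b c]

theorem tr_T' {d k : ℕ} (hd : Oc d) (hk : k < 64) : Tr SS (cS (Tp d k)) :=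
  (tr_T hd hk).imp fun _ h => ⟨ST_le h.1, h.2⟩

theorem tr_W {x : Fin 4096} (hx : x.1 % 2 = 0) (i : GolayPt) : Tr SS (cW x i) :=
  ⟨_, cS_mem (Fa x.1 (ptIdx i)), by ext v; exact (labOK.τ_X hx i v).symm⟩

theorem cW_Z2 (x : Fin 4096) (i : GolayPt) : cW x i ∘ₗ ρL (pq 4096) = sg x.1 • cW x i := by
  rw [cW_ρL_pq, xorF_of_mod (by decide), show 4096 >>> 12 = 2 ^ 0 from rfl, Nat.and_comm,
    par_and_pow _ (by norm_num)]
  exact congrArg (· • _) (sg_congr (by simp))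

theorem oc_p1 : Oc 2 := by unfold Oc; decide +kernel

theorem oc_p0 : Oc 2799 := by unfold Oc; decide +kernel

theorem isSh_p1 : IsSh (Tp 2 1) := Lb.isSh (okT.2 ⟨oc_p1, by norm_num⟩)

theorem InvT.www (h : InvT T) (hs : ∀ p q r, T (cS p) (cS q) (cS r) = 0) (x y : Fin 4096)
    (i j : GolayPt) : T (cW x i) (cW y j) (cS (Tp 2 1)) = 0 := by
  have hz : cS (Tp 2 1) ∘ₗ ρL (pq 4096) = (1 : ℝ) • cS (Tp 2 1) := by
    rw [cS_ρL_pq, show pcomm 4096 (Tp 2 1) = 0 by decide +kernel, sg_zero]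
  have odd : ∀ {x : Fin 4096}, ¬ x.1 % 2 = 0 → ∀ i, ∃ (x' : Fin 4096) (c : ℝ), x'.1 % 2 = 0 ∧
      cW x i = (c • cW x' i) ∘ₗ τL := fun {x} hx i => by
    have hx' : (xorF x 1).1 % 2 = 0 := by rw [xorF_one, xor_one_mod]; omega
    refine ⟨_, sg (fm (xorF x 1).1 (ptIdx i)), hx', ?_⟩
    ext v
    simp only [LinearMap.comp_apply, LinearMap.smul_apply, smul_eq_mul, τ_W0 hx', xorF_xorF,
      ← mul_assoc, sg_mul_self, one_mul]
  by_cases hx : x.1 % 2 = 0 <;> by_cases hy : y.1 % 2 = 0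
  · exact (tr_W hx i).zero h hs (tr_W hy j) (tr_T' oc_p1 (by norm_num))
  · exact h.sign _ (cW_Z2 x i) (cW_Z2 y j) hz (by simp [sg, hx, hy])
  · exact h.sign _ (cW_Z2 x i) (cW_Z2 y j) hz (by simp [sg, hx, hy])
  · obtain ⟨x', c, hx', e⟩ := odd hx i
    obtain ⟨y', c', hy', e'⟩ := odd hy j
    obtain ⟨f, hf, e''⟩ := tr_T oc_p1 (show 1 < 64 by norm_num)
    rw [e, e', e'', h.τ]
    clear e''
    induction hf using Submodule.span_induction with
    | mem _ hf =>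
      obtain ⟨d, k, hd, hk, rfl⟩ := hf
      simp [(tr_W hx' i).zero h hs (tr_W hy' j) (tr_T' hd hk)]
    | zero => simp
    | add _ _ _ _ h h' => rw [map_add, h, h', add_zero]
    | smul _ _ _ h => rw [map_smul, h, smul_zero]

theorem InvT.ass (h : InvT T) (hs : ∀ p q r, T (cS p) (cS q) (cS r) = 0) (i j : GolayPt) (q : ℕ) :
    T (cA i j) (cS q) (cS (Tp 2 1)) = 0 := by
  by_cases e : q % 2 ^ 24 = Tp 2 1 % 2 ^ 24
  · rw [cS_eq_smul e, map_smul, LinearMap.smul_apply]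
    refine smul_eq_zero_of_right _ (diag_eq_zero
      (L := fun i j => T (cA i j) (cS (Tp 2 1)) (cS (Tp 2 1)))
      (L' := fun i j => T (cA i j) (cS (φ (el rM5) (Tp 2 1))) (cS (φ (el rM5) (Tp 2 1))))
      (fun i j hij => (tr_A hij).zero h hs (tr_T' oc_p1 (by norm_num)) (tr_T' oc_p1 (by norm_num)))
      (fun i j hij => ?_) ?_ (fun i j => ?_) i j)
    · have e1 : φ (el rM5) (Tp 2 1) % 2 ^ 24 = Tp 2799 63 % 2 ^ 24 := by
        rw [← Sp.ap_eq raw_M5 (by decide +kernel)]; decide +kernel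
      have e2 := tr_T' oc_p0 (k := 63) (by norm_num)
      simp only [cS_eq_smul e1, map_smul, LinearMap.smul_apply, (tr_A hij).zero h hs e2 e2, smul_zero]
    · rw [← h.tr1 (cS (Tp 2 1)) (cS (Tp 2 1)), trV]
      simp only [map_sum, LinearMap.sum_apply]
    · rw [← h.ρ (el rM5), cS_φ_ρL, cA_ρL]
      simp only [map_sum, LinearMap.sum_apply, map_smul, LinearMap.smul_apply, smul_eq_mul]
  · obtain ⟨k, -, e⟩ := exists_pcomm_ne e
    exact h.sign _ ((cA_ρL_pq (2 ^ k) i j).trans (one_smul _ _).symm) (cS_ρL_pq _ _) (cS_ρL_pq _ _)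
      (by rw [one_mul, sg_mul_of_ne (pcomm_lt _ _) (pcomm_lt _ _) e])

/-- The short coordinate `Tp 2 1` is in the radical. -/
theorem InvT.rad (h : InvT T) (h0 : T (cS pT) (cS pT2) (cS (pmul pT pT2)) = 0) (f f' : VD) :
    T f f' (cS (Tp 2 1)) = 0 := by
  have hs := h.sss h0
  have eA := fun i j => (cA_ρL_pq pZ i j).trans (one_smul ℝ _).symm
  have eS := fun p => (cS_pZ p).trans (one_smul ℝ _).symm
  let F : VD →ₗ[ℝ] VD →ₗ[ℝ] ℝ := T.compr₂ (LinearMap.applyₗ (cS (Tp 2 1)))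
  suffices F = 0 from LinearMap.congr_fun₂ this f f'
  refine VD_ext (fun i j => VD_ext (fun k l => ?_) (fun q _ => h.ass hs i j q) fun y k => ?_)
    (fun p _ => VD_ext (fun k l => h.flip.ass (fun p q r => hs q p r) k l p) (fun q _ => hs p q _)
      fun y k => ?_) fun x i => VD_ext (fun k l => ?_) (fun q _ => ?_) fun y k => h.www hs x y i k
  · obtain ⟨n, -, e⟩ := exists_pcomm (IsSh.ne_zero isSh_p1)
    exact h.sign _ ((cA_ρL_pq (2 ^ n) i j).trans (one_smul _ _).symm)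
      ((cA_ρL_pq _ k l).trans (one_smul _ _).symm) (cS_ρL_pq _ _) (by rw [e, sg_one]; norm_num)
  · exact h.sign _ (eA i j) (cW_pZ y k) (eS _) (by norm_num)
  · exact h.sign _ (eS p) (cW_pZ y k) (eS _) (by norm_num)
  · exact h.sign _ (cW_pZ x i) (eA k l) (eS _) (by norm_num)
  · exact h.sign _ (cW_pZ x i) (eS q) (eS _) (by norm_num)

end Cfsg.Lib.Mon.Rp
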