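import Cfsg.Agent.Mon.PairKit

/-! The Monster programme: following an axis through a word in `G` and `τ`. -/

set_option autoImplicit false

namespace Cfsg.Lib.Mon.Cert

open Cfsg.Lib.Spor.Bulk Cfsg.Lib.Mon.Kit

/-- follow the state `(i, c)` through the word `l`, `e`, with the hints `H` -/
noncomputable def trk (P : Par) (F : ℕ → ℕ × ℕ × ℕ × ℕ) (T : ℕ → List ℕ) (e : ℕ)
    (κ : ℕ → ℕ → Bool) (l : List ℕ) : List (ℕ × List ℕ) → ℕ → ℕ → Bool :=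
  List.rec (fun _ i c => κ i (cmul c e)) (fun a _ r H i c => List.rec false (fun h H' _ =>
    band (Nat.beq (F h.1).1 i) (look P (F h.1).2.1 (F h.1).2.2.2 (T i) h.2 (cmul c a)
      (r H' (F h.1).2.2.1))) H) l

namespace Px

variable {P : Par} {X : Type*} [Group X] (D : Px P X)

/-- `w` is the conjugate of the axis of type `i` by the element with code `c` -/
def At (w : X) (i c : ℕ) : Prop :=
  ∃ g, R c g ∧ g ∈ D.C.S.L ∧ w = (D.A.ι g)⁻¹ * D.ax i * D.A.ι g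

/-- `x = g₁ τ ⋯ gₙ τ e` -/
def Wd (e : ℕ) : List ℕ → X → Prop
  | [], x => ∃ g, R e g ∧ g ∈ D.C.S.L ∧ x = D.A.ι g
  | c :: l, x => ∃ g y, R c g ∧ g ∈ D.C.S.L ∧ Wd e l y ∧ x = D.A.ι g * D.A.τ * y

variable {D}

theorem ax_stab {i : ℕ} {s : GH} (hs : s ∈ D.C.S.stab D.C.K (D.C.U i)) :
    (D.A.ι s)⁻¹ * D.ax i * D.A.ι s = D.ax i := by
  have := conj_eq hs.2
  rw [D.hι] at this
  rw [ax]
  convert this using 1; group

theorem At.mul {w : X} {i c e : ℕ} {g : GH} (h : D.At w i c) (he : R e g) (hg : g ∈ D.C.S.L) :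
    D.At ((D.A.ι g)⁻¹ * w * D.A.ι g) i (cmul c e) := by
  obtain ⟨x, h1, h2, rfl⟩ := h
  exact ⟨_, h1.mul he, mul_mem h2 hg, by rw [map_mul]; group⟩

theorem At.of_ax {i c h : ℕ} {g u : GH} (a : D.Ax i c) (hg : R h g) (hL : g ∈ D.C.S.L) {e : ℕ}
    (hu : R e u) (k : ceq e (cmul (cmul (cinv h) c) h) = true) : D.At (D.A.ι u) i h := by
  obtain ⟨x, h1, h2⟩ := a
  refine ⟨g, hg, hL, ?_⟩
  rw [h2, ← map_inv, ← map_mul, ← map_mul]
  rcases hu.ceq ((hg.inv.mul h1).mul hg) k with e | e <;> rw [e]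
  rw [map_mul, D.A.ι_cc, one_mul]

theorem At.trk {F : ℕ → ℕ × ℕ × ℕ × ℕ} {T : ℕ → List ℕ}
    (hF : ∀ n, D.C.Fa (F n).1 (F n).2.1 (F n).2.2.1 (F n).2.2.2) (hT : ∀ i, D.C.StL i (T i))
    {e : ℕ} {κ : ℕ → ℕ → Bool} {l : List ℕ} {H : List (ℕ × List ℕ)} {w x : X} {i c : ℕ}
    (h : D.At w i c) (hx : D.Wd e l x) (k : trk P F T e κ l H i c = true) :
    ∃ j d, D.At (x⁻¹ * w * x) j d ∧ κ j d = true := by
  induction l generalizing H w x i c with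
  | nil =>
    obtain ⟨g, g1, g2, rfl⟩ := hx
    exact ⟨_, _, h.mul g1 g2, k⟩
  | cons a l ih =>
    obtain ⟨g, y, g1, g2, g3, rfl⟩ := hx
    cases H with
    | nil => exact absurd k Bool.false_ne_true
    | cons n H =>
      have k' : band (Nat.beq (F n.1).1 i) (look P (F n.1).2.1 (F n.1).2.2.2 (T i) n.2 (cmul c a)
        (Cert.trk P F T e κ l H (F n.1).2.2.1)) = true := k
      rw [band_eq, Bool.and_eq_true] at k'
      obtain ⟨u, u1, u2, u3⟩ := h.mul g1 g2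
      obtain ⟨d, v, v1, v2, v3⟩ := Cx.look_spec (Nat.eq_of_beq_eq_true k'.1 ▸ hF n.1) (hT i) u1 u2 k'.2
      obtain ⟨j, d', k1, k2⟩ := ih (w := D.A.τ⁻¹ * ((D.A.ι g)⁻¹ * w * D.A.ι g) * D.A.τ)
        ⟨v, v1, v2.2.1, by rw [ax_eq v2, u3]; group⟩ g3 v3
      exact ⟨j, d', by convert k1 using 1; group, k2⟩

theorem At.eq {w w' : X} {i c c' : ℕ} {T : List ℕ} (h : D.At w i c) (h' : D.At w' i c')
    (hT : D.C.StL i T) (v : List ℕ) (k : ceq c' (wmul T v c) = true) : w = w' := by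
  obtain ⟨g, g1, -, rfl⟩ := h
  obtain ⟨g', g2, -, rfl⟩ := h'
  obtain ⟨s, s1, s2⟩ := Cx.wmul_spec hT v g1
  have : D.A.ι g' = D.A.ι s * D.A.ι g := by
    rcases g2.ceq s2 k with e | e <;> simp only [e, map_mul, D.A.ι_cc, one_mul]
  rw [this, ← ax_stab s1]
  conv_rhs => rw [ax_stab s1]
  group

/-- an equation between axes -/
theorem At.cj {F : ℕ → ℕ × ℕ × ℕ × ℕ} {T : ℕ → List ℕ}
    (hF : ∀ n, D.C.Fa (F n).1 (F n).2.1 (F n).2.2.1 (F n).2.2.2) (hT : ∀ i, D.C.StL i (T i))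
    {e : ℕ} {l : List ℕ} {w w' x : X} {i c i' c' : ℕ} (h : D.At w i c) (hx : D.Wd e l x)
    (h' : D.At w' i' c') (H : List (ℕ × List ℕ)) (v : List ℕ) (k : Cert.trk P F T e
      (fun j d => band (Nat.beq j i') (ceq c' (wmul (T i') v d))) l H i c = true) :
    x⁻¹ * w * x = w' := by
  obtain ⟨j, d, k1, k2⟩ := h.trk hF hT hx k
  rw [band_eq, Bool.and_eq_true] at k2
  exact At.eq (Nat.eq_of_beq_eq_true k2.1 ▸ k1) h' (hT i') v k2.2

end Px

end Cfsg.Lib.Mon.Cert
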