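import Mathlib.GroupTheory.Transfer
import Mathlib.GroupTheory.Abelianization.Defs
import Mathlib.Algebra.Module.LinearMap.End
import Mathlib.Algebra.Module.BigOperators
import Mathlib.Algebra.Module.Torsion.Field
import Mathlib.Tactic.Group
import Mathlib.Tactic.Abel

/-! Extensions of a group by a module: lifts of subgroups, Gaschütz's theorem, conjugacy of lifts. -/

set_option autoImplicit false

namespace Cfsg.Lib.Mon.XC

open Subgroup
open scoped commutatorElement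

variable {E B F V : Type*} [Group E] [Group B] [Field F] [AddCommGroup V] [Module F V]

/-- An extension of `B` by the module `V`. -/
structure Ext (π : E →* B) (σ : B →* Module.End F V) (ι : V → E) : Prop where
  surj : Function.Surjective π
  add : ∀ v w, ι (v + w) = ι v * ι w
  inj : Function.Injective ι
  ker : ∀ e, π e = 1 ↔ ∃ v, ι v = e
  act : ∀ e v, e * ι v * e⁻¹ = ι (σ (π e) v)

/-- `π` is injective on `K`. -/
def Inj (π : E →* B) (K : Subgroup E) : Prop := ∀ k ∈ K, π k = 1 → k = 1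

/-- `π` maps `K` isomorphically onto `X`. -/
structure Lift (π : E →* B) (K : Subgroup E) (X : Subgroup B) : Prop where
  inj : Inj π K
  mem : ∀ k ∈ K, π k ∈ X
  ex : ∀ x ∈ X, ∃ k ∈ K, π k = x

variable {π : E →* B} {σ : B →* Module.End F V} {ι : V → E} {K K' : Subgroup E} {X Y O : Subgroup B}

theorem Inj.eq (h : Inj π K) {a b : E} (ha : a ∈ K) (hb : b ∈ K) (e : π a = π b) : a = b :=
  mul_inv_eq_one.1 (h _ (mul_mem ha (inv_mem hb)) (by rw [map_mul, map_inv, e, mul_inv_cancel]))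

theorem Lift.inf (L : Lift π K X) (h : O ≤ X) : Lift π (K ⊓ O.comap π) O :=
  ⟨fun k a => L.inj k a.1, fun _ a => a.2, fun x a => let ⟨k, b, c⟩ := L.ex x (h a); ⟨k, ⟨b, (c ▸ a : π k ∈ O)⟩, c⟩⟩

theorem Lift.le (L : Lift π K X) (L' : Lift π K' X) (h : K ≤ K') : K' ≤ K := fun k a =>
  let ⟨_, b, c⟩ := L.ex _ (L'.mem k a); L'.inj.eq (h b) a c ▸ b

/-- The conjugate `e K e⁻¹`. -/
def cj (e : E) (K : Subgroup E) : Subgroup E := K.comap (MulAut.conj e⁻¹).toMonoidHom

theorem mem_cj {e k : E} : k ∈ cj e K ↔ e⁻¹ * k * e ∈ K := by simp [cj]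

theorem Lift.cj (L : Lift π K X) {e : E} (h : π e ∈ normalizer (X : Set B)) : Lift π (cj e K) X := by
  refine ⟨fun k a b => ?_, fun k a => ?_, fun x a => ?_⟩
  · have := L.inj _ (mem_cj.1 a) (by simp [b])
    rwa [mul_assoc, inv_mul_eq_one, eq_comm, mul_eq_right] at this
  · have := L.mem _ (mem_cj.1 a)
    rw [map_mul, map_mul, map_inv] at this
    exact (mem_normalizer_iff''.1 h _).2 this
  · obtain ⟨k, b, c⟩ := L.ex _ ((mem_normalizer_iff''.1 h _).1 a)
    exact ⟨e * k * e⁻¹, mem_cj.2 (by simpa [mul_assoc] using b), by simp [c, mul_assoc]⟩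

theorem mem_norm {k : E} (a : k ∈ K) (b : π k ∈ normalizer (O : Set B)) :
    k ∈ normalizer ((K ⊓ O.comap π : Subgroup E) : Set E) := mem_normalizer_iff.2 fun x =>
  and_congr (mem_normalizer_iff.1 (le_normalizer a) x) (by
    have := mem_normalizer_iff.1 b (π x)
    rwa [← map_inv, ← map_mul, ← map_mul] at this)

theorem Lift.bot : Lift π ⊥ ⊥ :=
  ⟨fun _ a _ => a, fun _ a => by rw [mem_bot.1 a, map_one]; exact one_mem _,
    fun _ a => ⟨1, one_mem _, by rw [mem_bot.1 a, map_one]⟩⟩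

theorem Lift.norm (L : Lift π K O) (I : Inj π K') (h : K ≤ K') {e : E} (a : e ∈ K')
    (b : π e ∈ normalizer (O : Set B)) : e ∈ normalizer (K : Set E) := by
  rw [le_antisymm (le_inf h L.mem : K ≤ K' ⊓ O.comap π) fun k c =>
    let ⟨_, d, f⟩ := L.ex _ c.2; I.eq (h d) c.1 f ▸ d]
  exact mem_norm a b

theorem comm_le {G : Type*} [Group G] (K : Subgroup G) : ⁅K, K⁆ ≤ K := commutator_le.2 fun _ ha _ hb =>
  mul_mem (mul_mem (mul_mem ha hb) (inv_mem ha)) (inv_mem hb)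

theorem Lift.map_comm (h : ∀ x ∈ X, ∃ k ∈ K, π k = x) (h' : ∀ k ∈ K, π k ∈ X) (i : Inj π ⁅K, K⁆) :
    Lift π ⁅K, K⁆ ⁅X, X⁆ := by
  have e : K.map π = X := le_antisymm (map_le_iff_le_comap.2 h') h
  rw [← e, ← map_commutator]
  exact ⟨i, fun k a => ⟨k, a, rfl⟩, fun _ a => a⟩

namespace Ext

variable (h : Ext π σ ι)
include h

theorem zero : ι 0 = 1 := mul_eq_left.1 ((h.add 0 0).symm.trans (by rw [add_zero]))

theorem neg (v : V) : ι (-v) = (ι v)⁻¹ := eq_inv_of_mul_eq_one_left (by rw [← h.add, neg_add_cancel, h.zero])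

theorem map (v : V) : π (ι v) = 1 := (h.ker _).2 ⟨v, rfl⟩

theorem pow (v : V) (n : ℕ) : ι ((n : F) • v) = ι v ^ n := by
  induction n with
  | zero => rw [Nat.cast_zero, zero_smul, h.zero, pow_zero]
  | succ n ih => rw [Nat.cast_succ, add_smul, one_smul, h.add, ih, pow_succ]

theorem comm {e : E} {v : V} (a : σ (π e) v = v) : e * ι v = ι v * e := by
  rw [← mul_inv_eq_iff_eq_mul, h.act, a]

theorem fix (L : Lift π K O) {v : V} (a : ι v ∈ normalizer (K : Set E)) : ∀ o ∈ O, σ o v = v := fun o b => by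
  obtain ⟨k, c, rfl⟩ := L.ex o b
  have := L.inj.eq ((mem_normalizer_iff.1 a k).1 c) c (by simp [h.map])
  exact h.inj (by rw [← h.act, mul_inv_eq_iff_eq_mul, ← mul_inv_eq_iff_eq_mul.1 this])

theorem inj_norm (L : Lift π K O) (a : ∀ v, (∀ o ∈ O, σ o v = v) → v = 0) :
    Inj π (normalizer (K : Set E)) := fun k b c => by
  obtain ⟨v, rfl⟩ := (h.ker k).1 c
  rw [a v (h.fix L b), h.zero]

theorem der (L : Lift π K X) : ∃ r : E → V, (∀ e, π e ∈ X → (ι (r e))⁻¹ * e ∈ K) ∧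
    (∀ e e', π e ∈ X → π e' ∈ X → r (e * e') = r e + σ (π e) (r e')) ∧ ∀ v, r (ι v) = v := by
  have h1 : ∀ e, ∃ v, π e ∈ X → (ι v)⁻¹ * e ∈ K := fun e => by
    by_cases a : π e ∈ X
    · obtain ⟨k, b, c⟩ := L.ex _ a
      obtain ⟨v, d⟩ := (h.ker (e * k⁻¹)).1 (by simp [c])
      exact ⟨v, fun _ => by simpa [d] using b⟩
    · exact ⟨0, fun b => absurd b a⟩
  choose r hr using h1
  have u : ∀ e v w, (ι v)⁻¹ * e ∈ K → (ι w)⁻¹ * e ∈ K → v = w := fun e v w a b =>
    h.inj (inv_injective (mul_right_cancel (L.inj.eq a b (by simp [h.map]))))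
  refine ⟨r, hr, fun e e' a b => u (e * e') _ _ (hr _ (by rw [map_mul]; exact mul_mem a b)) ?_,
    fun v => u (ι v) _ _ (hr _ (by rw [h.map]; exact one_mem _)) (by simp)⟩
  have := h.act ((ι (r e))⁻¹ * e) (r e')
  rw [map_mul, map_inv, h.map, inv_one, one_mul] at this
  rw [h.add, ← this]
  convert mul_mem (hr e a) (hr e' b) using 1
  group

theorem of_der (R : E → V) {n : F} (hn : n ≠ 0)
    (a : ∀ e e', π e ∈ Y → π e' ∈ Y → R (e * e') = R e + σ (π e) (R e')) (b : ∀ v, R (ι v) = n • v) :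
    ∃ K, Lift π K Y := by
  have h1 : R 1 = 0 := by rw [← h.zero, b, smul_zero]
  refine ⟨⟨⟨⟨{e | π e ∈ Y ∧ R e = 0}, fun {x y} c d => ⟨by rw [map_mul]; exact mul_mem c.1 d.1, by
    rw [a x y c.1 d.1, c.2, d.2, map_zero, add_zero]⟩⟩, by rw [map_one]; exact one_mem _, h1⟩,
    fun {x} c => ?_⟩, fun k c d => ?_, fun _ c => c.1, fun y c => ?_⟩
  · have d : π x⁻¹ ∈ Y := by rw [map_inv]; exact inv_mem c.1
    have := a _ _ d c.1
    rw [inv_mul_cancel, h1, c.2, map_zero, add_zero] at this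
    exact ⟨d, this.symm⟩
  · obtain ⟨v, rfl⟩ := (h.ker k).1 d
    rw [(smul_eq_zero.1 ((b v).symm.trans c.2)).resolve_left hn, h.zero]
  · obtain ⟨e, rfl⟩ := h.surj y
    have d : ∀ v, π (ι v * e) = π e := fun v => by rw [map_mul, h.map, one_mul]
    refine ⟨ι (-(n⁻¹ • R e)) * e, ⟨(d _).symm ▸ c, ?_⟩, d _⟩
    rw [a _ _ (by rw [h.map]; exact one_mem _) c, b, h.map, map_one, smul_neg, smul_smul,
      mul_inv_cancel₀ hn, one_smul, Module.End.one_apply, neg_add_cancel]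

/-- Gaschütz's theorem. -/
theorem gaschutz (L : Lift π K X) (hn : (X.relIndex Y : F) ≠ 0) : ∃ K, Lift π K Y := by
  classical
  obtain ⟨r, -, r2, r3⟩ := h.der L
  have : Fintype (Y ⧸ X.subgroupOf Y) := fintypeOfIndexNeZero fun e => hn (by
    rw [relIndex, e, Nat.cast_zero])
  choose t ht using fun q : Y ⧸ X.subgroupOf Y => h.surj (q.out : Y)
  have hx : ∀ (e : E) (a : π e ∈ Y) (q), π ((t ((⟨π e, a⟩ : Y) • q))⁻¹ * e * t q) ∈ X := fun e a q => by
    rw [map_mul, map_mul, map_inv, ht, ht, mul_assoc]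
    exact mem_subgroupOf.1 (QuotientGroup.eq.1 ((QuotientGroup.out_eq' ((⟨π e, a⟩ : Y) • q)).trans
      (MulAction.Quotient.mk_smul_out (X.subgroupOf Y) (⟨π e, a⟩ : Y) q).symm))
  refine h.of_der (fun e => if a : π e ∈ Y then ∑ q, σ (π (t ((⟨π e, a⟩ : Y) • q)))
    (r ((t ((⟨π e, a⟩ : Y) • q))⁻¹ * e * t q)) else 0) hn (fun e e' a b => ?_) fun v => ?_
  · have c : π (e * e') ∈ Y := by rw [map_mul]; exact mul_mem a b
    rw [dif_pos a, dif_pos b, dif_pos c, map_sum, ← Equiv.sum_comp (MulAction.toPerm (⟨π e', b⟩ : Y))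
      fun q => σ (π (t ((⟨π e, a⟩ : Y) • q))) _, ← Finset.sum_add_distrib]
    refine Finset.sum_congr rfl fun q _ => ?_
    have d : (⟨π (e * e'), c⟩ : Y) • q = (⟨π e, a⟩ : Y) • (⟨π e', b⟩ : Y) • q := by
      rw [← mul_smul]; exact congrArg (· • q) (Subtype.ext (map_mul π e e'))
    have := r2 _ _ (hx e a ((⟨π e', b⟩ : Y) • q)) (hx e' b q)
    rw [mul_assoc (_ * e), mul_assoc _ e', mul_inv_cancel_left, ← mul_assoc, mul_assoc _ e] at this
    rw [d, this, map_add, MulAction.toPerm_apply, ← Module.End.mul_apply, ← Module.End.mul_apply,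
      ← map_mul, ← map_mul, ← map_mul, ← map_mul, mul_assoc, mul_inv_cancel_left, mul_assoc _ e']
  · have a : π (ι v) ∈ Y := by rw [h.map]; exact one_mem _
    rw [dif_pos a, show (⟨_, a⟩ : Y) = 1 from Subtype.ext (h.map v), relIndex, index_eq_card,
      Nat.card_eq_fintype_card, Nat.cast_smul_eq_nsmul, ← Finset.card_univ]
    refine Finset.sum_eq_card_nsmul fun q _ => ?_
    have := h.act (t q)⁻¹ v
    rw [inv_inv] at this
    rw [one_smul, this, r3, ← Module.End.mul_apply, ← map_mul, ← map_mul, mul_inv_cancel, map_one, map_one,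
      Module.End.one_apply]

/-- Lifts of a finite group of invertible order are conjugate. -/
theorem conj [Finite O] (L : Lift π K O) (L' : Lift π K' O) (hn : (Nat.card O : F) ≠ 0) :
    ∃ v, K = cj (ι v) K' := by
  obtain ⟨r, r1, r2, -⟩ := h.der L'
  have e : Function.Bijective fun k : K => (⟨π k, L.mem k k.2⟩ : O) :=
    ⟨fun a b c => Subtype.ext (L.inj.eq a.2 b.2 (congrArg Subtype.val c)),
      fun o => let ⟨k, a, b⟩ := L.ex o o.2; ⟨⟨k, a⟩, Subtype.ext b⟩⟩
  have := Finite.of_injective _ e.1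
  have := Fintype.ofFinite K
  rw [← Nat.card_eq_of_bijective _ e, Nat.card_eq_fintype_card] at hn
  refine ⟨(Fintype.card K : F)⁻¹ • ∑ k : K, r k, ?_⟩
  generalize hv : (Fintype.card K : F)⁻¹ • ∑ k : K, r k = v
  have h1 : K ≤ cj (ι v) K' := fun k a => by
    have h2 : r k = -σ (π k) v + v := by
      have := Equiv.sum_comp (Equiv.mulLeft (⟨k, a⟩ : K)) fun x : K => r x
      simp only [Equiv.coe_mulLeft, coe_mul, fun x : K => r2 k x (L.mem k a) (L.mem x x.2),
        Finset.sum_add_distrib, Finset.sum_const, Finset.card_univ, ← map_sum] at this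
      rw [← hv, map_smul, ← smul_neg, ← smul_add, ← eq_sub_of_add_eq this |>.trans (sub_eq_neg_add _ _),
        ← Nat.cast_smul_eq_nsmul F, smul_smul, inv_mul_cancel₀ hn, one_smul]
    have := r1 k (L.mem k a)
    rw [h2, h.add, h.neg, ← h.act] at this
    exact mem_cj.2 (by convert this using 1; group)
  exact le_antisymm h1 (L.le (L'.cj (by rw [h.map]; exact one_mem _)) h1)

/-- The Frattini argument. -/
theorem frattini [Finite O] (L : Lift π K O) (hn : (Nat.card O : F) ≠ 0) {b : B}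
    (hb : b ∈ normalizer (O : Set B)) : ∃ e ∈ normalizer (K : Set E), π e = b := by
  obtain ⟨e, rfl⟩ := h.surj b
  obtain ⟨v, hv⟩ := h.conj L (L.cj hb) hn
  refine ⟨ι v * e, mem_normalizer_iff''.2 fun x => ?_, by rw [map_mul, h.map, one_mul]⟩
  conv_lhs => rw [hv, mem_cj, mem_cj]
  exact iff_of_eq (congrArg (· ∈ K) (by group))

/-- The transfer argument. -/
theorem inj_comm [Finite B] {p : ℕ} (hp : p.Prime) (hF : ∀ n, ¬ p ∣ n → (n : F) ≠ 0)
    (hc : ∀ v, ι v ∈ K → ∀ y ∈ K, σ (π y) v = v) (h2 : ¬ p ^ 2 ∣ Nat.card (K.map π)) :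
    Inj π ⁅K, K⁆ := fun a ha h1 => by
  have := Fact.mk hp
  obtain ⟨v, rfl⟩ := (h.ker a).1 h1
  obtain ⟨a, ha, e⟩ := (map_subtype_commutator K).ge ha
  obtain ⟨P⟩ : Nonempty (Sylow p (K.map π)) := inferInstance
  have : IsCyclic P := isCyclic_of_card_dvd_prime (p := p) (by
    obtain ⟨n, hn⟩ := P.isPGroup'.exists_card_eq
    have : n ≤ 1 := by
      by_contra c
      exact h2 ((pow_dvd_pow p (by omega)).trans (hn ▸ card_subgroup_dvd_card _))
    rw [hn]
    exact (pow_dvd_pow p this).trans (pow_one p).dvd)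
  have hz : ∀ x : K, π x = 1 → ∀ y : K, y * x = x * y := fun x b y => by
    obtain ⟨w, c⟩ := (h.ker _).1 b
    exact Subtype.ext (by rw [coe_mul, coe_mul, ← c]; exact h.comm (hc w (c ▸ x.2) y y.2))
  let H := (P : Subgroup (K.map π)).comap (π.subgroupMap K)
  have hi : H.index = (P : Subgroup (K.map π)).index := index_comap_of_surjective _ (π.subgroupMap_surjective K)
  have : H.FiniteIndex := ⟨hi ▸ FiniteIndex.index_ne_zero⟩
  let _ : CommGroup H := commGroupOfCyclicCenterQuotient ((π.subgroupMap K).subgroupComap P) fun x b =>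
    mem_center_iff.2 fun y => Subtype.ext (hz x (congrArg (fun z : P => (z : K.map π).1) b) y)
  have h3 := MonoidHom.transfer_eq_pow (MonoidHom.id H) a fun k g _ => by
    rw [mul_assoc, ← hz (a ^ k) (by rw [coe_pow, map_pow, show (a : E) = _ from e, h1, one_pow]),
      inv_mul_cancel_left]
  rw [Abelianization.commutator_subset_ker _ ha] at h3
  have h4 : ι v ^ H.index = 1 := e ▸ (congrArg (fun z : H => (z : K).1) h3).symm
  rw [← h.pow, ← h.zero] at h4
  rw [(smul_eq_zero.1 (h.inj h4)).resolve_left (hF _ (hi ▸ P.not_dvd_index)), h.zero]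

/-- The canonical lift of the second derived group. -/
theorem lift_comm [Finite B] {p : ℕ} (hp : p.Prime) (hF : ∀ n, ¬ p ∣ n → (n : F) ≠ 0) (L : Lift π K O)
    (hn : (Nat.card O : F) ≠ 0) (h1 : X ≤ normalizer (O : Set B))
    (hc : ∀ v, (∀ o ∈ O, σ o v = v) → ∀ y ∈ ⁅X, X⁆, σ y v = v) (h2 : ¬ p ^ 2 ∣ Nat.card X) :
    ∃ D, Lift π D ⁅⁅X, X⁆, ⁅X, X⁆⁆ ∧ ∀ K', Lift π K' X → K ≤ K' → D ≤ K' := by
  have I : Inj π ⁅normalizer (K : Set E) ⊓ ⁅X, X⁆.comap π, normalizer (K : Set E) ⊓ ⁅X, X⁆.comap π⁆ :=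
    h.inj_comm hp hF (fun v a y b => hc v (h.fix L a.1) _ b.2) fun a => h2 (a.trans (card_dvd_of_le
      (map_le_iff_le_comap.2 (inf_le_right.trans (comap_mono (comm_le X))))))
  have D := Lift.map_comm (X := ⁅X, X⁆) (fun x a => let ⟨e, b, c⟩ := h.frattini L hn (h1 (comm_le X a))
    ⟨e, mem_inf.2 ⟨b, (c ▸ a : π e ∈ ⁅X, X⁆)⟩, c⟩) (fun _ a => (mem_inf.1 a).2) I
  refine ⟨_, D, fun K' L' a => ?_⟩
  have L1 := L'.inf (comm_le X)
  have b : K' ⊓ ⁅X, X⁆.comap π ≤ normalizer (K : Set E) ⊓ ⁅X, X⁆.comap π :=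
    inf_le_inf_right _ fun k c => L.norm L'.inj a c (h1 (L'.mem k c))
  exact ((Lift.map_comm L1.ex L1.mem fun k c => L1.inj k (comm_le _ c)).le D
    (commutator_mono b b)).trans ((comm_le _).trans inf_le_left)

end Ext

end Cfsg.Lib.Mon.XC
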