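import Cfsg.Agent.Mon.XHc
import Cfsg.Agent.Mon.XCoh

/-! Subgroups of the Baby Monster and their fixed points on the module of degree 4371. -/

set_option autoImplicit false

namespace Cfsg.Lib.Mon.XH

open Subgroup Cfsg.Lib.Mon.Kit Cfsg.Lib.Mon.B4 Cfsg.Lib.Mon.B4.BR Cfsg.Lib.Solv
open scoped commutatorElement

local notation "𝓗" => FxS [pT]

variable {Y : Type*} [Group Y] {A : Am Y} {K L : Subgroup GH} {g : GH} {X O : Subgroup A.Baby}

variable (A) in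
/-- The image of a subgroup of `H`. -/
noncomputable def kp (K : Subgroup GH) : Subgroup A.Baby := (K.subgroupOf 𝓗).map A.κ

theorem kap_mem (a : g ∈ K) (b : g ∈ 𝓗) : kap A g ∈ kp A K := ⟨⟨g, b⟩, a, (kap_eq b).symm⟩

theorem mem_kp {x : A.Baby} (h : x ∈ kp A K) : ∃ g ∈ K, g ∈ 𝓗 ∧ kap A g = x :=
  let ⟨g, a, b⟩ := h; ⟨g, a, g.2, (kap_eq g.2).trans b⟩

theorem kp_mono (h : K ≤ L) : kp A K ≤ kp A L := map_mono (comap_mono h)

theorem kp_comm (h : K ≤ 𝓗) : ⁅kp A K, kp A K⁆ = kp A ⁅K, K⁆ := by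
  rw [kp, ← map_commutator, kp]
  conv_rhs => rw [← map_subgroupOf_eq_of_le h, ← map_commutator, subgroupOf,
    comap_map_eq_self_of_injective (𝓗).subtype_injective]

variable (A) in
/-- The preimage of a subgroup of the Baby Monster. -/
noncomputable def pre (X : Subgroup A.Baby) : Subgroup GH := (X.comap A.κ).map (𝓗).subtype

theorem mem_pre (b : g ∈ 𝓗) (a : kap A g ∈ X) : g ∈ pre A X := ⟨⟨g, b⟩, mem_comap.2 (by rwa [← kap_eq b]), rfl⟩

theorem kp_le (h : K ≤ pre A X) : kp A K ≤ X := fun _ a => by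
  obtain ⟨g, b, -, rfl⟩ := mem_kp a
  obtain ⟨g, c, rfl⟩ := h b
  rw [coe_subtype, kap_eq g.2]
  exact c

theorem card_kp : Nat.card (kp A NH) ∣ 2 ^ 35 * 443520 :=
  (Subgroup.card_map_dvd _ _).trans ((card_comap_dvd_of_injective _ _ (𝓗).subtype_injective).trans card_H_inf_N.dvd)

theorem fin (hA : A.Enum) : Finite A.Baby := Nat.finite_of_card_ne_zero (by rw [hA.card_baby]; norm_num)

theorem sq_not_dvd {p : ℕ} (hp : p.Prime) (h5 : 5 ≤ p) :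
    ¬ p ^ 2 ∣ Nat.card (kp A NH) ∧ (p ∣ Nat.card (kp A NH) → p = 5 ∨ p = 7 ∨ p = 11) := by
  have k : p ∣ 2 ^ 35 * 443520 → p = 5 ∨ p = 7 ∨ p = 11 := fun h => by
    rw [show 2 ^ 35 * 443520 = 2 ^ 42 * 3 ^ 2 * 5 * 7 * 11 by norm_num] at h
    simp only [hp.dvd_mul, hp.prime.dvd_pow_iff_dvd (by norm_num : 42 ≠ 0), hp.prime.dvd_pow_iff_dvd two_ne_zero,
      Nat.prime_dvd_prime_iff_eq hp (by norm_num : Nat.Prime 2),
      Nat.prime_dvd_prime_iff_eq hp (by norm_num : Nat.Prime 3),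
      Nat.prime_dvd_prime_iff_eq hp (by norm_num : Nat.Prime 5),
      Nat.prime_dvd_prime_iff_eq hp (by norm_num : Nat.Prime 7),
      Nat.prime_dvd_prime_iff_eq hp (by norm_num : Nat.Prime 11)] at h
    omega
  refine ⟨fun h => ?_, fun h => k (h.trans card_kp)⟩
  have := h.trans card_kp
  rcases k ((dvd_pow_self p two_ne_zero).trans this) with rfl | rfl | rfl <;> norm_num at this

theorem not_dvd_relIndex (hA : A.Enum) {p : ℕ} (hp : p.Prime) (h5 : 5 ≤ p) :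
    ¬ p ∣ (⁅⁅kp A NH, kp A NH⁆, ⁅kp A NH, kp A NH⁆⁆).relIndex (kp A NH) := fun h => by
  obtain ⟨a, b⟩ := sq_not_dvd (A := A) hp h5
  rw [kp_comm fun _ => NH_H, kp_comm ((comm_le_self _).trans fun _ => NH_H)] at h
  obtain ⟨g, c, d, e⟩ := exists_cyc (b (h.trans (relIndex_dvd_card _ _)))
  have f := NH_H (NH2_le c)
  have i : p ∣ Nat.card (kp A ⁅⁅NH, NH⁆, ⁅NH, NH⁆⁆) := by
    by_contra n
    have h1 : (⟨_, kap_mem (A := A) c f⟩ : kp A _) ^ Nat.card (kp A ⁅⁅NH, NH⁆, ⁅NH, NH⁆⁆) = 1 := pow_card_eq_one'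
    generalize Nat.card (kp A ⁅⁅NH, NH⁆, ⁅NH, NH⁆⁆) = m at h1 n
    have h2 := fix_of_kap hA (pow_mem f m) ((kap_eq _).trans ((map_pow A.κ ⟨g, f⟩ m).trans
      (kap_eq (A := A) f ▸ congrArg Subtype.val h1))) (y := pW) (by decide)
    obtain ⟨u, v, w⟩ := Nat.isCoprime_iff_coprime.2 ((Nat.Prime.coprime_iff_not_dvd hp).2 n)
    have := mul_mem (zpow_mem d u) (zpow_mem h2 v)
    rw [← zpow_natCast, ← zpow_natCast, ← zpow_mul, ← zpow_mul, ← zpow_add, mul_comm _ u, mul_comm _ v, w,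
      zpow_one] at this
    exact e this
  refine a ?_
  rw [← relIndex_bot_left, ← relIndex_mul_relIndex _ _ _ bot_le (kp_mono NH2_le), relIndex_bot_left, pow_two]
  exact mul_dvd_mul i h

/-! ### Normalisers -/

theorem conj_fix {x : GH} {p p' : ℕ} (hx : x ∈ FxS [p']) (hp : p' < 2 ^ 25)
    (h : φ g p % 2 ^ 24 = p' % 2 ^ 24) : g⁻¹ * x * g ∈ FxS [p] := by
  rw [mul_assoc, ← φ_eq_iff, φ_mul]
  have := (mem_FxS_one hp).1 hx
  rcases eq_or_neg_of_mod (φ_lt g p) hp h with e | e <;> rw [e]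
  · exact this.symm
  · rw [φ_neg, this]

theorem kap_norm [Finite A.Baby] (hg : g ∈ 𝓗) (h : ∀ x ∈ K, g⁻¹ * x * g ∈ K) :
    kap A g ∈ normalizer (kp A K : Set A.Baby) := by
  refine inv_mem_iff.1 (mem_normalizer_fintype fun _ a => ?_)
  obtain ⟨x, b, c, rfl⟩ := mem_kp a
  rw [inv_inv, ← kap_inv hg, ← kap_mul (inv_mem hg) c, ← kap_mul (mul_mem (inv_mem hg) c) hg]
  exact kap_mem (h x b) (mul_mem (mul_mem (inv_mem hg) c) hg)

theorem τ_norm [Finite A.Baby] (hK : K ≤ NH) (h : ∀ n m, (n, m) ∈ NP → n ∈ NH → m ∈ K → n ∈ K) :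
    (A.τH : A.Baby) ∈ normalizer (kp A K : Set A.Baby) := by
  refine mem_normalizer_fintype fun _ a => ?_
  obtain ⟨m, b, -, rfl⟩ := mem_kp a
  obtain ⟨n, c, d⟩ := exists_fst (hK b)
  exact (eq_mul_inv_of_mul_eq (kap_hN (A := A) d (NH_H c))) ▸ kap_mem (h n m d c b) (NH_H c)

/-- The centraliser of `w` in `N ∩ H`. -/
noncomputable def M3 : Subgroup GH := NH ⊓ FxS [pW]

/-- The centraliser of `w`, `w'` in `N ∩ H`. -/
noncomputable def M4 : Subgroup GH := M3 ⊓ FxS [pW']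

theorem M3_le : M3 ≤ NH := inf_le_left

theorem M4_le : M4 ≤ M3 := inf_le_left

theorem conj_H {x : GH} (hg : g ∈ 𝓗) (hx : x ∈ 𝓗) : g⁻¹ * x * g ∈ 𝓗 := mul_mem (mul_mem (inv_mem hg) hx) hg

section Fin

variable [Finite A.Baby]

theorem τ_N : (A.τH : A.Baby) ∈ normalizer (kp A NH : Set A.Baby) := τ_norm le_rfl fun _ _ _ a _ => a

theorem τ_M3 : (A.τH : A.Baby) ∈ normalizer (kp A M3 : Set A.Baby) :=
  τ_norm M3_le fun _ _ e a b => ⟨a, (NP_fix e (by decide)).2 b.2⟩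

theorem τ_M4 : (A.τH : A.Baby) ∈ normalizer (kp A M4 : Set A.Baby) :=
  τ_norm (M4_le.trans M3_le) fun _ _ e a b =>
    ⟨⟨a, (NP_fix e (by decide)).2 b.1.2⟩, (NP_fix e (by decide)).2 b.2⟩

omit [Finite A.Baby] in
theorem conj_M3 {x : GH} (h : x ∈ M3) : (el rN1)⁻¹ * x * el rN1 ∈ M3 :=
  ⟨⟨conj_H N1_mem_H h.1.1, conj_fix h.2 (by decide) (by rw [φ_N1_Z1])⟩,
    conj_fix h.1.2 (by decide) (by rw [φ_N1_W])⟩

theorem n_M3 : kap A (el rN1) ∈ normalizer (kp A M3 : Set A.Baby) := kap_norm N1_mem_H fun _ => conj_M3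

theorem n_M4 : kap A (el rN1) ∈ normalizer (kp A M4 : Set A.Baby) :=
  kap_norm N1_mem_H fun _ h => ⟨conj_M3 h.1, conj_fix h.2 (by decide) (by rw [φ_N1_W'])⟩

theorem δ_M3 : kap A (pq pD) ∈ normalizer (kp A M3 : Set A.Baby) :=
  kap_norm pD_mem_H fun _ h => ⟨⟨conj_H pD_mem_H h.1.1, conj_fix h.1.2 (by decide)
    (by rw [φ_pq _ (by decide)]; decide)⟩, conj_fix h.2 (by decide) (by rw [φ_pq _ (by decide)]; decide)⟩

theorem c_M4 : kap A (el rHc) ∈ normalizer (kp A M4 : Set A.Baby) :=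
  kap_norm c_NH.1 fun _ h => ⟨mem_inf.2 ⟨mul_mem (mul_mem (inv_mem c_NH) (M3_le h.1)) c_NH,
    conj_fix h.2 (by decide) (by rw [φ_c_W])⟩, conj_fix h.1.2 (by decide) (by rw [φ_c_W']; decide)⟩

end Fin

/-- `O_2`. -/
noncomputable abbrev O2 (X : Subgroup A.Baby) : Subgroup A.Baby := (pCore 2 X).map X.subtype

theorem O2_le : O2 X ≤ X := map_subtype_le _

theorem O2_norm {b : A.Baby} (h : b ∈ normalizer (X : Set A.Baby)) : b ∈ normalizer (O2 X : Set A.Baby) :=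
  normalizer_le_normalizer_map_pCore 2 X h

theorem pq_mem_O2 [Finite A.Baby] {q : ℕ} (a : pq q ∈ K) (b : Qp q) : kap A (pq q) ∈ O2 (kp A K) := by
  refine le_map_pCore (kp_mono inf_le_right) (fun x c => ?_)
    (((IsPGroup.of_card card_QH).to_inf_left.comap_subtype).map _) (kap_mem ⟨pq_mem_QH q, a⟩ b.mem)
  obtain ⟨g, d, e, rfl⟩ := mem_kp c
  exact kap_norm e fun x f => mem_inf.2 ⟨(MonoidHom.normal_ker pr).conj_mem' x f.1 g,
    mul_mem (mul_mem (inv_mem d) f.2) d⟩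

/-- Codes commuting with `t`, `Ω`, `w`, `w'`. -/
def P4 (q : ℕ) : Prop := Np q ∧ pcomm q pW = 0 ∧ pcomm q pW' = 0

theorem P4.mem {q : ℕ} (h : P4 q) : pq q ∈ M4 := ⟨⟨h.1.mem, pq_mem_FxS.2 h.2.1⟩, pq_mem_FxS.2 h.2.2⟩

theorem kap_n : kap A (el rN1) * kap A (el rN1) = 1 := by
  rw [← kap_mul N1_mem_H N1_mem_H]
  rcases N1_sq with e | e <;> rw [e]
  exacts [kap_one, by rw [mul_one, kap_cc]]

theorem H_le {K : Subgroup GH} (h1 : NH ≤ K) (h2 : el rN1 ∈ K) : 𝓗 ≤ K := by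
  refine H_le_of ((comm_le_self _).trans h1) h2 (h1 cc_NH) fun p hp => ?_
  have := pcomm_lt p pZ2
  obtain h | h : pcomm p pZ2 = 0 ∨ pcomm p pZ2 = 1 := by omega
  · exact h1 (Np.mem ⟨hp, h⟩)
  · have a : pq (φ (el rN1) 20) ∈ K := conj_pq _ _ ▸
      mul_mem (mul_mem h2 (h1 (Np.mem (by decide)))) (inv_mem h2)
    refine (K.mul_mem_cancel_left a).1 ?_
    rw [pq_mul]
    refine h1 (Np.mem ⟨Qp.mul (Qp.φ N1_mem_H (by decide)) hp, ?_⟩)
    rw [pcomm_pmul', h, ← pcomm_Z1, ← φ_N1_W, pcomm_φ]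
    decide

/-! ### Fixed points -/

variable {F V : Type*} [Field F] [AddCommGroup V] [Module F V]

theorem QW0_of {ρ : BR F V} {u v : V} (G : ρ.Full u) (h : ∀ q, P4 q → ρ.x q v = v) : v ∈ ρ.QW 0 := by
  have d : ∀ q, Dp q → P4 q := fun q a => ⟨a.np, a.comm (by decide), a.comm (by decide)⟩
  refine Submodule.span_le.2 ?_ (Wt_filter (P := P4) (χ := fun _ => 0) (fun q a =>
    ⟨⟨(pcomm_mod25 _ _).trans a.1.1, (pcomm_mod25 _ _).trans a.1.2⟩, (pcomm_mod25 _ _).trans a.2.1,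
      (pcomm_mod25 _ _).trans a.2.2⟩) (fun _ => rfl)
    (fun w a => (G.Sp_wt a).elim fun c b => ⟨fun q => pcomm q c, fun q e => b q e.1.1⟩)
    (G.mem_Sp (h _ (d _ (by decide)))) fun q a => by rw [h q a, sgF_zero, one_smul])
  rintro w ⟨⟨g, a, rfl⟩ | a, b⟩
  · have c := G.S2_wt a
    suffices ρ.r g (ρ.ee u) = 0 from this ▸ zero_mem _
    by_cases e : Dp (φ g pT2)
    · obtain ⟨j, f, i⟩ := diag_cases ⟨g, a, rfl⟩ e
      obtain ⟨q, -, k, l⟩ := q_ok j f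
      exact Wt_zero (P := P4) (χ := fun q => pcomm q (φ g pT2)) (fun q e => c q e.1.1) b k (by
        rw [i.pc k.1, l]; decide)
    · exact DW_zero (d' := 0) (NW_DW (QW_NW c) rfl) (DW0_iff.2 fun q f => by
        simp only [pcomm_zero']; exact b q (d q f)) two_pos two_pos fun f => e f.2
  · exact G.S1_wt a

variable {σ : A.Baby →* Module.End F V} {h2 : (2 : F) ≠ 0} {u v : V}

theorem fix_norm {b : A.Baby} (h : b ∈ normalizer (O : Set A.Baby)) (hv : ∀ o ∈ O, σ o v = v) :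
    ∀ o ∈ O, σ o (σ b v) = σ b v := fun o a => by
  conv_rhs => rw [← hv _ ((mem_normalizer_iff''.1 h o).1 a)]
  rw [← Module.End.mul_apply, ← Module.End.mul_apply, ← map_mul, ← map_mul, mul_assoc, mul_inv_cancel_left]

theorem fix_line (G : (ofRep σ h2).Full u) (hq : ∀ q, P4 q → kap A (pq q) ∈ O)
    (hτ : (A.τH : A.Baby) ∈ normalizer (O : Set A.Baby)) (hv : ∀ o ∈ O, σ o v = v) :
    ∃ c : F, v = c • (ofRep σ h2).a0 u :=
  have a := QW0_of G fun q b => hv _ (hq q b)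
  G.a0_line a fun _ b => Z_fix a (T_fix a (QW0_of G fun q b => fix_norm hτ hv _ (hq q b))) (np3 b).1

theorem fix_comm (G : (ofRep σ h2).Full u) (hq : ∀ q, P4 q → kap A (pq q) ∈ O)
    (hτ : (A.τH : A.Baby) ∈ normalizer (O : Set A.Baby)) (hv : ∀ o ∈ O, σ o v = v) :
    ∀ y ∈ ⁅kp A NH, kp A NH⁆, σ y v = v := fun y a => by
  obtain ⟨c, rfl⟩ := fix_line G hq hτ hv
  obtain ⟨g, b, -, rfl⟩ := mem_kp (kp_comm (A := A) (fun _ => NH_H) ▸ a)
  rw [map_smul]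
  exact congrArg _ (G.comm_a0 b).2

theorem fix_zero (G : (ofRep σ h2).Full u) (hq : ∀ q, P4 q → kap A (pq q) ∈ O)
    (hτ : (A.τH : A.Baby) ∈ normalizer (O : Set A.Baby))
    (hn : kap A (el rN1) ∈ normalizer (O : Set A.Baby)) (hv : ∀ o ∈ O, σ o v = v) : v = 0 := by
  obtain ⟨c', a⟩ := fix_line G hq hτ (fix_norm hn hv)
  obtain ⟨c, rfl⟩ := fix_line G hq hτ hv
  have b : (ofRep σ h2).r (el rN1) (c • (ofRep σ h2).a0 u) = c' • (ofRep σ h2).a0 u := a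
  by_cases e : c' = 0
  · rw [← (ofRep σ h2).n1n1 (c • _), b, e, zero_smul, map_zero]
  · refine (G.a0_notMem ((Submodule.smul_mem_iff _ e).1 ?_)).elim
    rw [← b, map_smul, a0, (ofRep σ h2).n1n1]
    exact Submodule.smul_mem _ _ (add_mem (Submodule.subset_span ⟨_, one_mem _, rfl⟩)
      (Submodule.subset_span ⟨_, pp_spec.1, rfl⟩))

end Cfsg.Lib.Mon.XH
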