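import Cfsg.Agent.Mon.XFix

/-! Extensions of the Baby Monster by its module of degree 4371 split. -/

set_option autoImplicit false
set_option maxHeartbeats 1000000

namespace Cfsg.Lib.Mon.XH

open Subgroup Cfsg.Lib.Mon.B4 Cfsg.Lib.Mon.B4.BR Cfsg.Lib.Mon.XC Cfsg.Lib.Solv
open scoped commutatorElement

local notation "𝓗" => FxS [pT]

variable {Y E F V : Type*} [Group Y] [Group E] [Field F] [AddCommGroup V] [Module F V] {A : Am Y}
  {π : E →* A.Baby} {σ : A.Baby →* Module.End F V} {ι : V → E} {K K' : Subgroup E} {M : Subgroup GH}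
  {g : GH}

/-- The section given by a lift. -/
noncomputable def sec (π : E →* A.Baby) (K : Subgroup E) (g : GH) : E :=
  Function.invFunOn π K (kap A g)

theorem sec_spec (L : Lift π K (kp A M)) (a : g ∈ M) (b : g ∈ 𝓗) : sec π K g ∈ K ∧ π (sec π K g) = kap A g :=
  Function.invFunOn_pos (L.ex _ (kap_mem a b))

theorem exists_sys (L : Lift π K (kp A M)) (h : M ≤ 𝓗) (τ : E) :
    ∃ S : Sys GH E, S.L = M ∧ S.ι = sec π K ∧ S.τ = τ :=
  ⟨⟨M, sec π K, τ, fun a ha b hb => by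
    have c := sec_spec L ha (h ha)
    have d := sec_spec L hb (h hb)
    have e := sec_spec L (mul_mem ha hb) (h (mul_mem ha hb))
    exact L.inj.eq e.1 (mul_mem c.1 d.1) (by rw [map_mul, c.2, d.2, e.2, kap_mul (h ha) (h hb)])⟩, rfl, rfl, rfl⟩

theorem kap_c2 : kap A c2 = kap A (el rN1) * ((kap A (el rHc))⁻¹ * (kap A (el rN1) *
    (kap A (el rHc) * kap A (el rN1)))) := by
  have a := NH_H c_NH
  have b := mul_mem a N1_mem_H
  rw [c2, kap_mul N1_mem_H (mul_mem (inv_mem a) (mul_mem N1_mem_H b)), kap_mul (inv_mem a) (mul_mem N1_mem_H b),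
    kap_mul N1_mem_H b, kap_mul a N1_mem_H, kap_inv a]

theorem sec_one (L : Lift π K (kp A M)) (a : g ∈ M) (b : g ∈ 𝓗) (e : kap A g = 1) : sec π K g = 1 :=
  L.inj _ (sec_spec L a b).1 ((sec_spec L a b).2.trans e)

/-- The hypotheses. -/
structure Hyp (π : E →* A.Baby) (σ : A.Baby →* Module.End F V) (ι : V → E) (p : ℕ) : Prop where
  en : A.Enum
  ext : Ext π σ ι
  pr : p.Prime
  le : 5 ≤ p
  ne : ∀ n, ¬ p ∣ n → (n : F) ≠ 0
  full : ∃ h u, (ofRep σ h).Full u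

namespace Hyp

variable {p : ℕ} (H : Hyp π σ ι p)
include H

theorem card (X : Subgroup A.Baby) : (Nat.card (O2 X) : F) ≠ 0 := by
  have := fin H.en
  obtain ⟨n, e⟩ := (isPGroup_map_pCore 2 X).exists_card_eq
  refine H.ne _ fun a => ?_
  have := (Nat.prime_dvd_prime_iff_eq H.pr Nat.prime_two).1 (H.pr.dvd_of_dvd_pow (e ▸ a))
  have := H.le
  omega

theorem liftC (L : Lift π K (O2 (kp A NH))) : ∃ D, Lift π D ⁅⁅kp A NH, kp A NH⁆, ⁅kp A NH, kp A NH⁆⁆ ∧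
    ∀ K', Lift π K' (kp A NH) → K ≤ K' → D ≤ K' :=
  have := fin H.en
  let ⟨_, _, G⟩ := H.full
  H.ext.lift_comm H.pr H.ne L (H.card _) (fun _ a => O2_norm (le_normalizer a))
    (fun _ => fix_comm G (fun _ a => pq_mem_O2 a.1.mem a.1.1) (O2_norm τ_N)) (sq_not_dvd H.pr H.le).1

theorem liftN : ∃ K, Lift π K (kp A NH) := by
  obtain ⟨_, L⟩ := H.ext.gaschutz (Y := O2 (kp A NH)) Lift.bot (by rw [relIndex_bot_left]; exact H.card _)
  obtain ⟨_, D, -⟩ := H.liftC L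
  exact H.ext.gaschutz D (H.ne _ (not_dvd_relIndex H.en H.pr H.le))

theorem inj (L : Lift π K (O2 (kp A M))) (h : M4 ≤ M)
    (hτ : (A.τH : A.Baby) ∈ normalizer (kp A M : Set A.Baby))
    (hn : kap A (el rN1) ∈ normalizer (kp A M : Set A.Baby)) : Inj π (normalizer (K : Set E)) :=
  have := fin H.en
  let ⟨_, _, G⟩ := H.full
  H.ext.inj_norm L fun _ => fix_zero G (fun _ a => pq_mem_O2 (h a.mem) a.1.1) (O2_norm hτ) (O2_norm hn)

/-- Two lifts of `N ∩ H` that agree on `M3` are equal. -/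
theorem uniq (L : Lift π K (kp A NH)) (L' : Lift π K' (kp A NH))
    (h : ∀ k ∈ K, π k ∈ kp A M3 → k ∈ K') : K ≤ K' := by
  have := fin H.en
  obtain ⟨_, _, G⟩ := H.full
  obtain ⟨a, e⟩ := H.ext.conj (L.inf O2_le) (L'.inf O2_le) (H.card _)
  have m := H.ext.map a
  have ha := fix_comm (O := O2 (kp A NH) ⊓ kp A M3) (v := a) G
    (fun _ b => ⟨pq_mem_O2 b.1.mem b.1.1, kap_mem (M4_le b.mem) (Qp.mem b.1.1)⟩)
    (inf_normalizer_le_normalizer_inf ⟨O2_norm τ_N, τ_M3⟩) fun o b => by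
      obtain ⟨k, c, rfl⟩ := L.ex o (O2_le b.1)
      have := L'.inj.eq (mem_cj.1 (e.le ⟨c, b.1⟩)).1 (h k c b.2) (by simp [m])
      exact H.ext.inj (by rw [← H.ext.act, mul_inv_eq_iff_eq_mul, ← inv_mul_eq_iff_eq_mul, ← mul_assoc, this])
  obtain ⟨D, LD, hD⟩ := H.liftC (L.inf O2_le)
  have d1 := hD _ L inf_le_left
  have d2 := hD _ (L'.cj (e := ι a) (by rw [m]; exact one_mem _)) fun k b => mem_cj.2 (mem_cj.1 (e.le b)).1
  have key : kp A NH ≤ (K ⊓ K').map π := kp_le (NH_le (fun g b => ?_) fun g b => ?_)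
  · intro k b
    obtain ⟨k', c, d⟩ := key (L.mem k b)
    exact L.inj.eq c.1 b d ▸ c.2
  · have c := kap_mem (A := A) b (NH_H (NH2_le b))
    rw [← kp_comm ((comm_le _).trans fun _ => NH_H), ← kp_comm fun _ => NH_H] at c
    obtain ⟨k, d, f⟩ := LD.ex _ c
    have i := mem_cj.1 (d2 d)
    rw [mul_assoc, H.ext.comm (ha _ (f ▸ comm_le _ c)), inv_mul_cancel_left] at i
    exact mem_pre (NH_H (NH2_le b)) ⟨k, ⟨d1 d, i⟩, f⟩
  · obtain ⟨k, c, d⟩ := L.ex _ (kap_mem b.1 b.1.1)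
    exact mem_pre b.1.1 ⟨k, ⟨c, h k c (d ▸ kap_mem b b.1.1)⟩, d⟩

theorem liftH (L : Lift π K (kp A NH)) : ∃ Z, Lift π Z (kp A 𝓗) ∧ K ≤ Z := by
  have := fin H.en
  have L3 := L.inf (O2_le.trans (kp_mono M3_le))
  have L4 := L.inf (O2_le.trans (kp_mono (M4_le.trans M3_le)))
  have I3 := H.inj L3 M4_le τ_M3 n_M3
  have I4 := H.inj L4 le_rfl τ_M4 n_M4
  obtain ⟨n, n1, n2⟩ := H.ext.frattini L3 (H.card _) (O2_norm n_M3)
  have s := fun g (a : g ∈ NH) => sec_spec L a (NH_H a)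
  have k3 : ∀ k ∈ K, π k ∈ kp A M3 → k ∈ normalizer _ := fun k a b => mem_norm a (O2_norm (le_normalizer b))
  have n4 := L4.norm I3 (fun k a => k3 k a.1 (kp_mono M4_le (O2_le a.2))) n1 (by rw [n2]; exact O2_norm n_M4)
  have c4 := mem_norm (O := O2 (kp A M4)) (s _ c_NH).1 (by rw [(s _ c_NH).2]; exact O2_norm c_M4)
  obtain ⟨S, sL, sι, sτ⟩ := exists_sys L (fun _ => NH_H) n
  have lv : LvH S := by
    refine ⟨sL, ?_, fun g a b => ?_, ?_, ?_⟩ <;> simp only [sι, sτ]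
    · exact sec_one L cc_NH (NH_H cc_NH) kap_cc
    · have c := s _ (conj_N1 a b)
      have d := kap_mem (A := A) (show g ∈ M3 from ⟨a, b⟩) (NH_H a)
      rw [kap_mul N1_mem_H (mul_mem (NH_H a) N1_mem_H), kap_mul (NH_H a) N1_mem_H] at c
      refine I3.eq (mul_mem (mul_mem (inv_mem n1) (k3 _ (s g a).1 (by rwa [(s g a).2]))) n1)
        (mem_norm c.1 (by rw [c.2]; exact O2_norm (mul_mem n_M3 (mul_mem (le_normalizer d) n_M3)))) ?_
      rw [map_mul, map_mul, map_inv, n2, (s g a).2, c.2, inv_eq_of_mul_eq_one_right (kap_n (A := A)), mul_assoc]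
    · exact I3 _ (mul_mem n1 n1) (by rw [map_mul, n2, kap_n])
    · refine I4.eq (mul_mem (mul_mem n4 c4) n4) (mul_mem (mul_mem c4 n4) (mem_norm (s _ c2_NH).1 ?_)) ?_
      · rw [(s _ c2_NH).2, kap_c2]
        exact O2_norm (mul_mem n_M4 (mul_mem (inv_mem c_M4) (mul_mem n_M4 (mul_mem c_M4 n_M4))))
      · rw [map_mul, map_mul, map_mul, map_mul, n2, (s _ c_NH).2, (s _ c2_NH).2, kap_c2,
          mul_assoc (kap A (el rHc)), ← mul_assoc (kap A (el rN1)) (kap A (el rN1)), kap_n, one_mul,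
          mul_inv_cancel_left, mul_assoc]
  have hK : K ≤ S.M := fun k a => by
    obtain ⟨g, b, -, c⟩ := mem_kp (L.mem k a)
    rw [← L.inj.eq (s g b).1 a ((s g b).2.trans c), ← sι]
    exact Sys.ι_mem_M (sL.ge b)
  refine ⟨S.M, ⟨fun x a b => ?_, (closure_le ((kp A 𝓗).comap π)).2 ?_, kp_le (X := S.M.map π) (H_le
    (fun g a => mem_pre (NH_H a) ⟨_, hK (s g a).1, (s g a).2⟩)
    (mem_pre N1_mem_H ⟨_, Sys.τ_mem_M, by rw [sτ, n2]⟩))⟩, hK⟩
  · obtain ⟨g, c, rfl⟩ := lv.inj H.en π (fun g a => by rw [sι, (s g a).2]) (by rw [sτ, n2]) a b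
    exact L.inj _ (by rw [sι]; exact (s g c).1) b
  · rintro _ (⟨g, a, rfl⟩ | rfl)
    · have b : g ∈ NH := sL.le a
      exact mem_comap.2 (by rw [sι, (s g b).2]; exact kap_mem (NH_H b) (NH_H b))
    · exact mem_comap.2 (by rw [sτ, n2]; exact kap_mem N1_mem_H N1_mem_H)

theorem exists_am : ∃ S : Sys GH E, IsAm [pT] S ∧ (∀ g ∈ 𝓗, π (S.ι g) = kap A g) ∧ π S.τ = A.τH ∧
    S.ι (pq pT) = 1 := by
  have := fin H.en
  obtain ⟨K, L⟩ := H.liftN
  obtain ⟨Z, LH, hK⟩ := H.liftH L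
  have L3 := L.inf (O2_le.trans (kp_mono M3_le))
  have I3 := H.inj L3 M4_le τ_M3 n_M3
  obtain ⟨τ, τ1, τ2⟩ := H.ext.frattini L3 (H.card _) (O2_norm τ_M3)
  have z := fun g (a : g ∈ 𝓗) => sec_spec LH a a
  have z3 : ∀ g ∈ 𝓗, kap A g ∈ normalizer (kp A M3 : Set A.Baby) → sec π Z g ∈ normalizer _ := fun g a b =>
    L3.norm LH.inj (inf_le_left.trans hK) (z g a).1 (by rw [(z g a).2]; exact O2_norm b)
  have τ3 := (L.inf (kp_mono M3_le)).norm I3 (fun k a => mem_norm a.1 (O2_norm (le_normalizer a.2))) τ1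
    (by rw [τ2]; exact τ_M3)
  have τK := H.uniq L (L.cj (e := τ) (by rw [τ2]; exact τ_N)) fun k a b =>
    mem_cj.2 ((mem_normalizer_iff''.1 τ3 k).1 ⟨a, b⟩).1
  have δ3 := z3 _ pD_mem_H δ_M3
  obtain ⟨S, sL, sι, sτ⟩ := exists_sys LH le_rfl τ
  refine ⟨S, ⟨sL, ?_, fun g a m b e => ?_, ?_, ?_, ?_⟩, ?_, ?_, ?_⟩ <;> simp only [sι, sτ]
  · exact sec_one LH (cc_mem_FxS _) (cc_mem_FxS _) kap_cc
  · have c := sec_spec L (show g ∈ NH from ⟨a, NP_fst e⟩) a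
    rw [LH.inj.eq (z g a).1 (hK c.1) ((z g a).2.trans c.2.symm)]
    refine LH.inj.eq (hK (mem_cj.1 (τK c.1))) (z m b).1 ?_
    rw [map_mul, map_mul, map_inv, c.2, (z m b).2, mul_assoc, τ2]
    exact inv_mul_eq_of_eq_mul (kap_hN e a)
  · refine I3 _ (pow_mem (mul_mem τ1 δ3) 2) ?_
    have := kap_pow (A := A) (one_mem _) pD_mem_H (k := 2) (by rw [A.ι.map_one, one_mul, A.h2])
    rwa [kap_one, one_mul, ← τ2, ← (z _ pD_mem_H).2, ← map_mul, ← map_pow] at this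
  · refine I3 _ (pow_mem τ1 3) ?_
    have := kap_pow (A := A) (one_mem _) (one_mem _) (k := 3) (by rw [A.ι.map_one, one_mul, mul_one, A.h3])
    rwa [kap_one, one_mul, mul_one, ← τ2, ← map_pow] at this
  · refine I3 _ (pow_mem (mul_mem (mul_mem (z3 _ N1_mem_H n_M3) τ1) δ3) 3) ?_
    have := kap_pow N1_mem_H pD_mem_H A.tri
    rwa [← τ2, ← (z _ pD_mem_H).2, ← (z _ N1_mem_H).2, ← map_mul, ← map_mul, ← map_pow] at this
  · exact fun g a => (z g a).2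
  · exact τ2
  · exact sec_one LH tH.2 tH.2 kap_t

theorem split : ∃ K, Lift π K ⊤ := by
  obtain ⟨S, am, a, b, c⟩ := H.exists_am
  obtain ⟨ρ, r1, r2⟩ := am.exists_homB H.en
  have r3 : ∀ x, π (ρ x) = x := H1_ind
    (fun g => (congrArg π (r1 g g.2 _)).trans ((a g g.2).trans (kap_eq g.2))) ((congrArg π r2).trans b)
    fun x y a b => by rw [map_mul, map_mul, a, b, QuotientGroup.mk_mul]
  refine ⟨ρ.range, ?_, fun _ _ => trivial, fun x _ => QuotientGroup.induction_on x fun x => ⟨_, ⟨x, rfl⟩, r3 x⟩⟩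
  rintro _ ⟨x, rfl⟩ a
  exact (zpowers_le_of_mem (g := A.ιH tH) (H := ρ.ker) ((r1 _ tH.2 _).trans c))
    ((QuotientGroup.eq_one_iff x).1 ((r3 x).symm.trans a))

end Hyp

theorem exists_prime (h2 : ringChar F ≠ 2) (h3 : ringChar F ≠ 3) :
    ∃ p : ℕ, p.Prime ∧ 5 ≤ p ∧ ∀ n, ¬ p ∣ n → (n : F) ≠ 0 := by
  rcases CharP.char_is_prime_or_zero F (ringChar F) with h | h
  · exact ⟨_, h, h.five_le_of_ne_two_of_ne_three h2 h3, fun n a b => a ((ringChar.spec F n).1 b)⟩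
  · exact ⟨5, Nat.prime_five, le_rfl, fun n a b => a ((dvd_zero 5).trans (h ▸ (ringChar.spec F n).1 b))⟩

theorem exists_complement {G : Type*} [Group G] (e : G ≃* AM.Baby) (h2 : ringChar F ≠ 2) (h3 : ringChar F ≠ 3)
    {ρ : G →* GL (Fin 4371) F} (hρ : Function.Injective ρ) (N : Subgroup E) [N.Normal] (f : E ⧸ N ≃* G)
    (φ : Additive N ≃+ (Fin 4371 → F)) (hφ : ∀ (g : E) (a b : N), (b : E) = g * a * g⁻¹ →
      φ (Additive.ofMul b) = (ρ (f (QuotientGroup.mk g)) : Matrix (Fin 4371) (Fin 4371) F).mulVec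
        (φ (Additive.ofMul a))) : ∃ K : Subgroup E, N.IsComplement' K := by
  obtain ⟨p, a, b, c⟩ := exists_prime h2 h3
  have k : ∀ x : E, e (f x) = 1 ↔ x ∈ N := fun x => by
    rw [map_eq_one_iff _ e.injective, map_eq_one_iff _ f.injective, QuotientGroup.eq_one_iff]
  obtain ⟨K, L⟩ := Hyp.split (π := (f.trans e).toMonoidHom.comp (QuotientGroup.mk' N)) (σ := glRep e ρ)
    (ι := fun v => (Additive.toMul (φ.symm v) : N)) ⟨enumM, ⟨(f.trans e).surjective.comp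
      (QuotientGroup.mk'_surjective N), fun v w => by rw [map_add]; rfl,
      fun v w h => φ.symm.injective (Subtype.ext h), fun x => (k x).trans
        ⟨fun h => ⟨φ (Additive.ofMul ⟨x, h⟩), by rw [φ.symm_apply_apply]; rfl⟩, by
          rintro ⟨v, rfl⟩; exact Subtype.coe_prop _⟩, fun x v => by
      have := hφ x (Additive.toMul (φ.symm v)) ⟨_, ‹N.Normal›.conj_mem _ (Subtype.coe_prop _) x⟩ rfl
      rw [← glRep_apply e, ofMul_toMul, φ.apply_symm_apply] at this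
      exact congrArg (fun a : Additive N => (a.toMul : E)) (φ.eq_symm_apply.2 this)⟩, a, b, c,
      Ring.two_ne_zero h2, exists_full ((Module.finrank_fintype_fun_eq_card F).trans_le (Fintype.card_fin _).le)
        (ofRep_z _ (glRep_z e hρ))⟩
  refine ⟨K, isComplement'_of_disjoint_and_mul_eq_univ (disjoint_def.2 fun a b => L.inj _ b ((k _).2 a))
    (Set.eq_univ_of_forall fun x => ?_)⟩
  obtain ⟨y, a, b⟩ := L.ex _ (mem_top _)
  exact ⟨x * y⁻¹, (k _).1 ((map_mul_inv _ x y).trans (mul_inv_eq_one.2 b.symm)), y, a, inv_mul_cancel_right x y⟩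

end Cfsg.Lib.Mon.XH
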